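import Mathlib
import Cfsg.Prelude.Def_Characters
import Cfsg.Prelude.Def_Blocks

/-!
# S4705 (Brauer 1966: faithful irreducible character of degree `p - 2`) -- definitions (helper79)

`S4705Wk p x ζ`: `x` of order `p`, `p² ∤ |H|`, `⟨x⟩` not normal, `ζ` a faithful irreducible
character of degree `p - 2`, `p > 5`.
`S4705Shape p x ζ`: the local shape (`C(x) = ⟨x⟩ Z(H)`, `N(⟨x⟩)/C(x)` of order two, `ζ` on `⟨x⟩`).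
`S4705Blk`: the block over a central character.  `S4705TabL`: the block of `ζ`.
`S4705Tab1`: the principal block.
-/

set_option autoImplicit false
open Cfsg
open scoped ComplexConjugate

universe u

namespace Cfsg.Agent.Helper79

/-- The standing hypotheses (without perfectness). -/
structure S4705Wk {H : Type u} [Group H] (p : ℕ) (x : H) (ζ : H → ℂ) : Prop where
  hp : 5 < p
  hx : orderOf x = p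
  hsq : ¬ p ^ 2 ∣ Nat.card H
  hnn : ¬ (Subgroup.zpowers x).Normal
  hζ : Cfsg.IsIrrCharacter H ζ
  hfaith : ∀ g : H, ζ g = ζ 1 → g = 1
  hdeg : Cfsg.charDegree ζ + 2 = p

/-- The local shape: `C(x) = ⟨x⟩ Z(H)`, `x` is inverted, `N(⟨x⟩)` acts on `⟨x⟩` as `± 1`, and
`ζ` restricted to `⟨x⟩` is the regular character minus `ω` and `ω⁻¹`. -/
structure S4705Shape {H : Type u} [Group H] (p : ℕ) (x : H) (ζ : H → ℂ) : Prop where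
  hcent : ∀ g : H, g * x = x * g → ∃ i : ℕ, ∃ z ∈ Subgroup.center H, g = x ^ i * z
  hinv : ∃ t : H, t * x * t⁻¹ = x⁻¹
  hnorm : ∀ n : H, n * x * n⁻¹ ∈ Subgroup.zpowers x → n * x * n⁻¹ = x ∨ n * x * n⁻¹ = x⁻¹
  hval : ∃ ω : ℂ, IsPrimitiveRoot ω p ∧
    ∀ b : ℕ, ζ (x ^ b) + ω ^ b + ω⁻¹ ^ b = if p ∣ b then (p : ℂ) else 0

/-- `ξ` has the same central character as `ζ₀`. -/
def S4705Over {H : Type u} [Group H] (ζ₀ ξ : H → ℂ) : Prop :=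
  ∀ z ∈ Subgroup.center H, ξ z * ζ₀ 1 = ζ₀ z * ξ 1

/-- The irreducible characters with the central character of `ζ₀` not vanishing at `x`: two
characters `χ₁, χ₂` constant `c₁, c₂ = ± 1` on `⟨x⟩ \ 1` and the exceptional family `Y`. -/
structure S4705Blk {H : Type u} [Group H] (p : ℕ) (x : H) (ζ₀ : H → ℂ)
    (χ₁ χ₂ : Cfsg.IrrCharacter H) (c₁ c₂ ε : ℤ) (Y : Finset (Cfsg.IrrCharacter H)) : Prop where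
  hc₁ : c₁ = 1 ∨ c₁ = -1
  hc₂ : c₂ = 1 ∨ c₂ = -1
  hε : ε = 1 ∨ ε = -1
  ne : χ₁ ≠ χ₂
  ov₁ : S4705Over ζ₀ (χ₁ : H → ℂ)
  ov₂ : S4705Over ζ₀ (χ₂ : H → ℂ)
  ovY : ∀ ψ ∈ Y, S4705Over ζ₀ (ψ : H → ℂ)
  val₁ : ∀ b : ℕ, ¬ p ∣ b → (χ₁ : H → ℂ) (x ^ b) = (c₁ : ℂ)
  val₂ : ∀ b : ℕ, ¬ p ∣ b → (χ₂ : H → ℂ) (x ^ b) = (c₂ : ℂ)
  n₁ : χ₁ ∉ Y
  n₂ : χ₂ ∉ Y
  Yne : Y.Nonempty
  valY : ∀ ψ ∈ Y, ∃ ω : ℂ, IsPrimitiveRoot ω p ∧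
    ∀ b : ℕ, ¬ p ∣ b → (ψ : H → ℂ) (x ^ b) = (ε : ℂ) * (ω ^ b + ω⁻¹ ^ b)
  reg : ∀ ψ ∈ Y, ∀ g : H, ¬ p ∣ orderOf g →
    (c₁ : ℂ) * (χ₁ : H → ℂ) g + (c₂ : ℂ) * (χ₂ : H → ℂ) g = (ε : ℂ) * (ψ : H → ℂ) g
  Ysum : ∑ ψ ∈ Y, (ψ : H → ℂ) x = -(ε : ℂ)
  Ysq : ∑ ψ ∈ Y, (ψ : H → ℂ) x * conj ((ψ : H → ℂ) x) = (p : ℂ) - 2
  compl : ∀ ξ : Cfsg.IrrCharacter H, S4705Over ζ₀ (ξ : H → ℂ) → ξ ≠ χ₁ → ξ ≠ χ₂ → ξ ∉ Y →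
    (ξ : H → ℂ) x = 0

/-- The block of `ζ`: `X₁` of degree `1 + a p` (value `1` on `⟨x⟩ \ 1`), `X₂` of degree
`(a + 1) p - 1` (value `-1`), and the family `Y` of the `p`-conjugates of `ζ`. -/
structure S4705TabL {H : Type u} [Group H] (p : ℕ) (x : H) (ζ : H → ℂ) (a : ℕ)
    (X₁ X₂ : Cfsg.IrrCharacter H) (Y : Finset (Cfsg.IrrCharacter H)) : Prop where
  ov₁ : S4705Over ζ (X₁ : H → ℂ)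
  ov₂ : S4705Over ζ (X₂ : H → ℂ)
  ovY : ∀ ψ ∈ Y, S4705Over ζ (ψ : H → ℂ)
  deg₁ : (X₁ : H → ℂ) 1 = ((1 + a * p : ℕ) : ℂ)
  val₁ : ∀ b : ℕ, ¬ p ∣ b → (X₁ : H → ℂ) (x ^ b) = 1
  deg₂ : (X₂ : H → ℂ) 1 + 1 = (((a + 1) * p : ℕ) : ℂ)
  val₂ : ∀ b : ℕ, ¬ p ∣ b → (X₂ : H → ℂ) (x ^ b) = -1
  reg : ∀ g : H, ¬ p ∣ orderOf g → (X₂ : H → ℂ) g - (X₁ : H → ℂ) g = ζ g
  Yreg : ∀ ψ ∈ Y, ∀ g : H, ¬ p ∣ orderOf g → (ψ : H → ℂ) g = ζ g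
  Ysum : ∑ ψ ∈ Y, (ψ : H → ℂ) x = 1
  Ysq : ∑ ψ ∈ Y, (ψ : H → ℂ) x * conj ((ψ : H → ℂ) x) = (p : ℂ) - 2
  n₁ : X₁ ∉ Y
  n₂ : X₂ ∉ Y
  ne : X₁ ≠ X₂
  compl : ∀ ξ : Cfsg.IrrCharacter H, S4705Over ζ (ξ : H → ℂ) → ξ ≠ X₁ → ξ ≠ X₂ → ξ ∉ Y →
    (ξ : H → ℂ) x = 0

/-- The principal block: the trivial character, `X` of degree `m p + δ` (value `δ = ± 1` on
`⟨x⟩ \ 1`), and the exceptional family `Y` (equal to `X + δ` on the `p`-regular elements). -/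
structure S4705Tab1 {H : Type u} [Group H] (p : ℕ) (x : H) (m : ℕ) (δ : ℤ)
    (X : Cfsg.IrrCharacter H) (Y : Finset (Cfsg.IrrCharacter H)) : Prop where
  hδ : δ = 1 ∨ δ = -1
  hm : 1 ≤ m
  trivX : ∀ z ∈ Subgroup.center H, (X : H → ℂ) z = (X : H → ℂ) 1
  trivY : ∀ ψ ∈ Y, ∀ z ∈ Subgroup.center H, (ψ : H → ℂ) z = (ψ : H → ℂ) 1
  deg : (X : H → ℂ) 1 = ((m * p : ℕ) : ℂ) + (δ : ℂ)
  val : ∀ b : ℕ, ¬ p ∣ b → (X : H → ℂ) (x ^ b) = (δ : ℂ)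
  Yreg : ∀ ψ ∈ Y, ∀ g : H, ¬ p ∣ orderOf g → (ψ : H → ℂ) g = (X : H → ℂ) g + (δ : ℂ)
  Ysum : ∑ ψ ∈ Y, (ψ : H → ℂ) x = -(δ : ℂ)
  Yfix : ∀ ψ ∈ Y, ∑ b ∈ Finset.range p, (ψ : H → ℂ) (x ^ b) = ((m * p : ℕ) : ℂ)
  Xne1 : (X : H → ℂ) ≠ fun _ => 1
  Yne1 : ∀ ψ ∈ Y, (ψ : H → ℂ) ≠ fun _ => 1
  XnY : X ∉ Y
  compl : ∀ ξ : Cfsg.IrrCharacter H, (∀ z ∈ Subgroup.center H, (ξ : H → ℂ) z = (ξ : H → ℂ) 1) →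
    (ξ : H → ℂ) ≠ (fun _ => 1) → ξ ≠ X → ξ ∉ Y → (ξ : H → ℂ) x = 0

end Cfsg.Agent.Helper79
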