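import Cfsg.Agent.Helper79.FongReynolds4
import Cfsg.Agent.Helper77.Defect

/-!
# Fong–Reynolds, part 5: defect groups and heights

* `fr_block_eq`: a block induced from a block of `T` is the block of any induced character.
* `fr_charDegree_ind`: the degree of an induced character.
* `fr_defect_height`: under the Fong–Reynolds correspondence defect groups and heights are
  preserved.
-/

set_option autoImplicit false
set_option linter.unusedSectionVars false
open Cfsg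
open scoped ComplexConjugate

namespace Cfsg.Agent.Helper79

universe u

section fr5

variable {G : Type u} [Group G] [Fintype G] {M : Ideal Cfsg.AlgInt}
  (N : Subgroup G) [hN : N.Normal] [Fintype N] (T : Subgroup G) [Fintype T]
  {b : Set (Cfsg.IrrCharacter N)}

/-- A block induced from `B'` is the block of `ψ₀^G` for any `ψ₀ ∈ B'`. -/
theorem fr_block_eq (hM : M.IsMaximal) {B' : Set (Cfsg.IrrCharacter T)}
    {B : Set (Cfsg.IrrCharacter G)} (hind : Cfsg.IsInducedBlock M T B' B)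
    {ψ₀ : Cfsg.IrrCharacter T} (hψ₀ : ψ₀ ∈ B') :
    B = Cfsg.blockOf M (Cfsg.indFun T (ψ₀ : T → ℂ)) := by
  obtain ⟨χ, hχ⟩ := Helper16.exists_mem_of_isPBlock hM hind.2.1
  have h1 : χ ∈ Cfsg.blockOf M (Cfsg.indFun T (ψ₀ : T → ℂ)) := by
    intro g
    have := hind.2.2 ψ₀ hψ₀ χ hχ g
    rwa [Helper16.inducedCentralChar_eq_centralChar_indFun] at this
  rw [Helper16.eq_blockOf_of_mem hM hind.2.1 hχ]
  exact Helper16.blockOf_eq_of_mem hM h1

/-- The degree of an induced character. -/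
theorem fr_charDegree_ind (ψ : Cfsg.IrrCharacter T) :
    Cfsg.charDegree (Cfsg.indFun T (ψ : T → ℂ)) = T.index * Cfsg.charDegree (ψ : T → ℂ) := by
  have h : Cfsg.indFun T (ψ : T → ℂ) 1 = ((T.index * Cfsg.charDegree (ψ : T → ℂ) : ℕ) : ℂ) := by
    rw [Helper3.indFun_apply_one, Helper81.irr_one_eq_charDegree, Nat.cast_mul]
  show ⌊(Cfsg.indFun T (ψ : T → ℂ) 1).re⌋₊ = _
  rw [h, Complex.natCast_re, Nat.floor_natCast]

/-- **Fong–Reynolds: defect groups and heights.** -/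
theorem fr_defect_height {p : ℕ} [Fact p.Prime] (hM : Cfsg.IsPModular p M)
    (hb : Cfsg.IsPBlock M b) (hNT : N ≤ T)
    (hst : ∀ t ∈ T, ∀ θ ∈ b, Helper16.irrConj N t θ ∈ b)
    (hdis : ∀ x : G, x ∉ T → ∀ θ ∈ b, Helper16.irrConj N x θ ∉ b)
    {B' : Set (Cfsg.IrrCharacter T)} (hB' : Cfsg.IsPBlock M B')
    {ψ₀ : Cfsg.IrrCharacter T} (hψ₀ : ψ₀ ∈ B') (hcov : ψ₀ ∈ frCov N T hNT b)
    {B : Set (Cfsg.IrrCharacter G)} (hind : Cfsg.IsInducedBlock M T B' B) :
    (∀ D : Subgroup T, Cfsg.IsDefectGroup p M B' D →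
      Cfsg.IsDefectGroup p M B (D.map T.subtype)) ∧
    ∀ ψ ∈ B', ∃ χ ∈ B, (χ : G → ℂ) = Cfsg.indFun T (ψ : T → ℂ) ∧
      Cfsg.blockHeight p B (χ : G → ℂ) = Cfsg.blockHeight p B' (ψ : T → ℂ) := by
  classical
  have hMm : M.IsMaximal := hM.2.1
  have hBeq := fr_block_eq T hMm hind hψ₀
  obtain ⟨-, -, -, hirr, hiff⟩ := fr_main N T hMm hb hNT hst hdis hB' hψ₀ hcov
  rw [← hBeq] at hiff
  have hidx : T.index ≠ 0 := Subgroup.index_ne_zero_of_finite
  have hdeg : ∀ (ψ : Cfsg.IrrCharacter T) (χ : Cfsg.IrrCharacter G),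
      (χ : G → ℂ) = Cfsg.indFun T (ψ : T → ℂ) →
      (Cfsg.charDegree (χ : G → ℂ)).factorization p
        = (T.index).factorization p + (Cfsg.charDegree (ψ : T → ℂ)).factorization p := by
    intro ψ χ h
    rw [h, fr_charDegree_ind, Nat.factorization_mul hidx (Helper81.charDegree_pos ψ).ne']
    rfl
  have hS : sInf ((fun χ : Cfsg.IrrCharacter G =>
        (Cfsg.charDegree (χ : G → ℂ)).factorization p) '' B)
      = (T.index).factorization p + sInf ((fun ψ : Cfsg.IrrCharacter T =>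
        (Cfsg.charDegree (ψ : T → ℂ)).factorization p) '' B') := by
    have hne' : ((fun ψ : Cfsg.IrrCharacter T =>
        (Cfsg.charDegree (ψ : T → ℂ)).factorization p) '' B').Nonempty := ⟨_, ψ₀, hψ₀, rfl⟩
    apply le_antisymm
    · obtain ⟨ψ, hψ, hψeq⟩ := Nat.sInf_mem hne'
      apply Nat.sInf_le
      refine ⟨⟨_, hirr ψ hψ⟩, (hiff _).mpr ⟨ψ, hψ, rfl⟩, ?_⟩
      show (Cfsg.charDegree ((⟨_, hirr ψ hψ⟩ : Cfsg.IrrCharacter G) : G → ℂ)).factorization p = _
      rw [hdeg ψ (⟨_, hirr ψ hψ⟩ : Cfsg.IrrCharacter G) rfl, ← hψeq]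
    · apply le_csInf
      · exact ⟨_, ⟨_, hirr ψ₀ hψ₀⟩, (hiff _).mpr ⟨ψ₀, hψ₀, rfl⟩, rfl⟩
      · rintro _ ⟨χ, hχ, rfl⟩
        obtain ⟨ψ, hψ, hψχ⟩ := (hiff χ).mp hχ
        show _ ≤ (Cfsg.charDegree (χ : G → ℂ)).factorization p
        rw [hdeg ψ χ hψχ]
        have hmem : (Cfsg.charDegree (ψ : T → ℂ)).factorization p ∈ ((fun ψ : Cfsg.IrrCharacter T =>
            (Cfsg.charDegree (ψ : T → ℂ)).factorization p) '' B') := ⟨ψ, hψ, rfl⟩
        exact Nat.add_le_add_left (Nat.sInf_le hmem) _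
  constructor
  · intro D hD
    obtain ⟨E₀, hE₀⟩ := Helper16.exists_isDefectGroup (p := p) hMm hind.2.1
    have hle := Helper16.induced_defect_conjLE hM T hind hD hE₀
    obtain ⟨E, hE, hDE⟩ := Helper16.exists_isDefectGroup_ge hE₀ hle
    have hc1 : Nat.card (D.map T.subtype) = Nat.card D :=
      Subgroup.card_map_of_injective T.subtype_injective
    have hc2 := Helper77.card_of_isDefectGroup hM hB' hD
    have hc3 := Helper77.card_of_isDefectGroup hM hind.2.1 hE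
    have hdef : Cfsg.blockDefect p B = Cfsg.blockDefect p B' := by
      unfold Cfsg.blockDefect
      rw [hS, ← Subgroup.card_mul_index T,
        Nat.factorization_mul Nat.card_pos.ne' hidx]
      simp only [Finsupp.coe_add, Pi.add_apply]
      omega
    have hEq : D.map T.subtype = E :=
      Subgroup.eq_of_le_of_card_ge hDE (by rw [hc1, hc2, hc3, hdef])
    rw [hEq]
    exact hE
  · intro ψ hψ
    refine ⟨⟨_, hirr ψ hψ⟩, (hiff _).mpr ⟨ψ, hψ, rfl⟩, rfl, ?_⟩
    unfold Cfsg.blockHeight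
    rw [hS, hdeg ψ (⟨_, hirr ψ hψ⟩ : Cfsg.IrrCharacter G) rfl]
    exact Nat.add_sub_add_left _ _ _

end fr5

end Cfsg.Agent.Helper79
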