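import Cfsg.Agent.Helper79.FongReynolds5
import Cfsg.Agent.Helper75.BlockTransport
import Cfsg.Agent.Helper75.DefClass
import Cfsg.Agent.Helper16.BrauerCorr
import Cfsg.Agent.Helper16.BK

/-!
# Blocks covering a block with a normal defect group `P` of `N ⊇ C_G(P)`

`N ⊴ G`, `P ⊴ G` a `p`-subgroup with `C_G(P) ≤ N`.

* `fr_induced_of_cover`: every block of `G` covering the block `b` of `N` is induced from `b`
  (so there is exactly one).
* `fr_defect_iff`: if moreover `P ≤ N` is a defect group of `b` and `T` is the stabilizer of `b`,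
  then the block of `G` covering `b` has defect group `P` iff `p ∤ |T : N|`.
-/

set_option autoImplicit false
set_option linter.unusedSectionVars false
open Cfsg
open scoped ComplexConjugate

namespace Cfsg.Agent.Helper79

universe u

section fr6

variable {G : Type u} [Group G] [Fintype G] {M : Ideal Cfsg.AlgInt}
  (N : Subgroup G) [hN : N.Normal] [Fintype N] (T : Subgroup G) [Fintype T]
  {b : Set (Cfsg.IrrCharacter N)}

/-- If `N ⊴ G` contains the centralizer of a normal `p`-subgroup, every block of `G` covering the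
block `b` of `N` is induced from `b`. -/
theorem fr_induced_of_cover {p : ℕ} [Fact p.Prime] (hM : Cfsg.IsPModular p M)
    (Pn : Subgroup G) [Pn.Normal] (hPn : IsPGroup p Pn)
    (hC : Subgroup.centralizer (Pn : Set G) ≤ N) (hb : Cfsg.IsPBlock M b)
    {B : Set (Cfsg.IrrCharacter G)} (hB : Cfsg.IsPBlock M B)
    {χ₀ : Cfsg.IrrCharacter G} (hχ₀ : χ₀ ∈ B) {θ₀ : Cfsg.IrrCharacter N} (hθ₀ : θ₀ ∈ b)
    (hne : Cfsg.classInner (fun n : N => (χ₀ : G → ℂ) n) (θ₀ : N → ℂ) ≠ 0) :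
    Cfsg.IsInducedBlock M N b B := by
  have hMm : M.IsMaximal := hM.2.1
  refine ⟨hb, hB, fun ξ hξ χ hχ g => ?_⟩
  by_cases hg : g ∈ N
  · have h := Helper76.centralChar_sub_inducedCentralChar_memLocalIdeal hMm N χ₀ χ
      (Helper16.sameBlock_of_mem hMm hB hχ₀ hχ) θ₀ ξ (Helper16.sameBlock_of_mem hMm hb hθ₀ hξ)
      hne ⟨g, hg⟩
    have h2 := Helper77.memLocalIdeal_neg h
    rwa [neg_sub] at h2
  · have h0 : (fun h : N => Helper81.classInd g (h : G)) = 0 := by
      funext h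
      unfold Helper81.classInd
      rw [if_neg]
      · rfl
      · intro hc
        obtain ⟨c, hc⟩ := isConj_iff.mp hc
        apply hg
        have h1 : g = c⁻¹ * (h : G) * c⁻¹⁻¹ := by rw [← hc]; group
        rw [h1]
        exact hN.conj_mem _ h.2 _
    rw [Helper16.inducedCentralChar_eq_omega_res, h0, Helper16.omega_zero, zero_sub]
    exact Helper77.memLocalIdeal_neg
      (Helper16.centralChar_memLocalIdeal_of_not_mem_centralizer hM Pn hPn χ g
        (fun h => hg (hC h)))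

/-- **Extended first main theorem, stabilizer criterion (normal case).** -/
theorem fr_defect_iff {p : ℕ} [Fact p.Prime] (hM : Cfsg.IsPModular p M)
    (hb : Cfsg.IsPBlock M b) (hNT : N ≤ T)
    (hst : ∀ t ∈ T, ∀ θ ∈ b, Helper16.irrConj N t θ ∈ b)
    (hdis : ∀ x : G, x ∉ T → ∀ θ ∈ b, Helper16.irrConj N x θ ∉ b)
    (Pn : Subgroup G) [Pn.Normal] (hPn : IsPGroup p Pn) (hPnN : Pn ≤ N)
    (hC : Subgroup.centralizer (Pn : Set G) ≤ N)
    (hbP : Cfsg.IsDefectGroup p M b (Pn.subgroupOf N))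
    {B₁ : Set (Cfsg.IrrCharacter G)} (hB₁ : Cfsg.IsPBlock M B₁)
    {χ₀ : Cfsg.IrrCharacter G} (hχ₀ : χ₀ ∈ B₁) {θ₀ : Cfsg.IrrCharacter N} (hθ₀ : θ₀ ∈ b)
    (hne : Cfsg.classInner (fun n : N => (χ₀ : G → ℂ) n) (θ₀ : N → ℂ) ≠ 0) :
    Cfsg.IsDefectGroup p M B₁ Pn ↔ ¬ p ∣ N.relIndex T := by
  classical
  have hMm : M.IsMaximal := hM.2.1
  have hp : p.Prime := Fact.out
  obtain ⟨ψ, hψ, -, hind⟩ := fr_exists N T hMm hb hNT hst hdis hB₁ hχ₀ hθ₀ hne
  have hB' : Cfsg.IsPBlock M (Cfsg.blockOf M (ψ : T → ℂ)) := ⟨ψ, rfl⟩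
  have hψB' : ψ ∈ Cfsg.blockOf M (ψ : T → ℂ) := Helper16.sameBlock_refl hMm _
  have hdef := (fr_defect_height N T hM hb hNT hst hdis hB' hψB' hψ hind).1
  have hU := fr_induced_of_cover N hM Pn hPn hC hb hB₁ hχ₀ hθ₀ hne
  -- nested data
  let _ : Fintype ↥(N.subgroupOf T) := Fintype.ofFinite _
  have hb' : Cfsg.IsPBlock M (Helper75.irrComp (Subgroup.subgroupOfEquivOfLe hNT) '' b) :=
    Helper75.isPBlock_image_irrComp _ hb
  have hinv' : ∀ t : T, ∀ θ' ∈ Helper75.irrComp (Subgroup.subgroupOfEquivOfLe hNT) '' b,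
      Helper16.irrConj (N.subgroupOf T) t θ'
        ∈ Helper75.irrComp (Subgroup.subgroupOfEquivOfLe hNT) '' b := by
    rintro t _ ⟨θ, hθ, rfl⟩
    refine ⟨Helper16.irrConj N (t : G) θ, hst t t.2 θ hθ, ?_⟩
    apply Subtype.ext
    funext k
    rw [Helper75.irrComp_apply, Helper16.irrConj_apply, Helper16.irrConj_apply,
      Helper75.irrComp_apply]
    exact congrArg (θ : N → ℂ) (Subtype.ext rfl)
  have hinner : ∀ (χ : Cfsg.IrrCharacter T) (θ : Cfsg.IrrCharacter N),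
      Cfsg.classInner (fun n : ↥(N.subgroupOf T) => (χ : T → ℂ) n)
        (Helper75.irrComp (Subgroup.subgroupOfEquivOfLe hNT) θ : ↥(N.subgroupOf T) → ℂ)
      = Cfsg.classInner (fun n : N => (χ : T → ℂ) ⟨(n : G), hNT n.2⟩) (θ : N → ℂ) :=
    fun χ θ => Helper75.classInner_subgroupOf hNT (χ : T → ℂ) (θ : N → ℂ)
  have hcov' : ∃ χ ∈ Cfsg.blockOf M (ψ : T → ℂ),
      ∃ θ' ∈ Helper75.irrComp (Subgroup.subgroupOfEquivOfLe hNT) '' b,
      Cfsg.classInner (fun n : ↥(N.subgroupOf T) => (χ : T → ℂ) n)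
        (θ' : ↥(N.subgroupOf T) → ℂ) ≠ 0 := by
    obtain ⟨θ, hθ, hθne⟩ := hψ
    refine ⟨ψ, hψB', _, ⟨θ, hθ, rfl⟩, ?_⟩
    rw [hinner]
    exact hθne
  have hmax' : ∀ B'' : Set (Cfsg.IrrCharacter T), Cfsg.IsPBlock M B'' →
      (∃ χ ∈ B'', ∃ θ' ∈ Helper75.irrComp (Subgroup.subgroupOfEquivOfLe hNT) '' b,
        Cfsg.classInner (fun n : ↥(N.subgroupOf T) => (χ : T → ℂ) n)
          (θ' : ↥(N.subgroupOf T) → ℂ) ≠ 0) →
      Cfsg.blockDefect p B'' ≤ Cfsg.blockDefect p (Cfsg.blockOf M (ψ : T → ℂ)) := by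
    rintro B'' hB'' ⟨χ, hχ, _, ⟨θ, hθ, rfl⟩, hne''⟩
    rw [hinner] at hne''
    have hcov'' : χ ∈ frCov N T hNT b := ⟨θ, hθ, hne''⟩
    obtain ⟨hi'', ⟨χ₂, hχ₂, θ₂, hθ₂, hne₂⟩, -, -, -⟩ :=
      fr_main N T hMm hb hNT hst hdis hB'' hχ hcov''
    have hU'' := fr_induced_of_cover N hM Pn hPn hC hb hi''.2.1 hχ₂ hθ₂ hne₂
    rw [Helper75.isInducedBlock_unique hMm N hU'' hU] at hi''
    rw [fr_unique N T hMm hb hNT hst hdis hχ hcov'' hψB' hψ hi'' hind]
  have hPn' : IsPGroup p (Pn.subgroupOf T) := hPn.comap_subtype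
  have hPnT : Pn ≤ T := hPnN.trans hNT
  have hcardPn' : Nat.card (Pn.subgroupOf T) = Nat.card Pn :=
    Nat.card_congr (Subgroup.subgroupOfEquivOfLe hPnT).toEquiv
  have hPn'N' : Pn.subgroupOf T ≤ N.subgroupOf T := fun x hx => hPnN hx
  -- the structure of a defect group of `B'`
  have key : ∀ D : Subgroup T, Cfsg.IsDefectGroup p M (Cfsg.blockOf M (ψ : T → ℂ)) D →
      Pn.subgroupOf T ≤ D ∧ ¬ p ∣ (D ⊔ N.subgroupOf T).index ∧
        D ⊓ N.subgroupOf T = Pn.subgroupOf T := by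
    intro D hD
    have h1 : Pn.subgroupOf T ≤ D :=
      Helper16.normal_pSubgroup_le_defectGroup hM (Pn.subgroupOf T) hPn' hB' hD
    obtain ⟨h2, h3, -⟩ := Helper16.fong_main (N.subgroupOf T) hM hb' hinv' hB' hcov' hmax' hD
    refine ⟨h1, h2, ?_⟩
    have h4 := Helper75.isDefectGroup_image_irrComp (Subgroup.subgroupOfEquivOfLe hNT) hbP
    have c1 := Helper77.card_of_isDefectGroup hM hb' h3
    have c2 := Helper77.card_of_isDefectGroup hM hb' h4
    have c3 : Nat.card ((D ⊓ N.subgroupOf T).subgroupOf (N.subgroupOf T))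
        = Nat.card (D ⊓ N.subgroupOf T : Subgroup T) :=
      Nat.card_congr (Subgroup.subgroupOfEquivOfLe inf_le_right).toEquiv
    have e4 : (Pn.subgroupOf N).comap (Subgroup.subgroupOfEquivOfLe hNT).toMonoidHom
        = (Pn.subgroupOf T).subgroupOf (N.subgroupOf T) := by
      ext x
      rfl
    have c4 : Nat.card ((Pn.subgroupOf N).comap
        (Subgroup.subgroupOfEquivOfLe hNT).toMonoidHom) = Nat.card Pn := by
      rw [e4, ← hcardPn']
      exact Nat.card_congr (Subgroup.subgroupOfEquivOfLe hPn'N').toEquiv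
    symm
    apply Subgroup.eq_of_le_of_card_ge (le_inf h1 hPn'N')
    rw [hcardPn', ← c4, c2, ← c1, c3]
  obtain ⟨D, hD⟩ := Helper16.exists_isDefectGroup (p := p) hMm hB'
  obtain ⟨hD1, hD2, hD3⟩ := key D hD
  have hmapPn : (Pn.subgroupOf T).map T.subtype = Pn := by
    rw [Subgroup.subgroupOf_map_subtype, inf_eq_left]
    exact hPnT
  constructor
  · intro hP₁
    have c1 := Helper77.card_of_isDefectGroup hM hB₁ hP₁
    have c2 := Helper77.card_of_isDefectGroup hM hB₁ (hdef D hD)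
    have c3 : Nat.card (D.map T.subtype) = Nat.card D :=
      Subgroup.card_map_of_injective T.subtype_injective
    have hDeq : Pn.subgroupOf T = D :=
      Subgroup.eq_of_le_of_card_ge hD1 (by rw [hcardPn', c1, ← c2, c3])
    rw [← hDeq, sup_eq_right.mpr hPn'N'] at hD2
    exact hD2
  · intro hidx
    obtain ⟨-, -, -, -, hDp⟩ := Helper16.isDefectGroup_exists_data hD
    have hDle : D ≤ N.subgroupOf T := by
      rw [← Subgroup.relIndex_eq_one]
      obtain ⟨n, hn⟩ := hDp.index ((N.subgroupOf T).subgroupOf D)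
      have h1 : (N.subgroupOf T).relIndex D ∣ (N.subgroupOf T).index :=
        Subgroup.relIndex_dvd_index_of_normal _ _
      have h2 : (N.subgroupOf T).relIndex D = p ^ n := hn
      rw [h2] at h1 ⊢
      rcases Nat.eq_zero_or_pos n with h0 | h0
      · rw [h0, pow_zero]
      · exact absurd ((dvd_pow_self p h0.ne').trans h1) hidx
    have hDeq : D = Pn.subgroupOf T := by
      rw [← hD3, inf_eq_left.mpr hDle]
    rw [hDeq] at hD
    have := hdef _ hD
    rwa [hmapPn] at this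

end fr6

end Cfsg.Agent.Helper79
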