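import Cfsg.Agent.Helper79.KnorrC
import Cfsg.Agent.Helper79.FongReynolds6
import Cfsg.Agent.Helper77.PairDefect

/-!
# Knörr's theorem, general case

Let `N ⊴ G`, let `b` be a block of `N` and `B` a block of `G` covering `b`.

* `kn_stab_iff`: `StabilizesBlock N c x` in terms of `Helper16.irrConj`.
* `kn_stab_data`: the stabilizer `T` of `b` contains `N`, stabilizes `b` and elements outside `T`
  move `b` off itself.
* `knorr_fr`: the Fong–Reynolds correspondent `B'` of `B` in the stabilizer `T` of `b`; the defect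
  groups of `B'` are defect groups of `B` meeting `N` in defect groups of `b`, and each defect
  group of `b` arises in this way.
* `knorr_exists`: **Knörr's theorem**: for every defect group `Q` of `b` there is a defect group
  `P` of `B` with `P ∩ N = Q`.
-/

set_option autoImplicit false
set_option linter.unusedSectionVars false
open Cfsg
open scoped ComplexConjugate

namespace Cfsg.Agent.Helper79

universe u

section knD0

variable {G : Type u} [Group G] (N : Subgroup G) [hN : N.Normal]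

/-- `Helper77.conjIrr` and `Helper16.irrConj` agree. -/
theorem kn_conjIrr_eq (x : G) (hx : x ∈ Subgroup.normalizer (N : Set G))
    (θ : Cfsg.IrrCharacter N) : Helper77.conjIrr N ⟨x, hx⟩ θ = Helper16.irrConj N x θ := rfl

/-- `x` stabilizes the set `c` of irreducible characters of `N ⊴ G` iff conjugation by `x` maps
`c` into itself. -/
theorem kn_stab_iff (c : Set (Cfsg.IrrCharacter N)) (x : G) :
    Cfsg.StabilizesBlock N c x ↔ ∀ θ ∈ c, Helper16.irrConj N x θ ∈ c := by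
  have hx : x ∈ Subgroup.normalizer (N : Set G) := by
    rw [Subgroup.normalizer_eq_top]
    exact Subgroup.mem_top x
  exact Helper77.stabilizesBlock_iff N c ⟨x, hx⟩

end knD0

section knD

variable {G : Type u} [Group G] [Fintype G] (N : Subgroup G) [hN : N.Normal] [Fintype N]
  {p : ℕ} [Fact p.Prime] {M : Ideal Cfsg.AlgInt} {b : Set (Cfsg.IrrCharacter N)}

/-- The stabilizer of a block of a normal subgroup. -/
theorem kn_stab_data (hM : M.IsMaximal) (hb : Cfsg.IsPBlock M b) (T : Subgroup G)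
    (hT : ∀ x : G, x ∈ T ↔ Cfsg.StabilizesBlock N b x) :
    N ≤ T ∧ (∀ t ∈ T, ∀ θ ∈ b, Helper16.irrConj N t θ ∈ b) ∧
      ∀ x : G, x ∉ T → ∀ θ ∈ b, Helper16.irrConj N x θ ∉ b := by
  refine ⟨fun n hn => ?_, fun t ht => (kn_stab_iff N b t).mp ((hT t).mp ht), ?_⟩
  · rw [hT, kn_stab_iff]
    intro θ hθ
    have e : Helper16.irrConj N n θ = θ := by
      apply Subtype.ext
      funext k
      rw [Helper16.irrConj_apply]
      have h1 := Helper81.irr_isClassFunction θ k (⟨n, hn⟩⁻¹ : N)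
      rw [← h1]
      exact congrArg (θ : N → ℂ) (Subtype.ext (by simp))
    rw [e]
    exact hθ
  · intro x hx θ hθ hcon
    apply hx
    rw [hT, kn_stab_iff]
    intro θ₁ hθ₁
    have h1 := Helper16.sameBlock_irrConj (M := M) N x (Helper16.sameBlock_of_mem hM hb hθ hθ₁)
    rw [Helper16.eq_blockOf_of_mem hM hb hcon]
    exact h1

/-- **Knörr's theorem via Fong–Reynolds.** -/
theorem knorr_fr (T : Subgroup G) [Fintype T] (hM : Cfsg.IsPModular p M)
    (hb : Cfsg.IsPBlock M b) (hNT : N ≤ T)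
    (hst : ∀ t ∈ T, ∀ θ ∈ b, Helper16.irrConj N t θ ∈ b)
    (hdis : ∀ x : G, x ∉ T → ∀ θ ∈ b, Helper16.irrConj N x θ ∉ b)
    {B : Set (Cfsg.IrrCharacter G)} (hB : Cfsg.IsPBlock M B)
    (hcov : ∃ χ ∈ B, ∃ θ ∈ b,
      Cfsg.classInner (fun n : N => (χ : G → ℂ) n) (θ : N → ℂ) ≠ 0) :
    ∃ B' : Set (Cfsg.IrrCharacter T), Cfsg.IsPBlock M B' ∧ Cfsg.IsInducedBlock M T B' B ∧
      (∃ ψ ∈ B', ψ ∈ frCov N T hNT b) ∧
      (∀ D : Subgroup T, Cfsg.IsDefectGroup p M B' D →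
        Cfsg.IsDefectGroup p M B (D.map T.subtype) ∧
        Cfsg.IsDefectGroup p M b (((D.map T.subtype) ⊓ N).subgroupOf N)) ∧
      (∀ Q : Subgroup G, Q ≤ N → Cfsg.IsDefectGroup p M b (Q.subgroupOf N) →
        ∃ D : Subgroup T, Cfsg.IsDefectGroup p M B' D ∧ (D.map T.subtype) ⊓ N = Q) := by
  classical
  have hMm : M.IsMaximal := hM.2.1
  obtain ⟨χ₀, hχ₀, θ₀, hθ₀, hne⟩ := hcov
  obtain ⟨ψ, hψ, -, hind⟩ := fr_exists N T hMm hb hNT hst hdis hB hχ₀ hθ₀ hne
  have hB' : Cfsg.IsPBlock M (Cfsg.blockOf M (ψ : T → ℂ)) := ⟨ψ, rfl⟩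
  have hψB' : ψ ∈ Cfsg.blockOf M (ψ : T → ℂ) := Helper16.sameBlock_refl hMm _
  have hdef := (fr_defect_height N T hM hb hNT hst hdis hB' hψB' hψ hind).1
  -- nested data
  let _ : Fintype ↥(N.subgroupOf T) := Fintype.ofFinite _
  have hb' : Cfsg.IsPBlock M (Helper75.irrComp (Subgroup.subgroupOfEquivOfLe hNT) '' b) :=
    Helper75.isPBlock_image_irrComp _ hb
  have hinv' : ∀ t : T, ∀ θ' ∈ Helper75.irrComp (Subgroup.subgroupOfEquivOfLe hNT) '' b,
      Helper16.irrConj (N.subgroupOf T) t θ'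
        ∈ Helper75.irrComp (Subgroup.subgroupOfEquivOfLe hNT) '' b := by
    rintro t _ ⟨θ, hθ, rfl⟩
    refine ⟨Helper16.irrConj N (t : G) θ, hst t t.2 θ hθ, ?_⟩
    apply Subtype.ext
    funext k
    rw [Helper75.irrComp_apply, Helper16.irrConj_apply, Helper16.irrConj_apply,
      Helper75.irrComp_apply]
    exact congrArg (θ : N → ℂ) (Subtype.ext rfl)
  have hinner : ∀ (χ : Cfsg.IrrCharacter T) (θ : Cfsg.IrrCharacter N),
      Cfsg.classInner (fun n : ↥(N.subgroupOf T) => (χ : T → ℂ) n)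
        (Helper75.irrComp (Subgroup.subgroupOfEquivOfLe hNT) θ : ↥(N.subgroupOf T) → ℂ)
      = Cfsg.classInner (fun n : N => (χ : T → ℂ) ⟨(n : G), hNT n.2⟩) (θ : N → ℂ) :=
    fun χ θ => Helper75.classInner_subgroupOf hNT (χ : T → ℂ) (θ : N → ℂ)
  have hcov' : ∃ χ ∈ Cfsg.blockOf M (ψ : T → ℂ),
      ∃ θ' ∈ Helper75.irrComp (Subgroup.subgroupOfEquivOfLe hNT) '' b,
      Cfsg.classInner (fun n : ↥(N.subgroupOf T) => (χ : T → ℂ) n)
        (θ' : ↥(N.subgroupOf T) → ℂ) ≠ 0 := by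
    obtain ⟨θ, hθ, hθne⟩ := hψ
    refine ⟨ψ, hψB', _, ⟨θ, hθ, rfl⟩, ?_⟩
    rw [hinner]
    exact hθne
  refine ⟨_, hB', hind, ⟨ψ, hψB', hψ⟩, fun D hD => ⟨hdef D hD, ?_⟩, fun Q hQN hQ => ?_⟩
  · have h1 := knorr_invariant_inf (N.subgroupOf T) hM hb' hinv' hB' hcov' hD
    have h2 := Helper75.isDefectGroup_image_irrComp (Subgroup.subgroupOfEquivOfLe hNT).symm h1
    rw [Helper75.image_irrComp_symm_image] at h2
    have e : ((D ⊓ N.subgroupOf T).subgroupOf (N.subgroupOf T)).comap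
        (Subgroup.subgroupOfEquivOfLe hNT).symm.toMonoidHom
        = ((D.map T.subtype) ⊓ N).subgroupOf N := by
      ext x
      rw [Subgroup.mem_comap, Subgroup.mem_subgroupOf, Subgroup.mem_subgroupOf]
      constructor
      · intro hx
        refine ⟨⟨_, hx.1, rfl⟩, x.2⟩
      · rintro ⟨⟨y, hy, hyx⟩, -⟩
        have hy' : y = ⟨(x : G), hNT x.2⟩ := Subtype.ext hyx
        rw [hy'] at hy
        exact ⟨hy, x.2⟩
    rw [e] at h2
    exact h2
  · have hQT : Q ≤ T := hQN.trans hNT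
    have hQ' := Helper75.isDefectGroup_image_irrComp (Subgroup.subgroupOfEquivOfLe hNT) hQ
    have e4 : (Q.subgroupOf N).comap (Subgroup.subgroupOfEquivOfLe hNT).toMonoidHom
        = (Q.subgroupOf T).subgroupOf (N.subgroupOf T) := by
      ext x
      rfl
    rw [e4] at hQ'
    have hQ'N' : Q.subgroupOf T ≤ N.subgroupOf T := fun x hx => hQN hx
    obtain ⟨D, hD, hDQ⟩ := knorr_invariant_exists (N.subgroupOf T) hM hb' hinv' hB' hcov'
      hQ'N' hQ'
    refine ⟨D, hD, ?_⟩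
    ext x
    constructor
    · rintro ⟨⟨y, hy, rfl⟩, hxN⟩
      have : y ∈ D ⊓ N.subgroupOf T := ⟨hy, hxN⟩
      rw [hDQ] at this
      exact this
    · intro hx
      have : (⟨x, hQT hx⟩ : T) ∈ D ⊓ N.subgroupOf T := by
        rw [hDQ]
        exact hx
      exact ⟨⟨_, this.1, rfl⟩, hQN hx⟩

/-- **Knörr's theorem.** -/
theorem knorr_exists (hM : Cfsg.IsPModular p M) (hb : Cfsg.IsPBlock M b)
    {B : Set (Cfsg.IrrCharacter G)} (hB : Cfsg.IsPBlock M B)
    (hcov : ∃ χ ∈ B, ∃ θ ∈ b,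
      Cfsg.classInner (fun n : N => (χ : G → ℂ) n) (θ : N → ℂ) ≠ 0)
    {Q : Subgroup G} (hQN : Q ≤ N) (hQ : Cfsg.IsDefectGroup p M b (Q.subgroupOf N)) :
    ∃ P : Subgroup G, Cfsg.IsDefectGroup p M B P ∧ P ⊓ N = Q := by
  classical
  let _ : Fintype ↥(Helper77.stabSubgroup N b) := Fintype.ofFinite _
  obtain ⟨hNT, hst, hdis⟩ := kn_stab_data N hM.2.1 hb (Helper77.stabSubgroup N b)
    (fun x => Helper77.mem_stabSubgroup N b x)
  obtain ⟨B', -, -, -, h1, h2⟩ := knorr_fr N (Helper77.stabSubgroup N b) hM hb hNT hst hdis hB hcov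
  obtain ⟨D, hD, hDQ⟩ := h2 Q hQN hQ
  exact ⟨_, (h1 D hD).1, hDQ⟩

end knD

end Cfsg.Agent.Helper79
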