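import Mathlib

/-!
# Brauer–Fowler for an involutory automorphism of a simple group (piece C of CALL S4719)

If `t` (with `t * t = 1`) normalises the nonabelian simple subgroup `S` and
`|C_S(t)| ≤ c` then `|S| ≤ (2c²)!`.
-/

namespace Cfsg.Agent.Helper79

/-- A finite simple group embeds in the symmetric group on the cosets of a proper subgroup. -/
theorem bf_simple_le_factorial_index {S : Type*} [Group S] [Finite S] [IsSimpleGroup S]
    (H : Subgroup S) (hH : H ≠ ⊤) : Nat.card S ≤ (H.index).factorial := by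
  have hker : (MulAction.toPermHom S (S ⧸ H)).ker = ⊥ := by
    have h1 : (MulAction.toPermHom S (S ⧸ H)).ker = H.normalCore :=
      (Subgroup.normalCore_eq_ker H).symm
    rcases (Subgroup.Normal.eq_bot_or_eq_top (H := H.normalCore) inferInstance) with h | h
    · rw [h1, h]
    · exact absurd (top_le_iff.mp (h ▸ Subgroup.normalCore_le H)) hH
  have hinj : Function.Injective (MulAction.toPermHom S (S ⧸ H)) :=
    (MonoidHom.ker_eq_bot_iff _).mp hker
  have := Nat.card_le_card_of_injective _ hinj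
  rw [Nat.card_perm] at this
  exact this

/-- In a nonabelian simple group the centralizer of a nontrivial element is proper. -/
theorem bf_centralizer_ne_top {S : Type*} [Group S] [IsSimpleGroup S]
    (hna : ¬ IsMulCommutative S) (y : S) (hy : y ≠ 1) :
    Subgroup.centralizer ({y} : Set S) ≠ ⊤ := by
  intro h
  have hyc : y ∈ Subgroup.center S := by
    rw [Subgroup.mem_center_iff]
    intro g
    have hg : g ∈ Subgroup.centralizer ({y} : Set S) := h ▸ Subgroup.mem_top g
    rw [Subgroup.mem_centralizer_iff] at hg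
    exact (hg y rfl).symm
  rcases (Subgroup.Normal.eq_bot_or_eq_top (H := Subgroup.center S) inferInstance) with h0 | h0
  · rw [h0, Subgroup.mem_bot] at hyc; exact hy hyc
  · apply hna
    refine ⟨⟨fun a b => ?_⟩⟩
    have : a ∈ Subgroup.center S := h0 ▸ Subgroup.mem_top a
    exact (Subgroup.mem_center_iff.mp this b).symm

/-- **Brauer–Fowler for an involutory automorphism** (piece C of CALL S4719). -/
theorem bf_aut {G : Type*} [Group G] [Finite G] (S : Subgroup G) [IsSimpleGroup S] (hna : ¬ IsMulCommutative S) (t : G) (ht : t * t = 1) (hn : ∀ s ∈ S, t * s * t⁻¹ ∈ S) (c : ℕ) (hc : Nat.card ↥(S ⊓ Subgroup.centralizer ({t} : Set G)) ≤ c) : Nat.card S ≤ (2 * c ^ 2).factorial := by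
  classical
  have : Fintype G := Fintype.ofFinite G
  have : Fintype S := Fintype.ofFinite S
  have htinv : t⁻¹ = t := inv_eq_of_mul_eq_one_left ht
  set f : ↥S → G := fun s => (s : G)⁻¹ * t * s with hf
  set D : Finset G := Finset.univ.image f with hD
  set n := Nat.card S with hn_def
  have hnpos : 0 < n := Nat.card_pos
  -- (D1)
  have hD1 : n ≤ c * D.card := by
    have hfib : ∀ b ∈ Finset.image f (Finset.univ : Finset ↥S),
        ((Finset.univ : Finset ↥S).filter (fun a => f a = b)).card ≤ c := by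
      intro a ha
      obtain ⟨s0, -, rfl⟩ := Finset.mem_image.mp ha
      refine le_trans ?_ hc
      rw [← Nat.card_eq_finsetCard]
      have hmem : ∀ x : ↥((Finset.univ : Finset ↥S).filter (fun a => f a = f s0)),
          ((x.1 : ↥S) : G) * (s0 : G)⁻¹ ∈ S ⊓ Subgroup.centralizer ({t} : Set G) := by
        intro x
        refine Subgroup.mem_inf.mpr ⟨mul_mem x.1.2 (inv_mem s0.2), ?_⟩
        rw [Subgroup.mem_centralizer_iff]
        intro h hh
        rw [Set.mem_singleton_iff] at hh
        subst hh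
        have hx : f x.1 = f s0 := (Finset.mem_filter.mp x.2).2
        simp only [hf] at hx
        calc h * (((x.1 : ↥S) : G) * (s0 : G)⁻¹)
            = ((x.1 : ↥S) : G) * (((x.1 : ↥S) : G)⁻¹ * h * ((x.1 : ↥S) : G)) * (s0 : G)⁻¹ := by
              group
          _ = ((x.1 : ↥S) : G) * ((s0 : G)⁻¹ * h * s0) * (s0 : G)⁻¹ := by rw [hx]
          _ = ((x.1 : ↥S) : G) * (s0 : G)⁻¹ * h := by group
      apply Nat.card_le_card_of_injective (fun x => (⟨_, hmem x⟩ :
        ↥(S ⊓ Subgroup.centralizer ({t} : Set G))))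
      intro x x' hxx
      have := congrArg Subtype.val hxx
      simp only at this
      exact Subtype.ext (Subtype.ext (mul_right_cancel this))
    have := Finset.card_le_mul_card_image (s := (Finset.univ : Finset ↥S)) (f := f) c hfib
    rwa [Finset.card_univ, ← Nat.card_eq_fintype_card] at this
  have hD2 : D.card ≤ n := by
    have := Finset.card_image_le (s := (Finset.univ : Finset ↥S)) (f := f)
    rwa [Finset.card_univ, ← Nat.card_eq_fintype_card] at this
  have hD3 : ∀ d ∈ D, d * d = 1 := by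
    intro d hd
    obtain ⟨s, -, rfl⟩ := Finset.mem_image.mp hd
    simp only [hf]
    calc (s : G)⁻¹ * t * s * ((s : G)⁻¹ * t * s) = (s : G)⁻¹ * (t * t) * s := by group
      _ = 1 := by rw [ht]; group
  have hD4 : ∀ d ∈ D, ∀ d' ∈ D, d * d' ∈ S := by
    intro d hd d' hd'
    obtain ⟨s, -, rfl⟩ := Finset.mem_image.mp hd
    obtain ⟨s', -, rfl⟩ := Finset.mem_image.mp hd'
    simp only [hf]
    have h1 : (s : G)⁻¹ * t * s * ((s' : G)⁻¹ * t * s')
        = (s : G)⁻¹ * (t * ((s : G) * (s' : G)⁻¹) * t⁻¹) * s' := by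
      rw [htinv]; group
    rw [h1]
    exact mul_mem (mul_mem (inv_mem s.2) (hn _ (mul_mem s.2 (inv_mem s'.2)))) s'.2
  -- the fibres of the product map
  set β : ↥S → ℕ := fun y => ((D ×ˢ D).filter (fun p : G × G => p.1 * p.2 = (y : G))).card with hβ
  have hsum : D.card * D.card = ∑ y : ↥S, β y := by
    have h1 := Finset.card_eq_sum_card_fiberwise (f := fun p : G × G => p.1 * p.2) (s := D ×ˢ D)
      (t := (Finset.univ : Finset ↥S).map (Function.Embedding.subtype _)) (by
        intro p hp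
        rw [Finset.mem_coe, Finset.mem_product] at hp
        rw [Finset.mem_coe, Finset.mem_map]
        exact ⟨⟨p.1 * p.2, hD4 _ hp.1 _ hp.2⟩, Finset.mem_univ _, rfl⟩)
    rw [Finset.card_product, Finset.sum_map] at h1
    exact h1
  have hβ1 : β 1 ≤ D.card := by
    simp only [hβ]
    apply Finset.card_le_card_of_injOn (fun p : G × G => p.1)
    · intro p hp
      rw [Finset.mem_coe, Finset.mem_filter, Finset.mem_product] at hp
      exact hp.1.1
    · intro p hp p' hp' hpp
      rw [Finset.mem_coe, Finset.mem_filter] at hp hp'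
      have e1 : p.2 = p.1⁻¹ := eq_inv_of_mul_eq_one_right hp.2
      have e2 : p'.2 = p'.1⁻¹ := eq_inv_of_mul_eq_one_right hp'.2
      simp only at hpp
      exact Prod.ext hpp (by rw [e1, e2, hpp])
  have hβy : ∀ y : ↥S, β y ≤ Nat.card (Subgroup.centralizer ({y} : Set ↥S)) := by
    intro y
    simp only [hβ]
    rcases Finset.eq_empty_or_nonempty ((D ×ˢ D).filter (fun p : G × G => p.1 * p.2 = (y : G)))
      with hemp | ⟨p0, hp0⟩
    · rw [hemp, Finset.card_empty]; exact Nat.zero_le _
    · rw [← Nat.card_eq_finsetCard]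
      have hconj : ∀ p ∈ (D ×ˢ D).filter (fun p : G × G => p.1 * p.2 = (y : G)),
          p.1 ∈ D ∧ p.1 * (y : G) * p.1⁻¹ = (y : G)⁻¹ := by
        intro p hp
        rw [Finset.mem_filter, Finset.mem_product] at hp
        refine ⟨hp.1.1, ?_⟩
        have e1 : p.1 * p.1 = 1 := hD3 _ hp.1.1
        have e2 : p.2 * p.2 = 1 := hD3 _ hp.1.2
        have e3 : p.2⁻¹ = p.2 := inv_eq_of_mul_eq_one_left e2
        rw [← hp.2, mul_inv_rev, e3]
        calc p.1 * (p.1 * p.2) * p.1⁻¹ = (p.1 * p.1) * p.2 * p.1⁻¹ := by group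
          _ = p.2 * p.1⁻¹ := by rw [e1, one_mul]
      obtain ⟨hd0, hc0⟩ := hconj p0 hp0
      have hmemS : ∀ x : ↥((D ×ˢ D).filter (fun p : G × G => p.1 * p.2 = (y : G))),
          x.1.1 * p0.1 ∈ S := fun x => hD4 _ (hconj x.1 x.2).1 _ hd0
      have hmem : ∀ x : ↥((D ×ˢ D).filter (fun p : G × G => p.1 * p.2 = (y : G))),
          (⟨x.1.1 * p0.1, hmemS x⟩ : ↥S) ∈ Subgroup.centralizer ({y} : Set ↥S) := by
        intro x
        rw [Subgroup.mem_centralizer_iff]
        intro h hh
        rw [Set.mem_singleton_iff] at hh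
        subst hh
        apply Subtype.ext
        have hcx := (hconj x.1 x.2).2
        show (h : G) * (x.1.1 * p0.1) = x.1.1 * p0.1 * (h : G)
        have e1 : p0.1 * (h : G) = (h : G)⁻¹ * p0.1 := by
          rw [← hc0]; group
        have e2 : x.1.1 * (h : G)⁻¹ = (h : G) * x.1.1 := by
          have : x.1.1 * (h : G)⁻¹ * x.1.1⁻¹ = (h : G) := by
            have h3 : x.1.1 * (h : G)⁻¹ * x.1.1⁻¹ = (x.1.1 * (h : G) * x.1.1⁻¹)⁻¹ := by group
            rw [h3, hcx, inv_inv]
          calc x.1.1 * (h : G)⁻¹ = (x.1.1 * (h : G)⁻¹ * x.1.1⁻¹) * x.1.1 := by group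
            _ = (h : G) * x.1.1 := by rw [this]
        calc (h : G) * (x.1.1 * p0.1) = ((h : G) * x.1.1) * p0.1 := by group
          _ = x.1.1 * (h : G)⁻¹ * p0.1 := by rw [e2]
          _ = x.1.1 * ((h : G)⁻¹ * p0.1) := by group
          _ = x.1.1 * (p0.1 * (h : G)) := by rw [e1]
          _ = x.1.1 * p0.1 * (h : G) := by group
      apply Nat.card_le_card_of_injective (fun x => (⟨_, hmem x⟩ :
        ↥(Subgroup.centralizer ({y} : Set ↥S))))
      intro x x' hxx
      have h1 := congrArg (fun z : ↥(Subgroup.centralizer ({y} : Set ↥S)) => ((z : ↥S) : G)) hxx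
      simp only at h1
      have h2 : x.1.1 = x'.1.1 := mul_right_cancel h1
      have hx2 := (Finset.mem_filter.mp x.2).2
      have hx2' := (Finset.mem_filter.mp x'.2).2
      have h3 : x.1.2 = x'.1.2 := by
        have : x.1.1 * x.1.2 = x.1.1 * x'.1.2 := by rw [hx2, h2, hx2']
        exact mul_left_cancel this
      exact Subtype.ext (Prod.ext h2 h3)
  by_cases hex : ∃ y : ↥S, y ≠ 1 ∧ (Subgroup.centralizer ({y} : Set ↥S)).index ≤ 2 * c ^ 2
  · obtain ⟨y, hy1, hyi⟩ := hex
    exact le_trans (bf_simple_le_factorial_index _ (bf_centralizer_ne_top hna y hy1))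
      (Nat.factorial_le hyi)
  · push Not at hex
    have hβ2 : ∀ y : ↥S, y ≠ 1 → β y * (2 * c ^ 2 + 1) ≤ n := by
      intro y hy
      have h1 := hex y hy
      have h2 := Subgroup.card_mul_index (Subgroup.centralizer ({y} : Set ↥S))
      calc β y * (2 * c ^ 2 + 1)
          ≤ Nat.card (Subgroup.centralizer ({y} : Set ↥S)) *
            (Subgroup.centralizer ({y} : Set ↥S)).index := Nat.mul_le_mul (hβy y) h1
        _ = n := h2
    have hsum2 : D.card * D.card * (2 * c ^ 2 + 1) ≤ D.card * (2 * c ^ 2 + 1) + (n - 1) * n := by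
      rw [hsum, ← Finset.add_sum_erase Finset.univ β (Finset.mem_univ (1 : ↥S)), add_mul,
        Finset.sum_mul]
      apply add_le_add (Nat.mul_le_mul_right _ hβ1)
      calc ∑ y ∈ Finset.univ.erase (1 : ↥S), β y * (2 * c ^ 2 + 1)
          ≤ ∑ y ∈ Finset.univ.erase (1 : ↥S), n :=
            Finset.sum_le_sum (fun y hy => hβ2 y (Finset.ne_of_mem_erase hy))
        _ = (n - 1) * n := by
          rw [Finset.sum_const, Finset.card_erase_of_mem (Finset.mem_univ _), Finset.card_univ,
            ← Nat.card_eq_fintype_card, smul_eq_mul]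
    have hle : n ≤ 2 * c ^ 2 := by
      by_contra hcon
      push Not at hcon
      obtain ⟨m, hm⟩ : ∃ m, n = m + 1 := ⟨n - 1, by omega⟩
      rw [hm] at hsum2 hD1 hD2 hcon
      simp only [Nat.add_sub_cancel] at hsum2
      generalize D.card = Dc at hsum2 hD1 hD2
      have e1 : (m + 1) * (m + 1) ≤ c ^ 2 * (Dc * Dc) := by
        have := Nat.mul_le_mul hD1 hD1
        calc (m + 1) * (m + 1) ≤ c * Dc * (c * Dc) := this
          _ = c ^ 2 * (Dc * Dc) := by ring
      have e2 : (m + 1) * (m + 1) * (2 * c ^ 2 + 1)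
          ≤ c ^ 2 * ((m + 1) * (2 * c ^ 2 + 1) + m * (m + 1)) := by
        calc (m + 1) * (m + 1) * (2 * c ^ 2 + 1) ≤ c ^ 2 * (Dc * Dc) * (2 * c ^ 2 + 1) :=
              Nat.mul_le_mul_right _ e1
          _ = c ^ 2 * (Dc * Dc * (2 * c ^ 2 + 1)) := by ring
          _ ≤ c ^ 2 * (Dc * (2 * c ^ 2 + 1) + m * (m + 1)) := Nat.mul_le_mul_left _ hsum2
          _ ≤ c ^ 2 * ((m + 1) * (2 * c ^ 2 + 1) + m * (m + 1)) := by gcongr
      have e3 : (m + 1) * (2 * c ^ 2 + 1) ≤ c ^ 2 * ((2 * c ^ 2 + 1) + m) := by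
        have : (m + 1) * ((m + 1) * (2 * c ^ 2 + 1)) ≤ (m + 1) * (c ^ 2 * ((2 * c ^ 2 + 1) + m)) := by
          calc (m + 1) * ((m + 1) * (2 * c ^ 2 + 1)) = (m + 1) * (m + 1) * (2 * c ^ 2 + 1) := by ring
            _ ≤ c ^ 2 * ((m + 1) * (2 * c ^ 2 + 1) + m * (m + 1)) := e2
            _ = (m + 1) * (c ^ 2 * ((2 * c ^ 2 + 1) + m)) := by ring
        exact Nat.le_of_mul_le_mul_left this (Nat.succ_pos m)
      have e4 : c ^ 2 * (2 * c ^ 2) ≤ c ^ 2 * m := Nat.mul_le_mul_left _ (Nat.lt_succ_iff.mp hcon)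
      nlinarith [e3, e4]
    exact le_trans hle (Nat.self_le_factorial _)

end Cfsg.Agent.Helper79
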