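/-
helper79: base lemmas for the Brauer–Reynolds rows S4701 / S0999 (perfect groups whose order is
less than the cube of a prime divisor).
-/
import Mathlib

set_option autoImplicit false

universe u

namespace Cfsg.Agent.Helper79

/-- Burnside's transfer theorem, in the form: in a perfect group a non-trivial Sylow subgroup is
not central in its normalizer. -/
theorem br_burnside {G : Type u} [Group G] [Finite G] (hperf : commutator G = ⊤) (p : ℕ)
    [Fact p.Prime] (P : Sylow p G) (hne : (P : Subgroup G) ≠ ⊥)
    (hNC : Subgroup.normalizer ((P : Subgroup G) : Set G)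
      ≤ Subgroup.centralizer ((P : Subgroup G) : Set G)) : False := by
  have hcompl := MonoidHom.ker_transferSylow_isComplement' P hNC
  have hcomm : ∀ a b : (P : Subgroup G), a * b = b * a := by
    intro a b
    apply Subtype.ext
    have h1 := Subgroup.mem_centralizer_iff.mp (hNC (Subgroup.le_normalizer a.2)) b b.2
    simpa using h1.symm
  have hker : (MonoidHom.transferSylow P hNC).ker = ⊤ := by
    rw [eq_top_iff, ← hperf, commutator_eq_closure, Subgroup.closure_le]
    rintro g ⟨a, b, rfl⟩
    rw [SetLike.mem_coe, MonoidHom.mem_ker, map_commutatorElement, commutatorElement_def]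
    rw [hcomm (MonoidHom.transferSylow P hNC a) (MonoidHom.transferSylow P hNC b)]
    simp
  rw [hker] at hcompl
  have h1 := hcompl.card_mul_card
  rw [Subgroup.card_top] at h1
  have h2 : Nat.card (P : Subgroup G) = 1 := by
    have hG : 0 < Nat.card G := Nat.card_pos
    nlinarith
  exact hne (Subgroup.card_eq_one.mp h2)

end Cfsg.Agent.Helper79
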