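import Mathlib
import Cfsg.Agent.Helper9.BRDefs
import Cfsg.Agent.Helper8.BRSplit
import Cfsg.Agent.Helper31.BRK3
import Cfsg.Agent.Helper67.BRXI1
import Cfsg.Agent.Helper81.CharBasic

set_option autoImplicit false

/-!
Piece SO of CALL S0996 (helper79): the beta case with `q` odd is impossible (an involution of `G`
is conjugate to no element of `N(P)`).
-/

open Cfsg
open scoped ComplexConjugate

universe u

namespace Cfsg.Agent.Helper79

theorem brn_stage_odd {G : Type u} [Group G] [Fintype G] {p : ℕ} [Fact p.Prime] (hodd : p ≠ 2)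
    {M : Ideal Cfsg.AlgInt} (P : Sylow p G) (hP : Nat.card (P : Subgroup G) = p)
    (hC : Nat.card (Subgroup.centralizer ((P : Subgroup G) : Set G)) = p) (q n t w : ℕ)
    (hq : (Subgroup.centralizer ((P : Subgroup G) : Set G)).relIndex
        (Subgroup.normalizer ((P : Subgroup G) : Set G)) = q)
    (hcard : Nat.card G = p * q * (1 + n * p)) (T : Cfsg.Agent.Helper9.BRTab p M P q)
    (hqt : q * t = p - 1) (hqodd : Odd q) (hε : T.ε = -1) (hwt : w * t = n + 1)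
    (hX2 : ∀ χ ∈ T.X2, Cfsg.charDegree (χ : G → ℂ) = p - 1)
    (mP : Cfsg.IrrCharacter G → ℕ)
    (hmP : ∀ χ : Cfsg.IrrCharacter G,
        ∑ᶠ x : (P : Subgroup G), (χ : G → ℂ) (x : G) = (p : ℂ) * (mP χ : ℂ))
    (hm1 : mP (Cfsg.Agent.Helper81.trivIrr G) = 1)
    (hmX1 : ∀ χ ∈ T.X1, mP χ = n + 1) (hmX2 : ∀ χ ∈ T.X2, mP χ = 0)
    (hmY : ∀ θ ∈ T.Y, mP θ = w)
    (K : Finset (Cfsg.IrrCharacter G))
    (hK : ∀ χ : Cfsg.IrrCharacter G, χ ∈ K ↔ χ ∉ Cfsg.principalBlock M G)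
    (hH : ∀ g : G, ((p * q : ℕ) : ℂ) * (1 + ∑ χ ∈ K, (mP χ : ℂ) * conj ((χ : G → ℂ) g))
          = (Nat.card (Subgroup.centralizer ({g} : Set G)) : ℂ)
            * (Nat.card {x : ↥(Subgroup.normalizer ((P : Subgroup G) : Set G)) //
                IsConj (x : G) g} : ℂ)) : False := by
  classical
  have hpp : p.Prime := Fact.out
  have hp2 : 2 ≤ p := hpp.two_le
  have hpodd : Odd p := hpp.odd_of_ne_two hodd
  have hpC : (p : ℂ) ≠ 0 := by exact_mod_cast hpp.ne_zero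
  have hq1 : 1 ≤ q := hqodd.pos
  have ht_even : Even t := by
    have h1 : Even (q * t) := by rw [hqt]; exact hpp.even_sub_one hodd
    rcases Nat.even_mul.mp h1 with h | h
    · exact absurd h (Nat.not_even_iff_odd.mpr hqodd)
    · exact h
  have ht1 : 1 ≤ t := by
    rcases Nat.eq_zero_or_pos t with h | h
    · rw [h] at hqt; omega
    · exact h
  have hn_odd : Odd n := by
    have h1 : Even (n + 1) := by rw [← hwt]; exact Even.mul_left ht_even w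
    rcases Nat.even_or_odd n with h | h
    · exfalso
      have h2 : Odd (n + 1) := Even.add_one h
      exact (Nat.not_even_iff_odd.mpr h2) h1
    · exact h
  have hGeven : 2 ∣ Nat.card G := by
    rw [hcard]
    have h1 : Even (1 + n * p) := Odd.add_odd odd_one (Odd.mul hn_odd hpodd)
    exact Dvd.dvd.mul_left (even_iff_two_dvd.mp h1) _
  haveI : Fact (Nat.Prime 2) := ⟨Nat.prime_two⟩
  obtain ⟨z, hz⟩ := exists_prime_orderOf_dvd_card' 2 hGeven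
  have hzreg : ¬ p ∣ orderOf z := by
    rw [hz]
    intro h
    exact hodd ((Nat.prime_dvd_prime_iff_eq hpp Nat.prime_two).mp h)
  -- the normalizer has odd order
  have hCN : Subgroup.centralizer ((P : Subgroup G) : Set G)
      ≤ Subgroup.normalizer ((P : Subgroup G) : Set G) := Subgroup.centralizer_le_normalizer _
  have hNcard : Nat.card (Subgroup.normalizer ((P : Subgroup G) : Set G)) = p * q := by
    have h1 := Subgroup.relIndex_mul_relIndex (⊥ : Subgroup G)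
      (Subgroup.centralizer ((P : Subgroup G) : Set G))
      (Subgroup.normalizer ((P : Subgroup G) : Set G)) bot_le hCN
    rw [Subgroup.relIndex_bot_left, Subgroup.relIndex_bot_left, hC, hq] at h1
    exact h1.symm
  have hord : ∀ x : G, IsConj x z → orderOf x = 2 := by
    intro x hx
    obtain ⟨c, hc⟩ := isConj_iff.mp hx
    rw [← hz, ← hc]
    exact (orderOf_injective (MulAut.conj c).toMonoidHom (MulAut.conj c).injective x).symm
  have hnoN : ∀ x : ↥(Subgroup.normalizer ((P : Subgroup G) : Set G)), ¬ IsConj (x : G) z := by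
    intro x hx
    have h1 := hord _ hx
    have h2 : orderOf x ∣ Nat.card (Subgroup.normalizer ((P : Subgroup G) : Set G)) :=
      orderOf_dvd_natCard x
    rw [← Subgroup.orderOf_coe, h1, hNcard] at h2
    rcases (Nat.Prime.dvd_mul Nat.prime_two).mp h2 with h | h
    · exact (Nat.not_even_iff_odd.mpr hpodd) (even_iff_two_dvd.mpr h)
    · exact (Nat.not_even_iff_odd.mpr hqodd) (even_iff_two_dvd.mpr h)
  have hnoP : ∀ x : ↥(P : Subgroup G), ¬ IsConj (x : G) z := by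
    intro x hx
    have h1 := hord _ hx
    have h2 : orderOf x ∣ Nat.card (P : Subgroup G) := orderOf_dvd_natCard x
    rw [← Subgroup.orderOf_coe, h1, hP] at h2
    exact (Nat.not_even_iff_odd.mpr hpodd) (even_iff_two_dvd.mpr h2)
  have hcntN : Nat.card {x : ↥(Subgroup.normalizer ((P : Subgroup G) : Set G)) //
      IsConj (x : G) z} = 0 := by
    haveI : IsEmpty {x : ↥(Subgroup.normalizer ((P : Subgroup G) : Set G)) //
      IsConj (x : G) z} := ⟨fun x => hnoN x.1 x.2⟩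
    exact Nat.card_of_isEmpty
  have hcntP : Nat.card {x : ↥(P : Subgroup G) // IsConj (x : G) z} = 0 := by
    haveI : IsEmpty {x : ↥(P : Subgroup G) // IsConj (x : G) z} := ⟨fun x => hnoP x.1 x.2⟩
    exact Nat.card_of_isEmpty
  -- the values at `z` are integers
  have hbot : Odd (Nat.card (⊥ : Subgroup G)) := by
    rw [Subgroup.card_bot]; exact odd_one
  choose m₁ m₂ hm hsum using fun χ : Cfsg.IrrCharacter G =>
    Helper31.br_dihedral χ (⊥ : Subgroup G) hbot z hz (by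
      intro x hx
      rw [Subgroup.mem_bot] at hx
      subst hx
      simp)
  have hdeg : ∀ χ : Cfsg.IrrCharacter G,
      (χ : G → ℂ) 1 = (Cfsg.charDegree (χ : G → ℂ) : ℂ) := fun χ =>
    Helper81.irr_one_eq_charDegree χ
  have hdegm : ∀ χ : Cfsg.IrrCharacter G, Cfsg.charDegree (χ : G → ℂ) = m₁ χ + m₂ χ := by
    intro χ
    have h1 := hsum χ
    have h2 : ∑ᶠ x : (⊥ : Subgroup G), (χ : G → ℂ) (x : G) = (χ : G → ℂ) 1 := by
      haveI : Unique (⊥ : Subgroup G) := Subgroup.instUniqueSubtypeMemBot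
      rw [finsum_unique]
      have hd : ((default : (⊥ : Subgroup G)) : G) = 1 :=
        Subgroup.mem_bot.mp (default : (⊥ : Subgroup G)).2
      rw [hd]
    rw [h2, Subgroup.card_bot, hdeg χ] at h1
    have h3 : ((Cfsg.charDegree (χ : G → ℂ) : ℕ) : ℂ) = ((m₁ χ + m₂ χ : ℕ) : ℂ) := by
      rw [h1]; push_cast; ring
    exact_mod_cast h3
  have hr : ∀ χ : Cfsg.IrrCharacter G, (χ : G → ℂ) z = (((m₁ χ : ℤ) - (m₂ χ : ℤ) : ℤ) : ℂ) := by
    intro χ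
    rw [hm χ]
    push_cast
    ring
  have hrc : ∀ χ : Cfsg.IrrCharacter G,
      conj ((χ : G → ℂ) z) = (((m₁ χ : ℤ) - (m₂ χ : ℤ) : ℤ) : ℂ) := by
    intro χ
    rw [hr χ, map_intCast]
  -- the two permutation characters at `z`
  have e1 : (1 : ℤ) + ∑ χ ∈ K, (mP χ : ℤ) * ((m₁ χ : ℤ) - (m₂ χ : ℤ)) = 0 := by
    have h1 := hH z
    rw [hcntN, Nat.cast_zero, mul_zero] at h1
    have hpq : ((p * q : ℕ) : ℂ) ≠ 0 := by
      exact_mod_cast (Nat.mul_pos hpp.pos hq1).ne'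
    have h2 := (mul_eq_zero.mp h1).resolve_left hpq
    simp only [hrc] at h2
    exact_mod_cast h2
  have hYcard : T.Y.card = t := by
    rw [T.hcardY, ← hqt, Nat.mul_div_cancel_left t hq1]
  have hYne : T.Y.Nonempty := by
    rw [← Finset.card_pos, hYcard]; exact ht1
  obtain ⟨θ₀, hθ₀⟩ := hYne
  have hYz : ∀ θ ∈ T.Y, (m₁ θ : ℤ) - (m₂ θ : ℤ) = (m₁ θ₀ : ℤ) - (m₂ θ₀ : ℤ) := by
    intro θ hθ
    have h := T.hYreg θ hθ θ₀ hθ₀ z hzreg
    rw [hr θ, hr θ₀] at h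
    exact_mod_cast h
  have e2 : (1 : ℤ) + ((n : ℤ) + 1) * ∑ χ ∈ T.X1, ((m₁ χ : ℤ) - (m₂ χ : ℤ))
      + ((n : ℤ) + 1) * ((m₁ θ₀ : ℤ) - (m₂ θ₀ : ℤ))
      + ∑ χ ∈ K, (mP χ : ℤ) * ((m₁ χ : ℤ) - (m₂ χ : ℤ)) = 0 := by
    have h1 := Helper67.brn_ind_one (P : Subgroup G) mP (fun χ => by rw [hP]; exact hmP χ) z
    rw [hcntP, Nat.cast_zero, mul_zero, hP] at h1
    have h2 := (mul_eq_zero.mp h1).resolve_left hpC
    rw [Helper8.br_sum_split T K hK] at h2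
    simp only [hrc] at h2
    have s1 : ∑ χ ∈ T.X1, (mP χ : ℂ) * (((m₁ χ : ℤ) - (m₂ χ : ℤ) : ℤ) : ℂ)
        = ((((n : ℤ) + 1) * ∑ χ ∈ T.X1, ((m₁ χ : ℤ) - (m₂ χ : ℤ)) : ℤ) : ℂ) := by
      push_cast
      rw [Finset.mul_sum]
      exact Finset.sum_congr rfl (fun χ hχ => by rw [hmX1 χ hχ]; push_cast; ring)
    have s2 : ∑ χ ∈ T.X2, (mP χ : ℂ) * (((m₁ χ : ℤ) - (m₂ χ : ℤ) : ℤ) : ℂ) = 0 :=
      Finset.sum_eq_zero (fun χ hχ => by rw [hmX2 χ hχ]; simp)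
    have s3 : ∑ χ ∈ T.Y, (mP χ : ℂ) * (((m₁ χ : ℤ) - (m₂ χ : ℤ) : ℤ) : ℂ)
        = ((((n : ℤ) + 1) * ((m₁ θ₀ : ℤ) - (m₂ θ₀ : ℤ)) : ℤ) : ℂ) := by
      rw [Finset.sum_congr rfl (g := fun _ => (w : ℂ) * (((m₁ θ₀ : ℤ) - (m₂ θ₀ : ℤ) : ℤ) : ℂ))
        (fun χ hχ => by rw [hmY χ hχ, hYz χ hχ]), Finset.sum_const, hYcard, nsmul_eq_mul]
      have h3 : ((w * t : ℕ) : ℂ) = ((n + 1 : ℕ) : ℂ) := by rw [hwt]
      push_cast at h3 ⊢
      linear_combination ((m₁ θ₀ : ℂ) - (m₂ θ₀ : ℂ)) * h3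
    rw [s1, s2, s3, hm1] at h2
    have h4 : (((1 : ℤ) + ((n : ℤ) + 1) * ∑ χ ∈ T.X1, ((m₁ χ : ℤ) - (m₂ χ : ℤ))
      + ((n : ℤ) + 1) * ((m₁ θ₀ : ℤ) - (m₂ θ₀ : ℤ))
      + ∑ χ ∈ K, (mP χ : ℤ) * ((m₁ χ : ℤ) - (m₂ χ : ℤ)) : ℤ) : ℂ) = ((0 : ℤ) : ℂ) := by
      have htriv : (m₁ (Helper81.trivIrr G) : ℤ) - (m₂ (Helper81.trivIrr G) : ℤ) = 1 := by
        have h5 := hr (Helper81.trivIrr G)
        rw [Helper81.trivIrr_apply] at h5
        exact_mod_cast h5.symm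
      rw [htriv] at h2
      push_cast
      push_cast at h2
      linear_combination h2
    exact_mod_cast h4
  -- the relation at `z`
  have e3 : -((m₁ θ₀ : ℤ) - (m₂ θ₀ : ℤ)) = 1 + ∑ χ ∈ T.X1, ((m₁ χ : ℤ) - (m₂ χ : ℤ))
      - ∑ χ ∈ T.X2, ((m₁ χ : ℤ) - (m₂ χ : ℤ)) := by
    have h1 := T.hrel θ₀ hθ₀ z hzreg
    simp only [hr] at h1
    rw [hε] at h1
    have h2 : (((-1 : ℤ) * ((m₁ θ₀ : ℤ) - (m₂ θ₀ : ℤ)) : ℤ) : ℂ)
        = ((1 + ∑ χ ∈ T.X1, ((m₁ χ : ℤ) - (m₂ χ : ℤ))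
          - ∑ χ ∈ T.X2, ((m₁ χ : ℤ) - (m₂ χ : ℤ)) : ℤ) : ℂ) := by
      push_cast
      push_cast at h1
      linear_combination h1
    have h3 : (-1 : ℤ) * ((m₁ θ₀ : ℤ) - (m₂ θ₀ : ℤ)) = 1 + ∑ χ ∈ T.X1, ((m₁ χ : ℤ) - (m₂ χ : ℤ))
          - ∑ χ ∈ T.X2, ((m₁ χ : ℤ) - (m₂ χ : ℤ)) := by exact_mod_cast h2
    linarith
  -- parity on `X2`
  have hpar : (2 : ℤ) ∣ ∑ χ ∈ T.X2, ((m₁ χ : ℤ) - (m₂ χ : ℤ)) := by
    apply Finset.dvd_sum
    intro χ hχ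
    have h1 := hdegm χ
    rw [hX2 χ hχ] at h1
    have h2 : Even (p - 1) := hpp.even_sub_one hodd
    obtain ⟨c, hc⟩ := h2
    exact ⟨(c : ℤ) - (m₂ χ : ℤ), by omega⟩
  -- conclusion
  have hn1 : (0 : ℤ) < (n : ℤ) + 1 := by positivity
  have h6 : ((n : ℤ) + 1) * (∑ χ ∈ T.X1, ((m₁ χ : ℤ) - (m₂ χ : ℤ))
      + ((m₁ θ₀ : ℤ) - (m₂ θ₀ : ℤ))) = 0 := by linarith
  have h7 : ∑ χ ∈ T.X1, ((m₁ χ : ℤ) - (m₂ χ : ℤ)) + ((m₁ θ₀ : ℤ) - (m₂ θ₀ : ℤ)) = 0 := by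
    rcases mul_eq_zero.mp h6 with h | h
    · omega
    · exact h
  have h8 : ∑ χ ∈ T.X2, ((m₁ χ : ℤ) - (m₂ χ : ℤ)) = 1 := by linarith
  rw [h8] at hpar
  omega

end Cfsg.Agent.Helper79
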