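import Mathlib
import Cfsg.Agent.Helper9.BRDefs
import Cfsg.Agent.Helper61.BRXGT1

set_option autoImplicit false

/-!
Piece REL of CALL S0996 (helper79): the relation of the principal block summed over the
`p`-regular elements of `N(P)`.
-/

open Cfsg
open scoped ComplexConjugate

universe u

namespace Cfsg.Agent.Helper79

/-- a sum over a subgroup as a sum over a filtered finset. -/
theorem brn_finsum_subgroup {G : Type u} [Group G] [Fintype G] [DecidableEq G] (H : Subgroup G)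
    [DecidablePred (· ∈ H)] (F : G → ℂ) :
    ∑ᶠ x : H, F (x : G) = ∑ x ∈ Finset.univ.filter (fun x => x ∈ H), F x := by
  classical
  have : Fintype H := Fintype.ofFinite H
  rw [finsum_eq_sum_of_fintype]
  rw [Finset.sum_subtype (Finset.univ.filter (fun x => x ∈ H)) (p := fun x => x ∈ H)
    (fun x => by simp) F]

theorem brn_sum_rel {G : Type u} [Group G] [Fintype G] {p : ℕ} [Fact p.Prime]
    {M : Ideal Cfsg.AlgInt} (P : Sylow p G) (hP : Nat.card (P : Subgroup G) = p)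
    (hC : Nat.card (Subgroup.centralizer ((P : Subgroup G) : Set G)) = p) (q : ℕ)
    (T : Cfsg.Agent.Helper9.BRTab p M P q) (θ : Cfsg.IrrCharacter G) (hθ : θ ∈ T.Y) :
    (T.ε : ℂ) * (∑ᶠ x : ↥(Subgroup.normalizer ((P : Subgroup G) : Set G)), (θ : G → ℂ) (x : G)
        - ∑ᶠ x : (P : Subgroup G), (θ : G → ℂ) (x : G) + (θ : G → ℂ) 1)
      = ((Nat.card ↥(Subgroup.normalizer ((P : Subgroup G) : Set G)) : ℂ) - (p : ℂ) + 1)
        + ∑ χ ∈ T.X1,
          (∑ᶠ x : ↥(Subgroup.normalizer ((P : Subgroup G) : Set G)), (χ : G → ℂ) (x : G)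
            - ∑ᶠ x : (P : Subgroup G), (χ : G → ℂ) (x : G) + (χ : G → ℂ) 1)
        - ∑ χ ∈ T.X2,
          (∑ᶠ x : ↥(Subgroup.normalizer ((P : Subgroup G) : Set G)), (χ : G → ℂ) (x : G)
            - ∑ᶠ x : (P : Subgroup G), (χ : G → ℂ) (x : G) + (χ : G → ℂ) 1) := by
  classical
  have hpp : p.Prime := Fact.out
  set H : Subgroup G := Subgroup.normalizer ((P : Subgroup G) : Set G) with hHdef
  have hPH : (P : Subgroup G) ≤ H := Subgroup.le_normalizer
  set SH : Finset G := Finset.univ.filter (fun x => x ∈ H) with hSH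
  set SP : Finset G := Finset.univ.filter (fun x => x ∈ (P : Subgroup G)) with hSP
  have hsub : SP ⊆ SH := by
    intro x hx
    rw [hSP, Finset.mem_filter] at hx
    rw [hSH, Finset.mem_filter]
    exact ⟨Finset.mem_univ _, hPH hx.2⟩
  have h1SP : (1 : G) ∈ SP := by
    rw [hSP, Finset.mem_filter]
    exact ⟨Finset.mem_univ _, one_mem _⟩
  have h1not : (1 : G) ∉ SH \ SP := by
    rw [Finset.mem_sdiff]
    exact fun h => h.2 h1SP
  set R : Finset G := insert 1 (SH \ SP) with hR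
  have key : ∀ F : G → ℂ, ∑ x ∈ R, F x
      = ∑ᶠ x : H, F (x : G) - ∑ᶠ x : (P : Subgroup G), F (x : G) + F 1 := by
    intro F
    rw [brn_finsum_subgroup H F, brn_finsum_subgroup (P : Subgroup G) F, hR,
      Finset.sum_insert h1not, ← Finset.sum_sdiff hsub]
    ring
  have hreg : ∀ x ∈ R, ¬ p ∣ orderOf x := by
    intro x hx
    rw [hR, Finset.mem_insert, Finset.mem_sdiff] at hx
    rcases hx with rfl | ⟨h1, h2⟩
    · rw [orderOf_one]
      exact hpp.not_dvd_one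
    · rw [hSH, Finset.mem_filter] at h1
      rw [hSP, Finset.mem_filter] at h2
      exact Helper61.brn_norm_preg P hP hC x h1.2 (fun h => h2 ⟨Finset.mem_univ _, h⟩)
  have hsum : ∑ x ∈ R, (T.ε : ℂ) * (θ : G → ℂ) x
      = ∑ x ∈ R, (1 + ∑ χ ∈ T.X1, (χ : G → ℂ) x - ∑ χ ∈ T.X2, (χ : G → ℂ) x) :=
    Finset.sum_congr rfl (fun x hx => T.hrel θ hθ x (hreg x hx))
  rw [← Finset.mul_sum, key, Finset.sum_sub_distrib, Finset.sum_add_distrib, Finset.sum_comm,
    Finset.sum_comm (s := R) (t := T.X2)] at hsum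
  rw [hsum]
  have hone : ∑ x ∈ R, (1 : ℂ) = (Nat.card H : ℂ) - (p : ℂ) + 1 := by
    rw [key (fun _ => (1 : ℂ))]
    have : Fintype H := Fintype.ofFinite H
    have : Fintype (P : Subgroup G) := Fintype.ofFinite _
    rw [finsum_eq_sum_of_fintype, finsum_eq_sum_of_fintype, Finset.sum_const, Finset.sum_const,
      Finset.card_univ, Finset.card_univ, ← Nat.card_eq_fintype_card, ← Nat.card_eq_fintype_card,
      hP]
    simp
  have e1 : ∑ y ∈ T.X1, ∑ x ∈ R, (y : G → ℂ) x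
      = ∑ χ ∈ T.X1, (∑ᶠ x : H, (χ : G → ℂ) (x : G)
        - ∑ᶠ x : (P : Subgroup G), (χ : G → ℂ) (x : G) + (χ : G → ℂ) 1) :=
    Finset.sum_congr rfl (fun χ _ => key (χ : G → ℂ))
  have e2 : ∑ y ∈ T.X2, ∑ x ∈ R, (y : G → ℂ) x
      = ∑ χ ∈ T.X2, (∑ᶠ x : H, (χ : G → ℂ) (x : G)
        - ∑ᶠ x : (P : Subgroup G), (χ : G → ℂ) (x : G) + (χ : G → ℂ) 1) :=
    Finset.sum_congr rfl (fun χ _ => key (χ : G → ℂ))
  rw [hone, e1, e2]

end Cfsg.Agent.Helper79
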