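import Mathlib
import Cfsg.Agent.Helper9.BRDefs
import Cfsg.Agent.Helper8.BRSplit
import Cfsg.Agent.Helper81.SectionChar
import Cfsg.Agent.Helper81.CharBasic
import Cfsg.Agent.Helper80.CharOrtho
import Cfsg.Agent.Helper67.BRXI1
import Cfsg.Agent.Helper67.BRXMONO
import Cfsg.Agent.Helper19.BRXNum
import Cfsg.Agent.Helper75.BRXMP
import Cfsg.Agent.Helper79.BRXREL

set_option autoImplicit false

/-!
Piece TAB of CALL S0996 (helper79): the multiplicities of the trivial characters of `P` and of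
`N(P)` in the irreducible characters, and the permutation character of `G` on `G / N(P)`.
-/

open Cfsg
open scoped ComplexConjugate

universe u

namespace Cfsg.Agent.Helper79


/-- the multiplicity of the trivial character of a subgroup. -/
theorem brn_exists_mult {G : Type u} [Group G] [Finite G] (H : Subgroup G)
    (χ : Cfsg.IrrCharacter G) :
    ∃ m : ℕ, ∑ᶠ x : H, (χ : G → ℂ) (x : G) = (Nat.card H : ℂ) * (m : ℂ) := by
  classical
  haveI : Fintype H := Fintype.ofFinite H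
  obtain ⟨n, hn⟩ := Helper81.exists_linMult χ H.subtype (1 : H →* ℂˣ)
  refine ⟨n, ?_⟩
  rw [finsum_eq_sum_of_fintype, Nat.card_eq_fintype_card, ← hn]
  refine Finset.sum_congr rfl (fun x _ => ?_)
  simp

theorem brn_table {G : Type u} [Group G] [Fintype G] {p : ℕ} [Fact p.Prime] (hodd : p ≠ 2)
    {M : Ideal Cfsg.AlgInt} (hM : Cfsg.IsPModular p M)
    (P : Sylow p G) (hP : Nat.card (P : Subgroup G) = p)
    (hC : Nat.card (Subgroup.centralizer ((P : Subgroup G) : Set G)) = p)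
    (q n t a w : ℕ)
    (hq : (Subgroup.centralizer ((P : Subgroup G) : Set G)).relIndex
        (Subgroup.normalizer ((P : Subgroup G) : Set G)) = q)
    (hcard : Nat.card G = p * q * (1 + n * p))
    (T : Cfsg.Agent.Helper9.BRTab p M P q) (hn : 1 ≤ n) (hq2 : 2 ≤ q) (hqt : q * t = p - 1)
    (hX1c : T.X1.card = a) (hqa : q = 1 + w + a * (n + 1))
    (hX1 : ∀ χ ∈ T.X1, Cfsg.charDegree (χ : G → ℂ) = 1 + n * p)
    (hX2 : ∀ χ ∈ T.X2, Cfsg.charDegree (χ : G → ℂ) = p - 1)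
    (hcase : (T.ε = 1 ∧ w = 0 ∧ ∀ θ ∈ T.Y, Cfsg.charDegree (θ : G → ℂ) = q) ∨
       (T.ε = -1 ∧ 1 ≤ w ∧ w * t = n + 1 ∧
        ∀ θ ∈ T.Y, Cfsg.charDegree (θ : G → ℂ) = w * p - q)) :
    ∃ mP : Cfsg.IrrCharacter G → ℕ,
      (∀ χ : Cfsg.IrrCharacter G,
        ∑ᶠ x : (P : Subgroup G), (χ : G → ℂ) (x : G) = (p : ℂ) * (mP χ : ℂ)) ∧
      mP (Cfsg.Agent.Helper81.trivIrr G) = 1 ∧
      (∀ χ ∈ T.X1, mP χ = n + 1) ∧ (∀ χ ∈ T.X2, mP χ = 0) ∧ (∀ θ ∈ T.Y, mP θ = w) ∧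
      (∀ χ : Cfsg.IrrCharacter G, χ ∉ Cfsg.principalBlock M G →
        Cfsg.charDegree (χ : G → ℂ) = p * mP χ ∧ 1 ≤ mP χ) ∧
      ∀ K : Finset (Cfsg.IrrCharacter G),
        (∀ χ : Cfsg.IrrCharacter G, χ ∈ K ↔ χ ∉ Cfsg.principalBlock M G) →
        (∑ χ ∈ K, (mP χ : ℤ) ^ 2 = (n : ℤ)) ∧
        ∀ g : G, ((p * q : ℕ) : ℂ) * (1 + ∑ χ ∈ K, (mP χ : ℂ) * conj ((χ : G → ℂ) g))
          = (Nat.card (Subgroup.centralizer ({g} : Set G)) : ℂ)
            * (Nat.card {x : ↥(Subgroup.normalizer ((P : Subgroup G) : Set G)) //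
                IsConj (x : G) g} : ℂ) := by
  classical
  have hpp : p.Prime := Fact.out
  have hp2 : 2 ≤ p := hpp.two_le
  have hp3 : 3 ≤ p := by
    rcases Nat.lt_or_ge p 3 with h | h
    · exfalso; apply hodd; omega
    · exact h
  have hpC : (p : ℂ) ≠ 0 := by exact_mod_cast hpp.ne_zero
  have hpZ : (p : ℤ) ≠ 0 := by exact_mod_cast hpp.ne_zero
  have ht1 : 1 ≤ t := by
    rcases Nat.eq_zero_or_pos t with h | h
    · rw [h] at hqt; omega
    · exact h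
  have hqd : q ∣ p - 1 := ⟨t, hqt.symm⟩
  have hqp : q ≤ p - 1 := by
    rw [← hqt]; exact Nat.le_mul_of_pos_right q ht1
  have hYcard : T.Y.card = t := by
    rw [T.hcardY, ← hqt, Nat.mul_div_cancel_left t (by omega)]
  have hX2c : 1 + a + T.X2.card = q := by
    have := T.hcard
    omega
  -- the common degree of `Y`
  obtain ⟨f, hY, hcase'⟩ : ∃ f : ℕ, (∀ θ ∈ T.Y, Cfsg.charDegree (θ : G → ℂ) = f) ∧
      ((T.ε = 1 ∧ w = 0 ∧ f = q) ∨ (T.ε = -1 ∧ 1 ≤ w ∧ w * t = n + 1 ∧ f + q = w * p)) := by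
    rcases hcase with ⟨h1, h2, h3⟩ | ⟨h1, h2, h3, h4⟩
    · exact ⟨q, h3, Or.inl ⟨h1, h2, rfl⟩⟩
    · refine ⟨w * p - q, h4, Or.inr ⟨h1, h2, h3, ?_⟩⟩
      have h5 : p ≤ w * p := Nat.le_mul_of_pos_left p h2
      omega
  obtain ⟨mP, hmP, hm1, hmX1, hmX2, hmK, hmYsum⟩ :=
    Helper75.brn_table_P hodd hM P hP hC q n f T hq2 hqd hX1 hX2 hY
  rw [hYcard] at hmYsum
  -- the normalizer
  have hCN : Subgroup.centralizer ((P : Subgroup G) : Set G)
      ≤ Subgroup.normalizer ((P : Subgroup G) : Set G) := Subgroup.centralizer_le_normalizer _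
  have hPN : (P : Subgroup G) ≤ Subgroup.normalizer ((P : Subgroup G) : Set G) :=
    Subgroup.le_normalizer
  have hNcard : Nat.card (Subgroup.normalizer ((P : Subgroup G) : Set G)) = p * q := by
    have h1 := Subgroup.relIndex_mul_relIndex (⊥ : Subgroup G)
      (Subgroup.centralizer ((P : Subgroup G) : Set G))
      (Subgroup.normalizer ((P : Subgroup G) : Set G)) bot_le hCN
    rw [Subgroup.relIndex_bot_left, Subgroup.relIndex_bot_left, hC, hq] at h1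
    exact h1.symm
  choose mH hmH using fun χ : Cfsg.IrrCharacter G =>
    brn_exists_mult (Subgroup.normalizer ((P : Subgroup G) : Set G)) χ
  have hmono : ∀ χ : Cfsg.IrrCharacter G, mH χ ≤ mP χ := fun χ =>
    Helper67.brn_mult_mono χ (P : Subgroup G) _ hPN (mP χ) (mH χ) (by rw [hP]; exact hmP χ) (hmH χ)
  have hNcC : (Nat.card (Subgroup.normalizer ((P : Subgroup G) : Set G)) : ℂ)
      = (p : ℂ) * (q : ℂ) := by
    rw [hNcard]; push_cast; rfl
  have hNcC0 : (Nat.card (Subgroup.normalizer ((P : Subgroup G) : Set G)) : ℂ) ≠ 0 := by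
    rw [hNcard]
    exact_mod_cast (Nat.mul_pos hpp.pos (by omega : 0 < q)).ne'
  have hdeg : ∀ χ : Cfsg.IrrCharacter G,
      (χ : G → ℂ) 1 = (Cfsg.charDegree (χ : G → ℂ) : ℂ) := fun χ =>
    Helper81.irr_one_eq_charDegree χ
  have htriv_deg : Cfsg.charDegree (Helper81.trivIrr G : G → ℂ) = 1 := by
    have := hdeg (Helper81.trivIrr G)
    rw [Helper81.trivIrr_apply] at this
    exact_mod_cast this.symm
  -- the multiplicity of the trivial character in itself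
  have hmH1 : mH (Helper81.trivIrr G) = 1 := by
    have h1 := hmH (Helper81.trivIrr G)
    simp only [Helper81.trivIrr_apply] at h1
    rw [finsum_eq_sum_of_fintype, Finset.sum_const, Finset.card_univ, nsmul_eq_mul, mul_one,
      ← Nat.card_eq_fintype_card] at h1
    have h2 : (Nat.card (Subgroup.normalizer ((P : Subgroup G) : Set G)) : ℂ) * 1
        = (Nat.card (Subgroup.normalizer ((P : Subgroup G) : Set G)) : ℂ)
          * (mH (Helper81.trivIrr G) : ℂ) := by rw [mul_one]; exact h1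
    have h3 := mul_left_cancel₀ hNcC0 h2
    exact_mod_cast h3.symm
  have hmHX2 : ∀ χ ∈ T.X2, mH χ = 0 := fun χ hχ => by
    have := hmono χ
    rw [hmX2 χ hχ] at this
    omega
  -- the set of characters outside the principal block
  haveI : Fintype (Cfsg.IrrCharacter G) := Fintype.ofFinite _
  obtain ⟨K₀, hK₀⟩ : ∃ K : Finset (Cfsg.IrrCharacter G),
      ∀ χ : Cfsg.IrrCharacter G, χ ∈ K ↔ χ ∉ Cfsg.principalBlock M G :=
    ⟨Finset.univ.filter (fun χ => χ ∉ Cfsg.principalBlock M G), fun χ => by simp⟩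
  have hKdeg : ∀ χ ∈ K₀, Cfsg.charDegree (χ : G → ℂ) = p * mP χ := fun χ hχ =>
    (hmK χ ((hK₀ χ).mp hχ)).1
  -- the degree count for the permutation character
  have hcount : 1 + (1 + n * p) * ∑ χ ∈ T.X1, mH χ + f * ∑ θ ∈ T.Y, mH θ
      + p * ∑ χ ∈ K₀, mH χ * mP χ = 1 + n * p := by
    have h1 := Helper67.brn_ind_one (Subgroup.normalizer ((P : Subgroup G) : Set G)) mH hmH 1
    have hc1 : Nat.card (Subgroup.centralizer ({(1 : G)} : Set G)) = Nat.card G := by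
      have : Subgroup.centralizer ({(1 : G)} : Set G) = ⊤ := by
        rw [eq_top_iff]
        intro x _
        rw [Subgroup.mem_centralizer_iff]
        intro h hh
        rw [Set.mem_singleton_iff.mp hh]
        simp
      rw [this, Subgroup.card_top]
    have hc2 : Nat.card {x : ↥(Subgroup.normalizer ((P : Subgroup G) : Set G)) //
        IsConj (x : G) 1} = 1 := by
      rw [Nat.card_eq_one_iff_unique]
      refine ⟨⟨fun x y => ?_⟩, ⟨⟨1, by simp⟩⟩⟩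
      apply Subtype.ext
      apply Subtype.ext
      rw [isConj_one_left.mp x.2, isConj_one_left.mp y.2]
    rw [hc1, hc2, hcard, Helper8.br_sum_split T K₀ hK₀, hNcC] at h1
    simp only [hdeg, Complex.conj_natCast] at h1
    have e1 : ∑ χ ∈ T.X1, (mH χ : ℂ) * (Cfsg.charDegree (χ : G → ℂ) : ℂ)
        = ((1 + n * p : ℕ) : ℂ) * ((∑ χ ∈ T.X1, mH χ : ℕ) : ℂ) := by
      rw [Nat.cast_sum, Finset.mul_sum]
      exact Finset.sum_congr rfl (fun χ hχ => by rw [hX1 χ hχ]; ring)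
    have e2 : ∑ χ ∈ T.X2, (mH χ : ℂ) * (Cfsg.charDegree (χ : G → ℂ) : ℂ) = 0 :=
      Finset.sum_eq_zero (fun χ hχ => by rw [hmHX2 χ hχ]; simp)
    have e3 : ∑ χ ∈ T.Y, (mH χ : ℂ) * (Cfsg.charDegree (χ : G → ℂ) : ℂ)
        = (f : ℂ) * ((∑ χ ∈ T.Y, mH χ : ℕ) : ℂ) := by
      rw [Nat.cast_sum, Finset.mul_sum]
      exact Finset.sum_congr rfl (fun χ hχ => by rw [hY χ hχ]; ring)
    have e4 : ∑ χ ∈ K₀, (mH χ : ℂ) * (Cfsg.charDegree (χ : G → ℂ) : ℂ)
        = (p : ℂ) * ((∑ χ ∈ K₀, mH χ * mP χ : ℕ) : ℂ) := by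
      rw [Nat.cast_sum, Finset.mul_sum]
      exact Finset.sum_congr rfl (fun χ hχ => by rw [hKdeg χ hχ]; push_cast; ring)
    rw [e1, e2, e3, e4, hmH1, htriv_deg] at h1
    have h2 : ((p : ℂ) * (q : ℂ)) * (((1 + (1 + n * p) * ∑ χ ∈ T.X1, mH χ
        + f * ∑ θ ∈ T.Y, mH θ + p * ∑ χ ∈ K₀, mH χ * mP χ : ℕ)) : ℂ)
        = ((p : ℂ) * (q : ℂ)) * ((1 + n * p : ℕ) : ℂ) := by
      push_cast
      push_cast at h1
      linear_combination h1
    have hpq0 : (p : ℂ) * (q : ℂ) ≠ 0 := by rw [← hNcC]; exact hNcC0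
    have h3 := mul_left_cancel₀ hpq0 h2
    exact_mod_cast h3
  have hmHX1 : ∀ χ ∈ T.X1, mH χ = 0 := by
    have h1 : ∑ χ ∈ T.X1, mH χ = 0 := by
      by_contra hne
      have h2 : 1 ≤ ∑ χ ∈ T.X1, mH χ := Nat.one_le_iff_ne_zero.mpr hne
      have h3 : (1 + n * p) * 1 ≤ (1 + n * p) * ∑ χ ∈ T.X1, mH χ := Nat.mul_le_mul_left _ h2
      omega
    intro χ hχ
    exact (Finset.sum_eq_zero_iff.mp h1) χ hχ
  -- the summed relation
  have hrelθ : ∀ θ ∈ T.Y, T.ε * ((p : ℤ) * q * (mH θ : ℤ) - p * (mP θ : ℤ) + f) = (q : ℤ) := by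
    intro θ hθ
    have h1 := brn_sum_rel P hP hC q T θ hθ
    simp only [hmH, hmP, hdeg, hNcC] at h1
    have e1 : ∑ χ ∈ T.X1, ((p : ℂ) * (q : ℂ) * (mH χ : ℂ) - (p : ℂ) * (mP χ : ℂ)
        + (Cfsg.charDegree (χ : G → ℂ) : ℂ)) = (a : ℂ) * (1 - (p : ℂ)) := by
      rw [Finset.sum_congr rfl (g := fun _ => (1 : ℂ) - (p : ℂ)) (fun χ hχ => by
        rw [hmHX1 χ hχ, hmX1 χ hχ, hX1 χ hχ]; push_cast; ring),
        Finset.sum_const, hX1c, nsmul_eq_mul]
    have e2 : ∑ χ ∈ T.X2, ((p : ℂ) * (q : ℂ) * (mH χ : ℂ) - (p : ℂ) * (mP χ : ℂ)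
        + (Cfsg.charDegree (χ : G → ℂ) : ℂ)) = (T.X2.card : ℂ) * ((p : ℂ) - 1) := by
      rw [Finset.sum_congr rfl (g := fun _ => (p : ℂ) - 1) (fun χ hχ => by
        rw [hmHX2 χ hχ, hmX2 χ hχ, hX2 χ hχ, Nat.cast_sub (by omega : 1 ≤ p)]; push_cast; ring),
        Finset.sum_const, nsmul_eq_mul]
    rw [e1, e2, hY θ hθ] at h1
    have hb : (T.X2.card : ℂ) = (q : ℂ) - 1 - (a : ℂ) := by
      have : ((1 + a + T.X2.card : ℕ) : ℂ) = (q : ℂ) := by rw [hX2c]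
      push_cast at this
      linear_combination this
    rw [hb] at h1
    have h2 : ((T.ε * ((p : ℤ) * q * (mH θ : ℤ) - p * (mP θ : ℤ) + f) : ℤ) : ℂ) = ((q : ℤ) : ℂ) := by
      push_cast
      push_cast at h1
      linear_combination h1
    exact_mod_cast h2
  -- the multiplicities on `Y`
  have hYfacts : ∀ θ ∈ T.Y, mP θ = w ∧ mH θ = 0 := by
    rcases hcase' with ⟨hε, hw0, hfq⟩ | ⟨hε, hw1, hwt, hfq⟩
    · -- alpha
      have hsum0 : ∑ θ ∈ T.Y, (mP θ : ℤ) = 0 := by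
        rw [hε, hfq] at hmYsum
        have h1 : (p : ℤ) - 1 = (q : ℤ) * t := by
          have : ((q * t : ℕ) : ℤ) = ((p - 1 : ℕ) : ℤ) := by rw [hqt]
          rw [Nat.cast_sub (by omega : 1 ≤ p)] at this
          push_cast at this
          linarith
        have h2 : (p : ℤ) * ∑ θ ∈ T.Y, (mP θ : ℤ) = 0 := by rw [hmYsum, h1]; ring
        rcases mul_eq_zero.mp h2 with h | h
        · exact absurd h hpZ
        · exact h
      intro θ hθ
      have h3 : (mP θ : ℤ) = 0 :=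
        (Finset.sum_eq_zero_iff_of_nonneg (fun i _ => by positivity)).mp hsum0 θ hθ
      have h4 : mP θ = 0 := by exact_mod_cast h3
      have h5 := hmono θ
      exact ⟨by rw [h4, hw0], by omega⟩
    · -- beta
      have hfq' : (f : ℤ) = (w : ℤ) * p - q := by
        have : ((f + q : ℕ) : ℤ) = ((w * p : ℕ) : ℤ) := by rw [hfq]
        push_cast at this
        linarith
      have h1 : (p : ℤ) - 1 = (q : ℤ) * t := by
        have : ((q * t : ℕ) : ℤ) = ((p - 1 : ℕ) : ℤ) := by rw [hqt]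
        rw [Nat.cast_sub (by omega : 1 ≤ p)] at this
        push_cast at this
        linarith
      have hind : ∀ θ ∈ T.Y, (mP θ : ℤ) = (q : ℤ) * (mH θ : ℤ) + w := by
        intro θ hθ
        have h2 := hrelθ θ hθ
        rw [hε, hfq'] at h2
        have h3 : (p : ℤ) * (mP θ : ℤ) = p * ((q : ℤ) * (mH θ : ℤ) + w) := by linarith
        exact mul_left_cancel₀ hpZ h3
      have hsum : ∑ θ ∈ T.Y, (mP θ : ℤ) = (t : ℤ) * w := by
        rw [hε, hfq'] at hmYsum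
        have h2 : (p : ℤ) * ∑ θ ∈ T.Y, (mP θ : ℤ) = p * ((t : ℤ) * w) := by
          rw [hmYsum]
          linear_combination (1 : ℤ) * h1
        exact mul_left_cancel₀ hpZ h2
      have hsumH : ∑ θ ∈ T.Y, (mH θ : ℤ) = 0 := by
        rw [Finset.sum_congr rfl hind, Finset.sum_add_distrib, ← Finset.mul_sum,
          Finset.sum_const, hYcard, nsmul_eq_mul] at hsum
        have h2 : (q : ℤ) * ∑ θ ∈ T.Y, (mH θ : ℤ) = 0 := by linarith
        rcases mul_eq_zero.mp h2 with h | h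
        · exfalso
          have : q = 0 := by exact_mod_cast h
          omega
        · exact h
      intro θ hθ
      have h3 : (mH θ : ℤ) = 0 :=
        (Finset.sum_eq_zero_iff_of_nonneg (fun i _ => by positivity)).mp hsumH θ hθ
      have h4 := hind θ hθ
      rw [h3] at h4
      refine ⟨?_, by exact_mod_cast h3⟩
      have h5 : (mP θ : ℤ) = (w : ℤ) := by linarith
      exact_mod_cast h5
  have hmY : ∀ θ ∈ T.Y, mP θ = w := fun θ hθ => (hYfacts θ hθ).1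
  have hmHY : ∀ θ ∈ T.Y, mH θ = 0 := fun θ hθ => (hYfacts θ hθ).2
  -- the multiplicities outside the block
  have hD : ∑ χ ∈ K₀, mH χ * mP χ = n := by
    rw [Finset.sum_eq_zero hmHX1, Finset.sum_eq_zero hmHY] at hcount
    have h1 : p * ∑ χ ∈ K₀, mH χ * mP χ = p * n := by
      have : n * p = p * n := Nat.mul_comm n p
      omega
    exact Nat.eq_of_mul_eq_mul_left hpp.pos h1
  have hsq : ∑ χ ∈ K₀, (mP χ : ℤ) ^ 2 = (n : ℤ) := by
    have h1 := Helper80.irr_finsum_charDegree_sq (G := G)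
    have h2 : ∑ᶠ χ : Cfsg.IrrCharacter G, ((Cfsg.charDegree (χ : G → ℂ) : ℂ)) ^ 2
        = (Nat.card G : ℂ) := by
      rw [← h1, finsum_eq_sum_of_fintype, finsum_eq_sum_of_fintype]
      push_cast
      rfl
    rw [Helper8.br_sum_split T K₀ hK₀, hcard] at h2
    have h3 : ((Cfsg.charDegree (Helper81.trivIrr G : G → ℂ) : ℤ)) ^ 2
        + ∑ χ ∈ T.X1, ((Cfsg.charDegree (χ : G → ℂ) : ℤ)) ^ 2
        + ∑ χ ∈ T.X2, ((Cfsg.charDegree (χ : G → ℂ) : ℤ)) ^ 2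
        + ∑ χ ∈ T.Y, ((Cfsg.charDegree (χ : G → ℂ) : ℤ)) ^ 2
        + ∑ χ ∈ K₀, ((Cfsg.charDegree (χ : G → ℂ) : ℤ)) ^ 2
        = ((p * q * (1 + n * p) : ℕ) : ℤ) := by
      exact_mod_cast h2
    have hsX1 : ∑ χ ∈ T.X1, ((Cfsg.charDegree (χ : G → ℂ) : ℤ)) ^ 2
        = a * (1 + (n : ℤ) * p) ^ 2 := by
      rw [Finset.sum_congr rfl (fun χ hχ => by rw [hX1 χ hχ]), Finset.sum_const, hX1c,
        nsmul_eq_mul]
      push_cast
      rfl
    have hsX2 : ∑ χ ∈ T.X2, ((Cfsg.charDegree (χ : G → ℂ) : ℤ)) ^ 2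
        = (T.X2.card : ℤ) * ((p : ℤ) - 1) ^ 2 := by
      rw [Finset.sum_congr rfl (fun χ hχ => by rw [hX2 χ hχ]), Finset.sum_const,
        nsmul_eq_mul, Nat.cast_sub (by omega : 1 ≤ p)]
      push_cast
      rfl
    have hsY : ∑ χ ∈ T.Y, ((Cfsg.charDegree (χ : G → ℂ) : ℤ)) ^ 2 = t * (f : ℤ) ^ 2 := by
      rw [Finset.sum_congr rfl (fun χ hχ => by rw [hY χ hχ]), Finset.sum_const, hYcard,
        nsmul_eq_mul]
    have hsK : ∑ χ ∈ K₀, ((Cfsg.charDegree (χ : G → ℂ) : ℤ)) ^ 2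
        = (p : ℤ) ^ 2 * ∑ k ∈ K₀, (mP k : ℤ) ^ 2 := by
      rw [Finset.mul_sum]
      refine Finset.sum_congr rfl (fun χ hχ => ?_)
      rw [hKdeg χ hχ]; push_cast; ring
    rw [htriv_deg, hsX1, hsX2, hsY, hsK] at h3
    refine Helper19.brn_num_K p q n t a T.X2.card w f _ hp2 hqt hX2c hqa ?_ ?_
    · rcases hcase' with ⟨-, hw0, hfq⟩ | ⟨-, -, hwt, hfq⟩
      · exact Or.inl ⟨hw0, hfq⟩
      · exact Or.inr ⟨hwt, hfq⟩
    · push_cast at h3
      linarith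
  have hmHK : ∀ χ ∈ K₀, mH χ = mP χ := by
    have h1 : ∑ χ ∈ K₀, ((mP χ : ℤ) * ((mP χ : ℤ) - (mH χ : ℤ))) = 0 := by
      have h2 : ∑ χ ∈ K₀, ((mH χ : ℤ) * (mP χ : ℤ)) = (n : ℤ) := by exact_mod_cast hD
      have h3 : ∑ χ ∈ K₀, ((mP χ : ℤ) * ((mP χ : ℤ) - (mH χ : ℤ)))
          = ∑ χ ∈ K₀, (mP χ : ℤ) ^ 2 - ∑ χ ∈ K₀, ((mH χ : ℤ) * (mP χ : ℤ)) := by
        rw [← Finset.sum_sub_distrib]
        exact Finset.sum_congr rfl (fun _ _ => by ring)
      rw [h3, hsq, h2, sub_self]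
    have h4 : ∀ χ ∈ K₀, 0 ≤ (mP χ : ℤ) * ((mP χ : ℤ) - (mH χ : ℤ)) := by
      intro χ _
      have := hmono χ
      have h5 : (0 : ℤ) ≤ (mP χ : ℤ) - (mH χ : ℤ) := by
        have : (mH χ : ℤ) ≤ (mP χ : ℤ) := by exact_mod_cast this
        linarith
      positivity
    intro χ hχ
    have h6 := (Finset.sum_eq_zero_iff_of_nonneg h4).mp h1 χ hχ
    have h7 : 1 ≤ mP χ := (hmK χ ((hK₀ χ).mp hχ)).2
    rcases mul_eq_zero.mp h6 with h | h
    · exfalso
      have : mP χ = 0 := by exact_mod_cast h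
      omega
    · have : (mH χ : ℤ) = (mP χ : ℤ) := by linarith
      exact_mod_cast this
  refine ⟨mP, hmP, hm1, hmX1, hmX2, hmY, hmK, ?_⟩
  intro K hK
  have hKK : K = K₀ := by
    ext χ
    rw [hK χ, hK₀ χ]
  subst hKK
  refine ⟨hsq, fun g => ?_⟩
  have h1 := Helper67.brn_ind_one (Subgroup.normalizer ((P : Subgroup G) : Set G)) mH hmH g
  rw [Helper8.br_sum_split T K hK, hNcard] at h1
  have e1 : ∑ χ ∈ T.X1, (mH χ : ℂ) * conj ((χ : G → ℂ) g) = 0 :=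
    Finset.sum_eq_zero (fun χ hχ => by rw [hmHX1 χ hχ]; simp)
  have e2 : ∑ χ ∈ T.X2, (mH χ : ℂ) * conj ((χ : G → ℂ) g) = 0 :=
    Finset.sum_eq_zero (fun χ hχ => by rw [hmHX2 χ hχ]; simp)
  have e3 : ∑ χ ∈ T.Y, (mH χ : ℂ) * conj ((χ : G → ℂ) g) = 0 :=
    Finset.sum_eq_zero (fun χ hχ => by rw [hmHY χ hχ]; simp)
  have e4 : ∑ χ ∈ K, (mH χ : ℂ) * conj ((χ : G → ℂ) g)
      = ∑ χ ∈ K, (mP χ : ℂ) * conj ((χ : G → ℂ) g) :=
    Finset.sum_congr rfl (fun χ hχ => by rw [hmHK χ hχ])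
  rw [e1, e2, e3, e4, hmH1, Helper81.trivIrr_apply] at h1
  rw [← h1]
  simp

end Cfsg.Agent.Helper79
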