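import Mathlib
import Cfsg.Agent.Helper9.BRDefs
import Cfsg.Agent.Helper8.BRS3
import Cfsg.Agent.Helper66.BRZg
import Cfsg.Agent.Helper10.BREg
import Cfsg.Agent.Helper75.BRNF
import Cfsg.Agent.Helper78.Counting
import Cfsg.Agent.Helper37.BRA3
import Cfsg.Agent.Helper37.BRXSEb
import Cfsg.Agent.Helper37.BRXNE
import Cfsg.Agent.Helper65.BRXS2h
import Cfsg.Agent.Helper65.BRXSEa
import Cfsg.Agent.Helper61.BRXGT1
import Cfsg.Agent.Helper79.BRXA1h
import Cfsg.Agent.Helper79.BRXS1h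
import Cfsg.Agent.Helper79.BRXSO
import Cfsg.Agent.Helper79.BRXTAB

/-!
CALL S0996 (helper79): the core of Brauer–Reynolds for perfect groups with a Sylow subgroup of
prime order whose Sylow number `1 + n p` is not of the exceptional form
`n (u+1) = h u p + u^2 + u + h`: assembly of the stages.
-/

set_option autoImplicit false
open Cfsg
open scoped ComplexConjugate

universe u

namespace Cfsg.Agent.Helper79


/-- SE (assembly): the even stage. -/
theorem brn_stage_even {G : Type u} [Group G] [Fintype G] {p : ℕ} [Fact p.Prime] (hodd : p ≠ 2)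
    {M : Ideal Cfsg.AlgInt} (hM : Cfsg.IsPModular p M)
    (P : Sylow p G) (hP : Nat.card (P : Subgroup G) = p)
    (hC : Nat.card (Subgroup.centralizer ((P : Subgroup G) : Set G)) = p)
    (q n t a w : ℕ)
    (hq : (Subgroup.centralizer ((P : Subgroup G) : Set G)).relIndex
        (Subgroup.normalizer ((P : Subgroup G) : Set G)) = q)
    (hcard : Nat.card G = p * q * (1 + n * p))
    (T : Cfsg.Agent.Helper9.BRTab p M P q) (hn : 1 ≤ n) (hq2 : 2 ≤ q) (hqt : q * t = p - 1)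
    (hX1c : T.X1.card = a) (hqa : q = 1 + w + a * (n + 1))
    (hX1 : ∀ χ ∈ T.X1, Cfsg.charDegree (χ : G → ℂ) = 1 + n * p)
    (hX2 : ∀ χ ∈ T.X2, Cfsg.charDegree (χ : G → ℂ) = p - 1)
    (hcase : (T.ε = 1 ∧ w = 0 ∧ ∀ θ ∈ T.Y, Cfsg.charDegree (θ : G → ℂ) = q) ∨
       (T.ε = -1 ∧ 1 ≤ w ∧ w * t = n + 1 ∧
        ∀ θ ∈ T.Y, Cfsg.charDegree (θ : G → ℂ) = w * p - q))
    (hqeven : Even q) : T.ε = -1 ∧ w = 1 := by
  classical
  have hpp : p.Prime := Fact.out
  have hp2 : 2 ≤ p := hpp.two_le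
  have ht1 : 1 ≤ t := by
    rcases Nat.eq_zero_or_pos t with h | h
    · rw [h] at hqt; omega
    · exact h
  have hqp : q ≤ p - 1 := by
    rw [← hqt]; exact Nat.le_mul_of_pos_right q ht1
  obtain ⟨mP, hmP, hm1, hmX1, hmX2, hmY, hmK, hKall⟩ :=
    brn_table hodd hM P hP hC q n t a w hq hcard T hn hq2 hqt hX1c hqa hX1 hX2 hcase
  obtain ⟨τ, hτ, hτN, hinv, hall, -, -⟩ :=
    Cfsg.Agent.Helper37.br_invol hodd P hP hC q hq hqeven
  obtain ⟨r, κ, hr, hrb, hrY⟩ := Helper65.brn_even_table hodd P hP q T mP hmP τ hτ hinv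
  haveI : Fintype (Cfsg.IrrCharacter G) := Fintype.ofFinite _
  obtain ⟨K, hK⟩ : ∃ K : Finset (Cfsg.IrrCharacter G),
      ∀ χ : Cfsg.IrrCharacter G, χ ∈ K ↔ χ ∉ Cfsg.principalBlock M G :=
    ⟨Finset.univ.filter (fun χ => χ ∉ Cfsg.principalBlock M G), fun χ => by simp⟩
  obtain ⟨hS, hH⟩ := hKall K hK
  have hHτ := hH τ
  rw [Helper61.brn_invol_count hodd P hP τ hτ hτN hinv hall] at hHτ
  have hYcard : T.Y.card = t := by
    rw [T.hcardY, ← hqt, Nat.mul_div_cancel_left t (by omega)]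
  have hYne : T.Y.Nonempty := by
    rw [← Finset.card_pos, hYcard]; exact ht1
  obtain ⟨θ₀, hθ₀⟩ := hYne
  have hκ : |κ| ≤ (w : ℤ) := by
    have h1 := hrb θ₀
    rw [hrY θ₀ hθ₀, hmY θ₀ hθ₀] at h1
    exact h1
  have hrX2 : ∀ χ ∈ T.X2, r χ = 0 := by
    intro χ hχ
    have h1 := hrb χ
    rw [hmX2 χ hχ] at h1
    have h2 : |r χ| = 0 := le_antisymm (by exact_mod_cast h1) (abs_nonneg _)
    exact abs_eq_zero.mp h2
  obtain ⟨f, hY, hcase'⟩ : ∃ f : ℕ, (∀ θ ∈ T.Y, Cfsg.charDegree (θ : G → ℂ) = f) ∧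
      ((T.ε = 1 ∧ w = 0) ∨ (T.ε = -1 ∧ w * t = n + 1 ∧ t * f = 1 + n * p)) := by
    rcases hcase with ⟨h1, h2, h3⟩ | ⟨h1, h2, h3, h4⟩
    · exact ⟨q, h3, Or.inl ⟨h1, h2⟩⟩
    · refine ⟨w * p - q, h4, Or.inr ⟨h1, h3, ?_⟩⟩
      have h5 : t * (w * p - q) = w * t * p - q * t := by
        rw [Nat.mul_sub]; congr 1 <;> ring
      rw [h5, h3, hqt]
      have h6 : (n + 1) * p = n * p + p := by ring
      omega
  obtain ⟨E2, E3, E4, E6⟩ := Helper37.brn_even_orth hodd P q n f T hX1 hY τ hτ K hK r mP κ hr hrX2 hrY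
    (fun χ hχ => (hmK χ ((hK χ).mp hχ)).1) hHτ ⟨θ₀, hθ₀⟩
  rw [hYcard] at E2 E3
  exact Helper37.brn_num_even T.X1 K r mP p q n t a w f
    (Nat.card (Subgroup.centralizer ({τ} : Set G))) T.ε κ hp2 hn ht1 hX1c hqa hcase'
    (fun i hi => by have h1 := hrb i; rw [hmX1 i hi] at h1; exact_mod_cast h1)
    (fun k _ => hrb k) hκ E2 E3 E4 hS E6

/-- CORE (assembly). -/
theorem brn_core {G : Type u} [Group G] [Fintype G] (hperf : commutator G = ⊤) (p : ℕ)
    [Fact p.Prime] (hOp : ∀ K : Subgroup G, K.Normal → (Nat.card K).Coprime p → K = ⊥)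
    (P : Sylow p G) (hP : Nat.card (P : Subgroup G) = p) (n : ℕ)
    (hn : Nat.card (Sylow p G) = 1 + n * p)
    (hnF : ∀ h u : ℕ, 0 < h → 0 < u → n * (u + 1) ≠ h * u * p + u ^ 2 + u + h) :
    (∃ (F : Type) (_ : Field F) (_ : Fintype F), Fintype.card F = p ∧ 3 < p ∧
      Nonempty (G ≃* Matrix.ProjectiveSpecialLinearGroup (Fin 2) F)) ∨
    (∃ (m : ℕ) (F : Type) (_ : Field F) (_ : Fintype F), Fintype.card F = 2 ^ m ∧
      p = 2 ^ m + 1 ∧ 3 < p ∧
      Nonempty (G ≃* Matrix.ProjectiveSpecialLinearGroup (Fin 2) F)) := by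
  classical
  have hpp : p.Prime := Fact.out
  obtain ⟨hodd, q, n', v, hq, hq2, hqd, hn', hv, hSyl, hCv, hcard⟩ := brn_setup hperf p P hP
  have hnn : n' = n := by
    rw [hn] at hSyl
    have h1 : n * p = n' * p := by omega
    exact (Nat.eq_of_mul_eq_mul_right hpp.pos h1).symm
  subst hnn
  obtain ⟨M, hM⟩ := Cfsg.Agent.Helper78.exists_isPModular p hpp
  obtain ⟨T⟩ := Cfsg.Agent.Helper75.br_tab_exists p M hM hodd P hP q hq hq2
  obtain ⟨hC, t, a, w, hqt, hX1c, hqa, hX1, hX2, hcase⟩ :=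
    brn_stage1 hperf hOp hodd hM P hP q n' v hq hq2 hqd hn' hv hCv hcard hnF T
  have hv1 : v = 1 := by
    rw [hCv] at hC
    have h1 : p * v = p * 1 := by rw [hC, mul_one]
    exact Nat.eq_of_mul_eq_mul_left hpp.pos h1
  subst hv1
  have hcard' : Nat.card G = p * q * (1 + n' * p) := by rw [hcard]; ring
  have hp2 : 2 ≤ p := hpp.two_le
  have ht1 : 1 ≤ t := by
    rcases Nat.eq_zero_or_pos t with h | h
    · rw [h] at hqt; omega
    · exact h
  have hpodd : Odd p := hpp.odd_of_ne_two hodd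
  -- the `PSL(2,p)` finisher
  have fin1 : n' = 1 → t = 2 →
      (∃ (F : Type) (_ : Field F) (_ : Fintype F), Fintype.card F = p ∧ 3 < p ∧
        Nonempty (G ≃* Matrix.ProjectiveSpecialLinearGroup (Fin 2) F)) := by
    intro h1 h2
    subst h1 h2
    have h5 : 5 ≤ p := by omega
    have hc2 : 2 * Nat.card G = p * (p + 1) * (p - 1) := by
      rw [hcard', ← hqt]; ring
    obtain ⟨F, i1, i2, hF, hiso⟩ := Cfsg.Agent.Helper66.br_zassenhaus_gen hOp h5 P hP hC
      (by rw [hn]; ring) hc2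
    exact ⟨F, i1, i2, hF, by omega, hiso⟩
  have hcaseW : (T.ε = 1 ∧ w = 0 ∧ ∀ θ ∈ T.Y, Cfsg.charDegree (θ : G → ℂ) = q) ∨
       (T.ε = -1 ∧ 1 ≤ w ∧ w * t = n' + 1 ∧
        ∀ θ ∈ T.Y, Cfsg.charDegree (θ : G → ℂ) = w * p - q) := by
    rcases hcase with ⟨h1, h2, -, h4⟩ | h
    · exact Or.inl ⟨h1, h2, h4⟩
    · exact Or.inr h
  have evenstage : Even q → T.ε = -1 ∧ w = 1 := fun hqe =>
    brn_stage_even hodd hM P hP hC q n' t a w hq hcard' T hn' hq2 hqt hX1c hqa hX1 hX2 hcaseW hqe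
  rcases hcase with ⟨hε, hw0, ha, hY⟩ | ⟨hε, hw1, hwt, hY⟩
  · -- alpha
    by_cases ht2 : 2 ≤ t
    · obtain ⟨h1, h2⟩ := Helper65.brn_stage_alpha hM P hP hC q n' t a T hn' ht2 hqt ha
        (by rw [hqa, hw0]) hε hX1 hX2 hY
      exact Or.inl (fin1 h1 h2)
    · exfalso
      have ht : t = 1 := by omega
      have hqe : Even q := by
        rw [ht, mul_one] at hqt
        rw [hqt]
        exact Nat.Prime.even_sub_one hpp hodd
      obtain ⟨h1, -⟩ := evenstage hqe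
      rw [hε] at h1
      norm_num at h1
  · -- beta
    rcases Nat.even_or_odd q with hqe | hqo
    · obtain ⟨-, hw⟩ := evenstage hqe
      subst hw
      have ht : t = n' + 1 := by omega
      have ht2 : 2 ≤ t := by omega
      have hqa' : q = 2 + a * t := by rw [hqa, ht]
      have hn't : n' = t - 1 := by omega
      have hcard'' : Nat.card G = p * q * (1 + (t - 1) * p) := by rw [hcard', hn't]
      rcases Cfsg.Agent.Helper8.br_stage_beta hodd hM P hP hC q t a hq hcard'' T ht2 hqt hqa' hε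
        hX1c (fun χ hχ => by rw [hX1 χ hχ, hn't]) hX2
        (fun θ hθ => by rw [hY θ hθ, one_mul]) with h | ⟨hq2', τ, hτ, hCτ, hconj⟩
      · exact Or.inl (fin1 (by omega) h)
      · right
        have hqt' : 2 * t = p - 1 := by rw [← hq2']; exact hqt
        have hp : p = 2 * t + 1 := (Nat.sub_eq_iff_eq_add hpp.one_lt.le).mp hqt'.symm
        have h5 : 5 ≤ p := by rw [hp]; linarith
        have hc3 : Nat.card G = p * (p - 1) * (p - 2) := by
          rw [hcard'', hq2', hp]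
          obtain ⟨s, rfl⟩ : ∃ s, t = s + 2 := ⟨t - 2, by omega⟩
          have e1 : 2 * (s + 2) + 1 - 1 = 2 * (s + 2) := by omega
          have e2 : 2 * (s + 2) + 1 - 2 = 2 * s + 3 := by omega
          have e3 : s + 2 - 1 = s + 1 := by omega
          rw [e1, e2, e3]
          ring
        obtain ⟨m, F, i1, i2, hF, hpm, hiso⟩ :=
          Cfsg.Agent.Helper10.br_sl2_even_gen hOp h5 hc3 τ hτ hCτ hconj
        exact ⟨m, F, i1, i2, hF, hpm, by omega, hiso⟩
    · exfalso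
      obtain ⟨mP, hmP, hm1, hmX1, hmX2, hmY, hmK, hKall⟩ :=
        brn_table hodd hM P hP hC q n' t a w hq hcard' T hn' hq2 hqt hX1c hqa hX1 hX2 hcaseW
      haveI : Fintype (Cfsg.IrrCharacter G) := Fintype.ofFinite _
      obtain ⟨K, hK⟩ : ∃ K : Finset (Cfsg.IrrCharacter G),
          ∀ χ : Cfsg.IrrCharacter G, χ ∈ K ↔ χ ∉ Cfsg.principalBlock M G :=
        ⟨Finset.univ.filter (fun χ => χ ∉ Cfsg.principalBlock M G), fun χ => by simp⟩
      exact brn_stage_odd hodd P hP hC q n' t w hq hcard' T hqt hqo hε hwt hX2 mP hmP hm1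
        hmX1 hmX2 hmY K hK (hKall K hK).2


end Cfsg.Agent.Helper79
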