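-- helper79 library: the special unitary group is not contained in a tensor-wreath subgroup with two
-- factors (piece TW of CALL S5832).
import Cfsg.Agent.Helper97.UNot3
import Cfsg.Agent.Helper96.TensorWreath

set_option autoImplicit false
open Cfsg Cfsg.Geo Matrix
open scoped Kronecker

namespace Cfsg.Agent.Helper79

variable {F : Type*} [Field F] {n : ℕ}

/-- Transport of coordinate vectors of the tensor square to `F^n`. -/
def twPhi {m : ℕ} (e' : Fin n ≃ (Fin 2 → Fin m)) (P : GL (Fin n) F)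
    (w : (Fin 2 → Fin m) → F) : Fin n → F :=
  (P : Matrix (Fin n) (Fin n) F) *ᵥ (w ∘ e')

/-- The pure tensor `a ⊗ b` in coordinates. -/
def twPure {m : ℕ} (a b : Fin m → F) : (Fin 2 → Fin m) → F := fun x => a (x 0) * b (x 1)

theorem twPhi_add {m : ℕ} (e' : Fin n ≃ (Fin 2 → Fin m)) (P : GL (Fin n) F)
    (w w' : (Fin 2 → Fin m) → F) : twPhi e' P (w + w') = twPhi e' P w + twPhi e' P w' := by
  unfold twPhi
  rw [← Matrix.mulVec_add]
  rfl

theorem twPhi_smul {m : ℕ} (e' : Fin n ≃ (Fin 2 → Fin m)) (P : GL (Fin n) F) (c : F)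
    (w : (Fin 2 → Fin m) → F) : twPhi e' P (c • w) = c • twPhi e' P w := by
  unfold twPhi
  rw [← Matrix.mulVec_smul]
  rfl

theorem twPhi_injective {m : ℕ} (e' : Fin n ≃ (Fin 2 → Fin m)) (P : GL (Fin n) F) :
    Function.Injective (twPhi (F := F) e' P) := by
  intro w w' hww
  unfold twPhi at hww
  have h1 : w ∘ e' = w' ∘ e' := by
    have h2 := congrArg (fun v => ((P⁻¹ : GL (Fin n) F) : Matrix (Fin n) (Fin n) F) *ᵥ v) hww
    simp only [Matrix.mulVec_mulVec, Units.inv_mul, Matrix.one_mulVec] at h2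
    exact h2
  funext x
  have h3 := congrFun h1 (e'.symm x)
  simpa using h3

theorem twPhi_single {m : ℕ} (e' : Fin n ≃ (Fin 2 → Fin m)) (P : GL (Fin n) F) (j : Fin n) :
    twPhi e' P (Pi.single (e' j) (1 : F)) = (P : Matrix (Fin n) (Fin n) F) *ᵥ Pi.single j 1 := by
  classical
  unfold twPhi
  congr 1
  funext k
  simp only [Function.comp_apply, Pi.single_apply, e'.injective.eq_iff]

theorem twPhi_mem [Finite F] {m : ℕ} {e' : Fin n ≃ (Fin 2 → Fin m)} {P : GL (Fin n) F}
    {g : GL (Fin n) F} (hg : g ∈ tensorWreathSubgroup m 2 e' P) (w : (Fin 2 → Fin m) → F)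
    (hw : Helper96.IsPureVec w) :
    ∃ w' : (Fin 2 → Fin m) → F, Helper96.IsPureVec w' ∧
      (g : Matrix (Fin n) (Fin n) F) *ᵥ twPhi e' P w = twPhi e' P w' := by
  classical
  obtain ⟨u, hu, hgu⟩ := Helper96.mem_tensorWreath hg
  refine ⟨(u : Matrix (Fin 2 → Fin m) (Fin 2 → Fin m) F) *ᵥ w, Helper96.std_pure u hu w hw, ?_⟩
  unfold twPhi
  rw [hgu, Helper98.conjReindex_apply, Matrix.mulVec_mulVec, Matrix.mul_assoc,
    ← Units.val_mul, inv_mul_cancel, Units.val_one, Matrix.mul_one, ← Matrix.mulVec_mulVec]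
  congr 1
  funext i
  simp only [Matrix.mulVec, dotProduct, Function.comp_apply, Matrix.coe_reindexAlgEquiv,
    Matrix.reindex_apply, Matrix.submatrix_apply, Equiv.symm_symm]
  exact e'.sum_comp (fun y => (u : Matrix (Fin 2 → Fin m) (Fin 2 → Fin m) F) (e' i) y * w y)

theorem isPure_twPure {m : ℕ} (a b : Fin m → F) : Helper96.IsPureVec (twPure a b) :=
  ⟨a, b, fun _ => rfl⟩

theorem twPure_add_left {m : ℕ} (a a' b : Fin m → F) :
    twPure (a + a') b = twPure a b + twPure a' b := by
  funext x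
  simp only [twPure, Pi.add_apply]
  ring

theorem twPure_add_right {m : ℕ} (a b b' : Fin m → F) :
    twPure a (b + b') = twPure a b + twPure a b' := by
  funext x
  simp only [twPure, Pi.add_apply]
  ring

theorem twPure_smul_left {m : ℕ} (c : F) (a b : Fin m → F) :
    twPure (c • a) b = c • twPure a b := by
  funext x
  simp only [twPure, Pi.smul_apply, smul_eq_mul]
  ring

theorem twPure_single {m : ℕ} (x : Fin 2 → Fin m) :
    twPure (Pi.single (x 0) (1 : F)) (Pi.single (x 1) (1 : F)) = Pi.single x 1 := by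
  classical
  funext y
  simp only [twPure, Pi.single_apply]
  by_cases hy : y = x
  · subst hy
    simp
  · rw [if_neg hy]
    by_cases h0 : y 0 = x 0
    · have h1 : ¬ y 1 = x 1 := by
        intro h1
        apply hy
        funext i
        fin_cases i
        · exact h0
        · exact h1
      rw [if_neg h1, mul_zero]
    · rw [if_neg h0, zero_mul]

/-- Any two vectors of a unitary space over a finite field span a space containing a non-trivial
isotropic combination. -/
theorem exists_isotropic_pair [Fintype F] {q : ℕ} {σ : F ≃+* F} (h : Helper97.IsSigma q σ)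
    (hF : Fintype.card F = q ^ 2) (v1 v2 : Fin n → F) :
    ∃ α β : F, (α ≠ 0 ∨ β ≠ 0) ∧
      hermForm n F q (α • v1 + β • v2) (α • v1 + β • v2) = 0 := by
  have hS := h.isSesq (n := n)
  obtain ⟨A, hA⟩ : ∃ A, A = hermForm n F q v1 v1 := ⟨_, rfl⟩
  obtain ⟨B, hB⟩ : ∃ B, B = hermForm n F q v2 v1 := ⟨_, rfl⟩
  obtain ⟨C, hC⟩ : ∃ C, C = hermForm n F q v2 v2 := ⟨_, rfl⟩
  have hB' : hermForm n F q v1 v2 = σ B := by rw [hB]; exact h.herm_symm v1 v2
  have hσA : σ A = A := by rw [hA]; exact h.herm_self_fixed v1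
  have hσC : σ C = C := by rw [hC]; exact h.herm_self_fixed v2
  have hform : ∀ α β : F, hermForm n F q (α • v1 + β • v2) (α • v1 + β • v2) =
      α * σ α * A + α * σ β * σ B + β * σ α * B + β * σ β * C := by
    intro α β
    rw [hS.add_left, hS.add_right, hS.add_right, hS.smul_left, hS.smul_left, hS.smul_right,
      hS.smul_right, hS.smul_left, hS.smul_left, hS.smul_right, hS.smul_right, hB', ← hA, ← hB,
      ← hC]
    ring
  by_cases hA0 : A = 0
  · refine ⟨1, 0, Or.inl one_ne_zero, ?_⟩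
    rw [hform, hA0]
    simp
  obtain ⟨D, hD⟩ : ∃ D, D = C * A - B * σ B := ⟨_, rfl⟩
  have hσD : σ D = D := by
    rw [hD, map_sub, map_mul, map_mul, hσA, hσC, h.inv]
    ring
  by_cases hD0 : D = 0
  · refine ⟨-(B / A), 1, Or.inr one_ne_zero, ?_⟩
    rw [hform, map_neg, map_div₀, hσA, map_one]
    have key : A * (-(B / A) * -(σ B / A) * A + -(B / A) * 1 * σ B + 1 * -(σ B / A) * B + 1 * 1 * C)
        = D := by
      rw [hD]
      field_simp
      ring
    rw [hD0] at key
    rcases mul_eq_zero.mp key with h1 | h1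
    · exact absurd h1 hA0
    · exact h1
  · obtain ⟨l, hl⟩ := h.exists_norm_eq hF (-(A * A) / D)
      (by rw [map_div₀, map_neg, map_mul, hσA, hσD])
      (div_ne_zero (neg_ne_zero.mpr (mul_ne_zero hA0 hA0)) hD0)
    have hl' : l * σ l * D = -(A * A) := by
      rw [hl]
      field_simp
    have hl0 : l ≠ 0 := by
      rintro rfl
      rw [zero_mul, zero_mul] at hl'
      exact mul_ne_zero hA0 hA0 (neg_eq_zero.mp hl'.symm)
    refine ⟨1 - l * (B / A), l, Or.inr hl0, ?_⟩
    rw [hform, map_sub, map_one, map_mul, map_div₀, hσA]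
    have key : A * ((1 - l * (B / A)) * (1 - σ l * (σ B / A)) * A +
        (1 - l * (B / A)) * σ l * σ B + l * (1 - σ l * (σ B / A)) * B + l * σ l * C)
        = A * A + l * σ l * D := by
      rw [hD]
      field_simp
      ring
    rw [hl', add_neg_cancel] at key
    rcases mul_eq_zero.mp key with h1 | h1
    · exact absurd h1 hA0
    · exact h1

/-- The special unitary group is not contained in a tensor-wreath subgroup with two factors. -/
theorem notSU_tensorWreath {F : Type*} [Field F] [Fintype F] {n q : ℕ} {σ : F ≃+* F}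
    (h : Helper97.IsSigma q σ) (hF : Fintype.card F = q ^ 2) {m : ℕ} (hm : 2 ≤ m)
    (e' : Fin n ≃ (Fin 2 → Fin m)) (P : GL (Fin n) F) :
    ¬ GU n F q ⊓ specialLinear (Fin n) F ≤ tensorWreathSubgroup m 2 e' P := by
  classical
  intro hle
  have hS := h.isSesq (n := n)
  obtain ⟨i0, hi0⟩ : ∃ i0 : Fin m, i0 = ⟨0, by omega⟩ := ⟨_, rfl⟩
  obtain ⟨i1, hi1⟩ : ∃ i1 : Fin m, i1 = ⟨1, by omega⟩ := ⟨_, rfl⟩
  have hne : i1 ≠ i0 := by
    rw [hi0, hi1]
    simp [Fin.ext_iff]
  obtain ⟨E0, hE0⟩ : ∃ E0 : Fin m → F, E0 = Pi.single i0 1 := ⟨_, rfl⟩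
  obtain ⟨E1, hE1⟩ : ∃ E1 : Fin m → F, E1 = Pi.single i1 1 := ⟨_, rfl⟩
  have hE00 : E0 i0 = 1 := by rw [hE0, Pi.single_eq_same]
  have hE01 : E0 i1 = 0 := by rw [hE0, Pi.single_eq_of_ne hne]
  have hE10 : E1 i0 = 0 := by rw [hE1, Pi.single_eq_of_ne hne.symm]
  have hE11 : E1 i1 = 1 := by rw [hE1, Pi.single_eq_same]
  obtain ⟨α, β, hαβ, hiso⟩ := exists_isotropic_pair h hF (twPhi e' P (twPure E0 E0))
    (twPhi e' P (twPure E1 E0))
  obtain ⟨a0, ha0⟩ : ∃ a0 : Fin m → F, a0 = α • E0 + β • E1 := ⟨_, rfl⟩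
  have ha00 : a0 i0 = α := by
    rw [ha0]
    simp [hE00, hE10]
  have ha01 : a0 i1 = β := by
    rw [ha0]
    simp [hE01, hE11]
  obtain ⟨u0, hu0⟩ : ∃ u0 : Fin n → F, u0 = twPhi e' P (twPure a0 E0) := ⟨_, rfl⟩
  have hu0' : u0 = α • twPhi e' P (twPure E0 E0) + β • twPhi e' P (twPure E1 E0) := by
    rw [hu0, ha0, twPure_add_left, twPure_smul_left, twPure_smul_left, twPhi_add, twPhi_smul,
      twPhi_smul]
  rw [← hu0'] at hiso
  have hu0ne : u0 ≠ 0 := by
    intro h0
    have h1 : twPhi e' P (twPure a0 E0) = twPhi e' P 0 := by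
      rw [← hu0, h0]
      unfold twPhi
      have : (0 : (Fin 2 → Fin m) → F) ∘ e' = 0 := rfl
      rw [this, Matrix.mulVec_zero]
    have h2 := twPhi_injective e' P h1
    have h3 := congrFun h2 ![i0, i0]
    have h4 := congrFun h2 ![i1, i0]
    simp only [twPure, Matrix.cons_val_zero, Matrix.cons_val_one, Pi.zero_apply, ha00, ha01,
      hE00, mul_one] at h3 h4
    rcases hαβ with h5 | h5
    · exact h5 h3
    · exact h5 h4
  obtain ⟨c, hc0, hc⟩ := h.exists_trace_zero
  obtain ⟨t, htG, ht, -⟩ := h.exists_utv u0 hiso c hc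
  -- the bilinear form
  obtain ⟨B, hB⟩ : ∃ B : (Fin m → F) → (Fin m → F) → F,
      B = fun x y => hermForm n F q (twPhi e' P (twPure x y)) u0 := ⟨_, rfl⟩
  have hBl : ∀ x x' y, B (x + x') y = B x y + B x' y := by
    intro x x' y
    rw [hB]
    simp only
    rw [twPure_add_left, twPhi_add, hS.add_left]
  have hBr : ∀ x y y', B x (y + y') = B x y + B x y' := by
    intro x y y'
    rw [hB]
    simp only
    rw [twPure_add_right, twPhi_add, hS.add_left]
  have key : ∀ x y : Fin m → F, x i0 * β - x i1 * α ≠ 0 → y i1 ≠ 0 → B x y = 0 := by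
    intro x y hx hy
    obtain ⟨w', hw', heq⟩ := twPhi_mem (hle htG) (twPure x y) (isPure_twPure x y)
    rw [ht] at heq
    have hBxy : hermForm n F q (twPhi e' P (twPure x y)) u0 = B x y := by rw [hB]
    rw [hBxy] at heq
    have h1 : twPhi e' P (twPure x y + (c * B x y) • twPure a0 E0) = twPhi e' P w' := by
      rw [twPhi_add, twPhi_smul, ← hu0, heq]
    have h2 := twPhi_injective e' P h1
    obtain ⟨a, b, hab⟩ := hw'
    have e00 := hab ![i0, i0]
    have e01 := hab ![i0, i1]
    have e10 := hab ![i1, i0]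
    have e11 := hab ![i1, i1]
    rw [← h2] at e00 e01 e10 e11
    simp only [twPure, Matrix.cons_val_zero, Matrix.cons_val_one, Pi.add_apply, Pi.smul_apply,
      smul_eq_mul, ha00, ha01, hE00, hE01, mul_one, mul_zero, add_zero] at e00 e01 e10 e11
    have h3 : c * B x y * (y i1 * (x i0 * β - x i1 * α)) = 0 := by
      linear_combination (x i1 * y i0 + c * B x y * β) * e01 + (a i0 * b i1) * e10
        - (x i1 * y i1) * e00 - (a i0 * b i0) * e11
    rcases mul_eq_zero.mp h3 with h4 | h4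
    · rcases mul_eq_zero.mp h4 with h5 | h5
      · exact absurd h5 hc0
      · exact h5
    · exact absurd h4 (mul_ne_zero hy hx)
  have key2 : ∀ x : Fin m → F, x i0 * β - x i1 * α ≠ 0 → ∀ y, B x y = 0 := by
    intro x hx y
    by_cases hy : y i1 = 0
    · have h1 : B x (y + E1) = 0 := key x (y + E1) hx (by rw [Pi.add_apply, hy, hE11, zero_add]; exact one_ne_zero)
      have h2 : B x E1 = 0 := key x E1 hx (by rw [hE11]; exact one_ne_zero)
      rw [hBr, h2, add_zero] at h1
      exact h1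
    · exact key x y hx hy
  obtain ⟨xs, hxs⟩ : ∃ xs : Fin m → F, xs i0 * β - xs i1 * α ≠ 0 := by
    by_cases hβ : β = 0
    · have hα : α ≠ 0 := by
        rcases hαβ with h5 | h5
        · exact h5
        · exact absurd hβ h5
      refine ⟨E1, ?_⟩
      rw [hE10, hE11, zero_mul, one_mul, zero_sub]
      exact neg_ne_zero.mpr hα
    · refine ⟨E0, ?_⟩
      rw [hE00, hE01, zero_mul, one_mul, sub_zero]
      exact hβ
  have key3 : ∀ x y : Fin m → F, B x y = 0 := by
    intro x y
    by_cases hx : x i0 * β - x i1 * α = 0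
    · have h1 : B (x + xs) y = 0 := by
        apply key2
        rw [Pi.add_apply, Pi.add_apply]
        intro h0
        apply hxs
        linear_combination h0 - hx
      have h2 : B xs y = 0 := key2 xs hxs y
      rw [hBl, h2, add_zero] at h1
      exact h1
    · exact key2 x hx y
  obtain ⟨j, hj⟩ := h.exists_herm_ne P hu0ne
  apply hj
  rw [← twPhi_single e' P j, ← twPure_single (e' j)]
  have := key3 (Pi.single (e' j 0) 1) (Pi.single (e' j 1) 1)
  rw [hB] at this
  exact this

end Cfsg.Agent.Helper79
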