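import Mathlib

/-!
# The Brauer–Wielandt inequality (piece A of CALL S4719)

For a subgroup `Y` of odd order normalised by two commuting involutions `t₁`, `t₂`:
`|Y| ≤ |C_Y(t₁)| |C_Y(t₂)| |C_Y(t₁t₂)|`.
-/

namespace Cfsg.Agent.Helper79

/-- Core decomposition: every element of `Y` is `c * a * j * a` with `c` fixed by `s`,
`j` fixed by `u` and `a` fixed by `s ∘ u`. -/
theorem bw_core {G : Type*} [Group G] (Y : Subgroup G) (k : ℕ)
    (hpow : ∀ z ∈ Y, z ^ (2 * k + 1) = 1)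
    (s u : G →* G) (hss : ∀ y, s (s y) = y) (huu : ∀ y, u (u y) = y)
    (hsu : ∀ y, s (u y) = u (s y))
    (hsY : ∀ y ∈ Y, s y ∈ Y) (huY : ∀ y ∈ Y, u y ∈ Y) (y : G) (hy : y ∈ Y) :
    ∃ c ∈ Y, s c = c ∧ ∃ j ∈ Y, u j = j ∧ ∃ a ∈ Y, s (u a) = a ∧ y = c * a * j * a := by
  set r : G → G := fun z => z ^ (k + 1) with hr
  have hr2 : ∀ z ∈ Y, r z * r z = z := by
    intro z hz
    simp only [hr]
    rw [← pow_add]
    have : k + 1 + (k + 1) = (2 * k + 1) + 1 := by ring
    rw [this, pow_succ, hpow z hz, one_mul]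
  have hrmem : ∀ z ∈ Y, r z ∈ Y := fun z hz => pow_mem hz _
  have hrinv : ∀ z, r z⁻¹ = (r z)⁻¹ := fun z => inv_pow z _
  have hrs : ∀ z, s (r z) = r (s z) := fun z => map_pow s z _
  have hru : ∀ z, u (r z) = r (u z) := fun z => map_pow u z _
  have hrconj : ∀ g z, r (g * z * g⁻¹) = g * r z * g⁻¹ := fun g z => conj_pow
  -- Step A
  set e : G := y⁻¹ * s y with he_def
  have he : e ∈ Y := mul_mem (inv_mem hy) (hsY y hy)
  have hse : s e = e⁻¹ := by
    simp only [he_def, map_mul, map_inv, hss, mul_inv_rev, inv_inv]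
  set x : G := (r e)⁻¹ with hx_def
  have hx : x ∈ Y := inv_mem (hrmem e he)
  have hsx : s x = x⁻¹ := by
    simp only [hx_def, map_inv, hrs, hse, hrinv, inv_inv]
  have hxx : x⁻¹ * x⁻¹ = e := by
    simp only [hx_def, inv_inv]; exact hr2 e he
  set c : G := y * x⁻¹ with hc_def
  have hc : c ∈ Y := mul_mem hy (inv_mem hx)
  have hsy : s y = y * e := by simp only [he_def]; group
  have hsc : s c = c := by
    simp only [hc_def, map_mul, map_inv, hsx, inv_inv, hsy, ← hxx]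
    group
  have hyc : y = c * x := by simp only [hc_def]; group
  -- Step B
  set v : G := u x with hv_def
  have hv : v ∈ Y := huY x hx
  have hsv : s v = v⁻¹ := by
    simp only [hv_def, hsu, hsx, map_inv]
  have huv : u v = x := huu x
  set w : G := r (v * x) with hw_def
  have hw : w ∈ Y := hrmem _ (mul_mem hv hx)
  have hww : w * w = v * x := hr2 _ (mul_mem hv hx)
  have hxv : r (x * v) = x * w * x⁻¹ := by
    have h1 : x * v = x * (v * x) * x⁻¹ := by group
    rw [h1, hrconj]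
  have hsw : s w = x * w⁻¹ * x⁻¹ := by
    have h1 : s w = r (s v * s x) := by rw [hw_def, hrs, map_mul]
    rw [h1, hsv, hsx, ← mul_inv_rev, hrinv, hxv]
    group
  have huw : u w = x * w * x⁻¹ := by
    have h1 : u w = r (u v * u x) := by rw [hw_def, hru, map_mul]
    rw [h1, huv, ← hv_def, hxv]
  set b : G := w * x⁻¹ with hb_def
  have hb : b ∈ Y := mul_mem hw (inv_mem hx)
  have hsb : s b = b⁻¹ := by
    simp only [hb_def, map_mul, map_inv, hsw, hsx]
    group
  have hxv' : x⁻¹ * v⁻¹ = w⁻¹ * w⁻¹ := by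
    rw [← mul_inv_rev, ← mul_inv_rev, hww]
  have hub : u b = b⁻¹ := by
    have h1 : u b = x * w * (x⁻¹ * v⁻¹) := by
      simp only [hb_def, map_mul, map_inv, huw, ← hv_def]
      group
    rw [h1, hxv', hb_def]
    group
  set a : G := r (b⁻¹) with ha_def
  have ha : a ∈ Y := hrmem _ (inv_mem hb)
  have haa : a * a = b⁻¹ := hr2 _ (inv_mem hb)
  have hsa : s a = a⁻¹ := by
    simp only [ha_def, hrs, map_inv, hsb, hrinv, inv_inv]
  have hua : u a = a⁻¹ := by
    simp only [ha_def, hru, map_inv, hub, hrinv, inv_inv]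
  have hsua : s (u a) = a := by
    rw [hua, map_inv, hsa, inv_inv]
  set j : G := a⁻¹ * x * a⁻¹ with hj_def
  have hj : j ∈ Y := mul_mem (mul_mem (inv_mem ha) hx) (inv_mem ha)
  have hbv : v = b * x * b := by
    have h1 : b * x = w := by simp only [hb_def]; group
    have h2 : b * x * (b * x) = v * x := by rw [h1]; exact hww
    have h3 : v = b * x * (b * x) * x⁻¹ := by rw [h2]; group
    rw [h3]; group
  have hbeq : b = a⁻¹ * a⁻¹ := by
    have : b = (a * a)⁻¹ := by rw [haa, inv_inv]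
    rw [this, mul_inv_rev]
  have huj : u j = j := by
    have h1 : u j = a * v * a := by
      simp only [hj_def, map_mul, map_inv, hua, inv_inv, ← hv_def]
    rw [h1, hbv, hbeq, hj_def]
    group
  refine ⟨c, hc, hsc, j, hj, huj, a, ha, hsua, ?_⟩
  rw [hyc, hj_def]
  group

/-- **Brauer–Wielandt inequality** (piece A of CALL S4719). -/
theorem bw_card_le {G : Type*} [Group G] [Finite G] (Y : Subgroup G) (hY : Odd (Nat.card Y)) (t₁ t₂ : G) (h1 : t₁ * t₁ = 1) (h2 : t₂ * t₂ = 1) (hc : t₁ * t₂ = t₂ * t₁) (hn1 : ∀ y ∈ Y, t₁ * y * t₁⁻¹ ∈ Y) (hn2 : ∀ y ∈ Y, t₂ * y * t₂⁻¹ ∈ Y) : Nat.card Y ≤ Nat.card ↥(Y ⊓ Subgroup.centralizer ({t₁} : Set G)) * Nat.card ↥(Y ⊓ Subgroup.centralizer ({t₂} : Set G)) * Nat.card ↥(Y ⊓ Subgroup.centralizer ({t₁ * t₂} : Set G)) := by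
  obtain ⟨k, hk⟩ := hY
  have hpow : ∀ z ∈ Y, z ^ (2 * k + 1) = 1 := by
    intro z hz
    have := pow_card_eq_one' (G := Y) (x := ⟨z, hz⟩)
    rw [hk] at this
    exact congrArg Subtype.val this
  have key := bw_core Y k hpow (MulAut.conj t₁).toMonoidHom (MulAut.conj t₂).toMonoidHom
    (by
      intro y
      simp only [MulEquiv.toMonoidHom_eq_coe, MonoidHom.coe_coe, MulAut.conj_apply]
      have : t₁⁻¹ = t₁ := inv_eq_of_mul_eq_one_left h1
      rw [this]
      calc t₁ * (t₁ * y * t₁) * t₁ = (t₁ * t₁) * y * (t₁ * t₁) := by group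
        _ = y := by rw [h1]; group)
    (by
      intro y
      simp only [MulEquiv.toMonoidHom_eq_coe, MonoidHom.coe_coe, MulAut.conj_apply]
      have : t₂⁻¹ = t₂ := inv_eq_of_mul_eq_one_left h2
      rw [this]
      calc t₂ * (t₂ * y * t₂) * t₂ = (t₂ * t₂) * y * (t₂ * t₂) := by group
        _ = y := by rw [h2]; group)
    (by
      intro y
      simp only [MulEquiv.toMonoidHom_eq_coe, MonoidHom.coe_coe, MulAut.conj_apply]
      calc t₁ * (t₂ * y * t₂⁻¹) * t₁⁻¹ = (t₁ * t₂) * y * (t₁ * t₂)⁻¹ := by group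
        _ = (t₂ * t₁) * y * (t₂ * t₁)⁻¹ := by rw [hc]
        _ = t₂ * (t₁ * y * t₁⁻¹) * t₂⁻¹ := by group)
    (by
      intro y hy
      simpa only [MulEquiv.toMonoidHom_eq_coe, MonoidHom.coe_coe, MulAut.conj_apply] using hn1 y hy)
    (by
      intro y hy
      simpa only [MulEquiv.toMonoidHom_eq_coe, MonoidHom.coe_coe, MulAut.conj_apply] using hn2 y hy)
  let f : (↥(Y ⊓ Subgroup.centralizer ({t₁} : Set G)) × ↥(Y ⊓ Subgroup.centralizer ({t₂} : Set G))) ×
      ↥(Y ⊓ Subgroup.centralizer ({t₁ * t₂} : Set G)) → ↥Y :=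
    fun p => ⟨(p.1.1 : G) * (p.2 : G) * (p.1.2 : G) * (p.2 : G),
      mul_mem (mul_mem (mul_mem (Subgroup.mem_inf.mp p.1.1.2).1 (Subgroup.mem_inf.mp p.2.2).1)
        (Subgroup.mem_inf.mp p.1.2.2).1) (Subgroup.mem_inf.mp p.2.2).1⟩
  have hf : Function.Surjective f := by
    rintro ⟨y, hy⟩
    obtain ⟨c, hcY, hsc, j, hjY, huj, a, haY, hsua, hyeq⟩ := key y hy
    simp only [MulEquiv.toMonoidHom_eq_coe, MonoidHom.coe_coe, MulAut.conj_apply] at hsc huj hsua
    have hc1 : c ∈ Y ⊓ Subgroup.centralizer ({t₁} : Set G) := by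
      refine Subgroup.mem_inf.mpr ⟨hcY, ?_⟩
      rw [Subgroup.mem_centralizer_iff]
      intro h hh
      rw [Set.mem_singleton_iff] at hh
      subst hh
      exact mul_inv_eq_iff_eq_mul.mp hsc
    have hj1 : j ∈ Y ⊓ Subgroup.centralizer ({t₂} : Set G) := by
      refine Subgroup.mem_inf.mpr ⟨hjY, ?_⟩
      rw [Subgroup.mem_centralizer_iff]
      intro h hh
      rw [Set.mem_singleton_iff] at hh
      subst hh
      exact mul_inv_eq_iff_eq_mul.mp huj
    have ha1 : a ∈ Y ⊓ Subgroup.centralizer ({t₁ * t₂} : Set G) := by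
      refine Subgroup.mem_inf.mpr ⟨haY, ?_⟩
      rw [Subgroup.mem_centralizer_iff]
      intro h hh
      rw [Set.mem_singleton_iff] at hh
      subst hh
      have : t₁ * t₂ * a * (t₁ * t₂)⁻¹ = a := by
        calc t₁ * t₂ * a * (t₁ * t₂)⁻¹ = t₁ * (t₂ * a * t₂⁻¹) * t₁⁻¹ := by group
          _ = a := hsua
      exact mul_inv_eq_iff_eq_mul.mp this
    refine ⟨((⟨c, hc1⟩, ⟨j, hj1⟩), ⟨a, ha1⟩), ?_⟩
    apply Subtype.ext
    simp only [f]
    exact hyeq.symm
  have hcard := Nat.card_le_card_of_surjective f hf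
  rw [Nat.card_prod, Nat.card_prod] at hcard
  exact hcard

end Cfsg.Agent.Helper79
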