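import Mathlib
import Cfsg.Agent.Helper9.BRDefs
import Cfsg.Agent.Helper67.BRA2
import Cfsg.Agent.Helper67.BRK4
import Cfsg.Agent.Helper67.BRK5
import Cfsg.Agent.Helper67.BRT2g
import Cfsg.Agent.Helper75.BRT1
import Cfsg.Agent.Helper61.BRXNF1
import Cfsg.Agent.Helper61.BRXNum

set_option autoImplicit false

/-!
Piece S1h of CALL S0996 (helper79): degrees of the characters of the principal block and the
alpha/beta dichotomy when the Sylow number `1 + n p` is not exceptional.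
-/

open Cfsg
open scoped ComplexConjugate

universe u

namespace Cfsg.Agent.Helper79


theorem brn_stage1 {G : Type u} [Group G] [Fintype G] (hperf : commutator G = ⊤)
    {p : ℕ} [Fact p.Prime]
    (hOp : ∀ K : Subgroup G, K.Normal → (Nat.card K).Coprime p → K = ⊥)
    (hodd : p ≠ 2) {M : Ideal Cfsg.AlgInt} (hM : Cfsg.IsPModular p M)
    (P : Sylow p G) (hP : Nat.card (P : Subgroup G) = p) (q n v : ℕ)
    (hq : (Subgroup.centralizer ((P : Subgroup G) : Set G)).relIndex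
        (Subgroup.normalizer ((P : Subgroup G) : Set G)) = q)
    (hq2 : 2 ≤ q) (hqd : q ∣ p - 1) (hn : 1 ≤ n) (hv : 1 ≤ v)
    (hCv : Nat.card (Subgroup.centralizer ((P : Subgroup G) : Set G)) = p * v)
    (hcard : Nat.card G = p * q * v * (1 + n * p))
    (hnF : ∀ h u : ℕ, 0 < h → 0 < u → n * (u + 1) ≠ h * u * p + u ^ 2 + u + h)
    (T : Cfsg.Agent.Helper9.BRTab p M P q) :
    Nat.card (Subgroup.centralizer ((P : Subgroup G) : Set G)) = p ∧
    ∃ t a w : ℕ, q * t = p - 1 ∧ T.X1.card = a ∧ q = 1 + w + a * (n + 1) ∧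
      (∀ χ ∈ T.X1, Cfsg.charDegree (χ : G → ℂ) = 1 + n * p) ∧
      (∀ χ ∈ T.X2, Cfsg.charDegree (χ : G → ℂ) = p - 1) ∧
      ((T.ε = 1 ∧ w = 0 ∧ 1 ≤ a ∧ ∀ θ ∈ T.Y, Cfsg.charDegree (θ : G → ℂ) = q) ∨
       (T.ε = -1 ∧ 1 ≤ w ∧ w * t = n + 1 ∧
        ∀ θ ∈ T.Y, Cfsg.charDegree (θ : G → ℂ) = w * p - q)) := by
  classical
  have hpP : p.Prime := Fact.out
  have hp2 : 2 ≤ p := hpP.two_le
  have hp3 : 3 ≤ p := by
    rcases Nat.lt_or_ge p 3 with h | h
    · exfalso; apply hodd; omega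
    · exact h
  obtain ⟨t, ht⟩ := hqd
  have hqt : q * t = p - 1 := ht.symm
  -- a nontrivial element of P
  obtain ⟨y, hy, hy1⟩ : ∃ y : G, y ∈ (P : Subgroup G) ∧ y ≠ 1 := by
    by_contra hcon
    push Not at hcon
    have hbot : (P : Subgroup G) = ⊥ := by
      rw [eq_bot_iff]
      intro x hx
      rw [Subgroup.mem_bot]
      exact hcon x hx
    rw [hbot, Subgroup.card_bot] at hP
    omega
  have hy1ord : ¬ p ∣ orderOf (1 : G) := by
    rw [orderOf_one]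
    intro h
    have := Nat.le_of_dvd one_pos h
    omega
  have h1C : (1 : G) ∈ Subgroup.centralizer ((P : Subgroup G) : Set G) := Subgroup.one_mem _
  -- the index of the centralizer of y
  have hidx : (Subgroup.centralizer ({y} : Set G)).index = q * (1 + n * p) := by
    rw [Helper67.br_centralizer_singleton P hP y hy hy1]
    have h1 := Subgroup.index_mul_card (Subgroup.centralizer ((P : Subgroup G) : Set G))
    rw [hCv, hcard] at h1
    have h2 : 0 < p * v := by positivity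
    have h3 : (Subgroup.centralizer ((P : Subgroup G) : Set G)).index * (p * v)
        = q * (1 + n * p) * (p * v) := by rw [h1]; ring
    exact Nat.eq_of_mul_eq_mul_right h2 h3
  have hqN : q * (1 + n * p) ∣ (1 + n * p) * (p - 1) := by
    rw [← hqt]
    exact ⟨t, by ring⟩
  -- X1
  have hX1val : ∀ χ ∈ T.X1, (χ : G → ℂ) y = 1 := by
    intro χ hχ
    have h1 := (T.hX1 χ hχ).2 y hy hy1 1 h1C hy1ord
    rwa [mul_one] at h1
  have hX2val : ∀ χ ∈ T.X2, (χ : G → ℂ) y = -1 := by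
    intro χ hχ
    have h1 := (T.hX2 χ hχ).2 y hy hy1 1 h1C hy1ord
    rwa [mul_one] at h1
  have hX1deg : ∀ χ ∈ T.X1, Cfsg.charDegree (χ : G → ℂ) = 1 + n * p := by
    intro χ hχ
    have hne : χ ≠ Helper81.trivIrr G := by
      intro h
      rw [h] at hχ
      exact T.h1X1 hχ
    have h2 := Helper67.br_perfect_deg hperf χ hne
    have h3 := Helper67.br_deg_dvd χ y 1 (by rw [hX1val χ hχ]; simp)
    rw [hidx, mul_one] at h3
    have h4 : Cfsg.charDegree (χ : G → ℂ) ∣ q * (1 + n * p) := by exact_mod_cast h3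
    rcases Helper61.brn_nonF p n _ hp2 hnF (T.hX1 χ hχ).1 (h4.trans hqN) with h | h
    · omega
    · exact h
  have hX2dvd : ∀ χ ∈ T.X2, Cfsg.charDegree (χ : G → ℂ) ∣ q * (1 + n * p) := by
    intro χ hχ
    have h3 := Helper67.br_deg_dvd χ y (-1) (by rw [hX2val χ hχ]; simp)
    rw [hidx, mul_neg, mul_one, dvd_neg] at h3
    exact_mod_cast h3
  have hX2alt : ∀ χ ∈ T.X2, Cfsg.charDegree (χ : G → ℂ) = p - 1 ∨
      (t = 1 ∧ Cfsg.charDegree (χ : G → ℂ) = (p - 1) * (1 + n * p)) := fun χ hχ =>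
    Helper61.brn_num_X2 p q n t _ hp2 hq2 hqt hn hnF (T.hX2 χ hχ).1 (hX2dvd χ hχ)
  -- Y
  have hYne : T.Y.Nonempty := by
    rw [← Finset.card_pos, T.hcardY]
    have h1 : 0 < p - 1 := by omega
    exact Nat.div_pos (Nat.le_of_dvd h1 ⟨t, ht⟩) (by omega)
  obtain ⟨θ₀, hθ₀⟩ := hYne
  obtain ⟨x₀, hx₀⟩ : ∃ x₀ : ℕ, x₀ = Cfsg.charDegree (θ₀ : G → ℂ) := ⟨_, rfl⟩
  have hYdeg : ∀ θ ∈ T.Y, Cfsg.charDegree (θ : G → ℂ) = x₀ := by
    intro θ hθ
    have h1 := T.hYreg θ hθ θ₀ hθ₀ 1 hy1ord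
    rw [hx₀]
    unfold Cfsg.charDegree
    rw [h1]
  have hθ₀ne : θ₀ ≠ Helper81.trivIrr G := by
    intro h
    rw [h] at hθ₀
    exact T.h1Y hθ₀
  have hx2 : 2 ≤ x₀ := by
    rw [hx₀]; exact Helper67.br_perfect_deg hperf θ₀ hθ₀ne
  have hxdvd : x₀ ∣ q * (1 + n * p) := by
    have h1 := Helper75.br_theta_sum hM T ⟨θ₀, hθ₀⟩ y hy hy1
    have h2 := Helper67.br_deg_dvd_sum T.Y x₀ hYdeg y (-T.ε) (by rw [h1]; push_cast; rfl)
    rw [hidx, mul_neg, dvd_neg] at h2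
    rcases T.hε with he | he
    · rw [he, mul_one] at h2
      exact_mod_cast h2
    · rw [he, mul_neg, mul_one, dvd_neg] at h2
      exact_mod_cast h2
  have hxmod : (x₀ : ℤ) ≡ T.ε * (q : ℤ) [ZMOD p] := by
    rw [hx₀]; exact T.hYdeg θ₀ hθ₀
  have hrel0 : T.ε * (x₀ : ℤ)
      = 1 + (T.X1.card : ℤ) * (1 + n * p)
        - ∑ χ ∈ T.X2, (Cfsg.charDegree (χ : G → ℂ) : ℤ) := by
    have h1 := T.hrel θ₀ hθ₀ 1 hy1ord
    have h2 : ∑ χ ∈ T.X1, (χ : G → ℂ) 1 = (T.X1.card : ℂ) * (1 + n * p) := by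
      rw [Finset.sum_congr rfl (fun χ hχ => by
        rw [Helper81.irr_one_eq_charDegree χ, hX1deg χ hχ]), Finset.sum_const, nsmul_eq_mul]
      push_cast
      rfl
    have h3 : ∑ χ ∈ T.X2, (χ : G → ℂ) 1
        = ((∑ χ ∈ T.X2, (Cfsg.charDegree (χ : G → ℂ) : ℤ) : ℤ) : ℂ) := by
      push_cast
      exact Finset.sum_congr rfl (fun χ _ => Helper81.irr_one_eq_charDegree χ)
    rw [h2, h3, Helper81.irr_one_eq_charDegree θ₀, ← hx₀] at h1
    exact_mod_cast h1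
  -- some character of X2 has degree p - 1
  have hX2ex : ∃ φ ∈ T.X2, Cfsg.charDegree (φ : G → ℂ) = p - 1 := by
    by_contra hno
    push Not at hno
    have hall : ∀ χ ∈ T.X2, (Cfsg.charDegree (χ : G → ℂ) : ℤ)
        = ((p : ℤ) - 1) * (1 + n * p) := by
      intro χ hχ
      rcases hX2alt χ hχ with h | ⟨-, h⟩
      · exact absurd h (hno χ hχ)
      · rw [h]
        push_cast [Nat.cast_sub (by omega : 1 ≤ p)]
        ring
    rw [Finset.sum_congr rfl hall, Finset.sum_const, nsmul_eq_mul] at hrel0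
    exact Helper61.brn_num_noX2 p q n t x₀ T.ε ((T.X1.card : ℤ) - (T.X2.card : ℤ) * ((p : ℤ) - 1))
      hp3 hq2 hqt hn hnF T.hε (by omega) hxmod hxdvd (by rw [hrel0]; ring)
  obtain ⟨φ, hφ, hφdeg⟩ := hX2ex
  have hCp : Nat.card (Subgroup.centralizer ((P : Subgroup G) : Set G)) = p :=
    Helper67.br_centralizer_card_gen hOp P hP φ hφdeg (T.hX2 φ hφ).2
  have hv1 : v = 1 := by
    rw [hCv] at hCp
    have h1 : p * v = p * 1 := by rw [hCp, mul_one]
    exact Nat.eq_of_mul_eq_mul_left (by omega) h1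
  subst hv1
  refine ⟨hCp, ?_⟩
  have hX2deg : ∀ χ ∈ T.X2, Cfsg.charDegree (χ : G → ℂ) = p - 1 := by
    intro χ hχ
    rcases hX2alt χ hχ with h | ⟨ht1, h⟩
    · exact h
    · exfalso
      have hne : χ ≠ Helper81.trivIrr G := by
        intro h'
        rw [h'] at hχ
        exact T.h1X2 hχ
      have h2 := Helper67.br_deg_sq_lt χ hne
      rw [hcard, h] at h2
      have hq1 : q = p - 1 := by rw [← hqt, ht1, mul_one]
      rw [hq1] at h2
      obtain ⟨p', rfl⟩ : ∃ p', p = p' + 2 := ⟨p - 2, by omega⟩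
      have e1 : p' + 2 - 1 = p' + 1 := by omega
      rw [e1] at h2
      have h3 : 1 ≤ n * (p' + 2) := Nat.mul_pos (by omega) (by omega)
      obtain ⟨X, hX⟩ : ∃ X : ℕ, X = 1 + n * (p' + 2) := ⟨_, rfl⟩
      rw [← hX] at h2
      have hX2 : 2 ≤ X := by omega
      have h4 : p' + 2 ≤ (p' + 1) * X := by nlinarith
      have h5 : (p' + 2) * (p' + 1) * 1 * X ≤ ((p' + 1) * X) ^ 2 := by
        calc (p' + 2) * (p' + 1) * 1 * X = (p' + 2) * ((p' + 1) * X) := by ring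
          _ ≤ ((p' + 1) * X) * ((p' + 1) * X) := Nat.mul_le_mul_right _ h4
          _ = ((p' + 1) * X) ^ 2 := by ring
      omega
  have hb : 1 ≤ T.X2.card := Finset.card_pos.mpr ⟨φ, hφ⟩
  have hrel : T.ε * (x₀ : ℤ)
      = 1 + (T.X1.card : ℤ) * (1 + n * p) - (T.X2.card : ℤ) * ((p : ℤ) - 1) := by
    rw [hrel0]
    have h3 : ∑ χ ∈ T.X2, (Cfsg.charDegree (χ : G → ℂ) : ℤ)
        = (T.X2.card : ℤ) * ((p : ℤ) - 1) := by
      rw [Finset.sum_congr rfl (fun χ hχ => by rw [hX2deg χ hχ]), Finset.sum_const,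
        nsmul_eq_mul, Nat.cast_sub (by omega : 1 ≤ p)]
      push_cast
      rfl
    rw [h3]
  have hsq : x₀ ^ 2 < p * q * (1 + n * p) := by
    have h2 := Helper67.br_deg_sq_lt θ₀ hθ₀ne
    rw [hcard, ← hx₀] at h2
    simpa using h2
  rcases Helper61.brn_num_Y p q n t T.X1.card T.X2.card x₀ T.ε hp3 hq2 hqt hn hnF T.hcard hb hx2 T.hε
    hxmod hxdvd hsq hrel with ⟨he, hxq, hqa, ha⟩ | ⟨he, w, hw1, hwt, hqa, hxw⟩
  · exact ⟨t, T.X1.card, 0, hqt, rfl, by omega, hX1deg, hX2deg,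
      Or.inl ⟨he, rfl, ha, fun θ hθ => by rw [hYdeg θ hθ, hxq]⟩⟩
  · exact ⟨t, T.X1.card, w, hqt, rfl, hqa, hX1deg, hX2deg,
      Or.inr ⟨he, hw1, hwt, fun θ hθ => by rw [hYdeg θ hθ, hxw]⟩⟩

end Cfsg.Agent.Helper79
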