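import Cfsg.Agent.Helper76.Fong
import Cfsg.Agent.Helper76.CentralChar

/-!
# Blocks over a central `p'`-subgroup (helper79)

* `root_eq_of_memLocalIdeal_sub`: two `n`-th roots of unity (`p ∤ n`) congruent modulo the local
  ideal are equal.
* `fong_sameBlock_of_central`: if `Q` is a normal `p`-subgroup, `Z` a central `p'`-subgroup and
  `C(Q) ≤ Q Z`, then two irreducible characters with the same central character on `Z` lie in
  the same `p`-block.
-/

set_option autoImplicit false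
set_option linter.style.haveILetI false

namespace Cfsg.Agent.Helper79

universe u

open scoped ComplexConjugate

/-- Roots of unity of order prime to `p` which are congruent modulo the local ideal are equal. -/
theorem root_eq_of_memLocalIdeal_sub {p : ℕ} {M : Ideal Cfsg.AlgInt} (hM : Cfsg.IsPModular p M)
    {n : ℕ} (hn : ¬ p ∣ n) {a b : ℂ} (ha : a ^ n = 1) (hb : b ^ n = 1)
    (h : Cfsg.MemLocalIdeal M (a - b)) : a = b := by
  have hMm := hM.2.1
  have hn0 : n ≠ 0 := by
    rintro rfl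
    exact hn (dvd_zero p)
  have ha0 : a ≠ 0 := by
    rintro rfl
    rw [zero_pow hn0] at ha
    exact zero_ne_one ha
  by_contra hab
  -- `η = b / a` is a nontrivial `n`-th root of unity
  set η : ℂ := b * a ^ (n - 1) with hη
  have hainv : a * a ^ (n - 1) = 1 := by
    rw [← pow_succ', Nat.sub_add_cancel (Nat.pos_of_ne_zero hn0), ha]
  have hηn : η ^ n = 1 := by
    rw [hη, mul_pow, hb, one_mul, ← pow_mul, mul_comm, pow_mul, ha, one_pow]
  have hη1 : η ≠ 1 := by
    intro h1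
    apply hab
    have : b * (a * a ^ (n - 1)) = a * (b * a ^ (n - 1)) := by ring
    rw [hainv, mul_one, ← hη, h1, mul_one] at this
    exact this.symm
  have hinta : IsIntegral ℤ a := by
    apply IsIntegral.of_pow (Nat.pos_of_ne_zero hn0)
    rw [ha]; exact isIntegral_one
  have hintb : IsIntegral ℤ b := by
    apply IsIntegral.of_pow (Nat.pos_of_ne_zero hn0)
    rw [hb]; exact isIntegral_one
  have hintη : IsIntegral ℤ η := IsIntegral.mul hintb (IsIntegral.pow hinta _)
  -- `η - 1` lies in the local ideal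
  have hη_sub : Cfsg.MemLocalIdeal M (η - 1) := by
    have h1 : η - 1 = -((a - b) * a ^ (n - 1)) := by
      rw [hη, sub_mul, hainv]; ring
    rw [h1]
    exact Helper77.memLocalIdeal_neg (Helper77.memLocalIdeal_mul' hMm h
      (Helper77.memLocalRing_of_isIntegral hMm (IsIntegral.pow hinta _)))
  -- hence every `η ^ i - 1` does
  have hpow : ∀ i : ℕ, Cfsg.MemLocalIdeal M (η ^ i - 1) := by
    intro i
    have h1 : η ^ i - 1 = (η - 1) * ∑ j ∈ Finset.range i, η ^ j := by
      rw [mul_comm, geom_sum_mul]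
    rw [h1]
    exact Helper77.memLocalIdeal_mul' hMm hη_sub (Helper77.memLocalRing_of_isIntegral hMm
      (IsIntegral.sum _ (fun j _ => IsIntegral.pow hintη j)))
  -- the geometric sum vanishes
  have hgeom : ∑ i ∈ Finset.range n, η ^ i = 0 := by
    have h1 := geom_sum_mul η n
    rw [hηn, sub_self] at h1
    rcases mul_eq_zero.mp h1 with h2 | h2
    · exact h2
    · exact absurd (sub_eq_zero.mp h2) hη1
  have hsum : Cfsg.MemLocalIdeal M (∑ i ∈ Finset.range n, (η ^ i - 1)) :=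
    Helper77.memLocalIdeal_sum hMm _ _ (fun i _ => hpow i)
  rw [Finset.sum_sub_distrib, hgeom, Finset.sum_const, Finset.card_range, nsmul_eq_mul, mul_one,
    zero_sub] at hsum
  have h2 := Helper77.memLocalIdeal_neg hsum
  rw [neg_neg] at h2
  exact Helper77.not_memLocalIdeal_natCast hM hn h2

section central

variable {Γ : Type u} [Group Γ] [Finite Γ] {p : ℕ} [Fact p.Prime] {M : Ideal Cfsg.AlgInt}

/-- Characters in the same block have the same central character on a central `p'`-subgroup. -/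
theorem fong_scalar_eq_of_sameBlock (hM : Cfsg.IsPModular p M) (Z : Subgroup Γ)
    (hZc : Z ≤ Subgroup.center Γ) (hZp : ¬ p ∣ Nat.card Z) (ξ ξ' : Cfsg.IrrCharacter Γ)
    (h : Cfsg.SameBlock M (ξ : Γ → ℂ) (ξ' : Γ → ℂ)) (c c' : Z → ℂ)
    (hc : ∀ (z : Z) (g : Γ), (ξ : Γ → ℂ) (g * (z : Γ)) = c z * (ξ : Γ → ℂ) g)
    (hc' : ∀ (z : Z) (g : Γ), (ξ' : Γ → ℂ) (g * (z : Γ)) = c' z * (ξ' : Γ → ℂ) g) :
    c = c' := by
  funext z
  have h1 := Helper76.scalar_mul Z.subtype (ξ : Γ → ℂ) (Helper76.irr_one_ne_zero ξ) c hc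
  have h1' := Helper76.scalar_mul Z.subtype (ξ' : Γ → ℂ) (Helper76.irr_one_ne_zero ξ') c' hc'
  have hpw : c z ^ Nat.card Z = 1 := by
    rw [← Helper76.scalar_pow c h1.1 h1.2, pow_card_eq_one', h1.1]
  have hpw' : c' z ^ Nat.card Z = 1 := by
    rw [← Helper76.scalar_pow c' h1'.1 h1'.2, pow_card_eq_one', h1'.1]
  apply root_eq_of_memLocalIdeal_sub hM hZp hpw hpw'
  have hidx : (Subgroup.centralizer ({(z : Γ)} : Set Γ)).index = 1 := by
    rw [Subgroup.index_eq_one, eq_top_iff]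
    intro g _
    rw [Subgroup.mem_centralizer_iff]
    intro y hy
    rw [Set.mem_singleton_iff] at hy
    subst hy
    exact (Subgroup.mem_center_iff.mp (hZc z.2) g).symm
  have h2 := h (z : Γ)
  have e1 : Cfsg.centralChar (ξ : Γ → ℂ) (z : Γ) = c z := by
    unfold Cfsg.centralChar
    have := hc z 1
    rw [one_mul] at this
    rw [hidx, this]
    field_simp [Helper76.irr_one_ne_zero ξ]
    simp
  have e2 : Cfsg.centralChar (ξ' : Γ → ℂ) (z : Γ) = c' z := by
    unfold Cfsg.centralChar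
    have := hc' z 1
    rw [one_mul] at this
    rw [hidx, this]
    field_simp [Helper76.irr_one_ne_zero ξ']
    simp
  rwa [e1, e2] at h2

/-- **Blocks over a central `p'`-subgroup.**  Let `Q` be a normal `p`-subgroup and `Z` a central
`p'`-subgroup of `Γ` with `C_Γ(Q) ≤ Q Z`.  Two irreducible characters of `Γ` with the same
central character on `Z` lie in the same `p`-block. -/
theorem fong_sameBlock_of_central (hM : Cfsg.IsPModular p M) (Q : Subgroup Γ) [Q.Normal]
    (hQ : IsPGroup p Q) (Z : Subgroup Γ) (hZc : Z ≤ Subgroup.center Γ)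
    (hZp : ¬ p ∣ Nat.card Z)
    (hC : ∀ g ∈ Subgroup.centralizer (Q : Set Γ), ∃ q ∈ Q, ∃ z ∈ Z, g = q * z)
    (β β' : Cfsg.IrrCharacter Γ)
    (hcc : ∀ z ∈ Z, (β : Γ → ℂ) z * (β' : Γ → ℂ) 1 = (β' : Γ → ℂ) z * (β : Γ → ℂ) 1) :
    Cfsg.SameBlock M (β : Γ → ℂ) (β' : Γ → ℂ) := by
  classical
  letI : Fintype Γ := Fintype.ofFinite Γ
  haveI : M.IsPrime := hM.2.1.isPrime
  have hMm := hM.2.1
  have hnil : ∀ g : Γ, g ∉ Subgroup.centralizer (Q : Set Γ) → ∀ ξ : Cfsg.IrrCharacter Γ,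
      Cfsg.MemLocalIdeal M (Cfsg.centralChar (ξ : Γ → ℂ) g) :=
    fun g hg ξ => Helper16.centralChar_memLocalIdeal_of_not_mem_centralizer hM Q hQ ξ g hg
  obtain ⟨β₀, hβ₀B, hβ₀⟩ := Helper81.exists_mem_block_ker hM Q hQ hnil
    (B := Cfsg.blockOf M (β : Γ → ℂ)) ⟨β, rfl⟩
  obtain ⟨β₀', hβ₀'B, hβ₀'⟩ := Helper81.exists_mem_block_ker hM Q hQ hnil
    (B := Cfsg.blockOf M (β' : Γ → ℂ)) ⟨β', rfl⟩
  have hZι : ∀ z : Z, Z.subtype z ∈ Subgroup.center Γ := fun z => hZc z.2
  obtain ⟨c, hc⟩ := Helper76.exists_central_scalar Z.subtype hZι β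
  obtain ⟨c', hc'⟩ := Helper76.exists_central_scalar Z.subtype hZι β'
  obtain ⟨c₀, hc₀⟩ := Helper76.exists_central_scalar Z.subtype hZι β₀
  obtain ⟨c₀', hc₀'⟩ := Helper76.exists_central_scalar Z.subtype hZι β₀'
  have e1 : c = c₀ := fong_scalar_eq_of_sameBlock hM Z hZc hZp β β₀ hβ₀B c c₀ hc hc₀
  have e2 : c' = c₀' := fong_scalar_eq_of_sameBlock hM Z hZc hZp β' β₀' hβ₀'B c' c₀' hc' hc₀'
  have e3 : c = c' := by
    funext z
    have h1 := hc z 1
    have h2 := hc' z 1
    rw [one_mul] at h1 h2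
    have h3 := hcc z z.2
    have hz1 : (Z.subtype z : Γ) = (z : Γ) := rfl
    rw [hz1] at h1 h2
    rw [h1, h2] at h3
    have hb1 := Helper76.irr_one_ne_zero β
    have hb1' := Helper76.irr_one_ne_zero β'
    have h4 : (c z - c' z) * ((β : Γ → ℂ) 1 * (β' : Γ → ℂ) 1) = 0 := by
      linear_combination h3
    rcases mul_eq_zero.mp h4 with h5 | h5
    · exact sub_eq_zero.mp h5
    · exact absurd h5 (mul_ne_zero hb1 hb1')
  have hmain : Cfsg.SameBlock M (β₀ : Γ → ℂ) (β₀' : Γ → ℂ) := by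
    intro g
    by_cases hg : g ∈ Subgroup.centralizer (Q : Set Γ)
    · obtain ⟨q, hq, z, hz, rfl⟩ := hC g hg
      have h1 := hc₀ ⟨z, hz⟩ q
      have h2 := hc₀' ⟨z, hz⟩ q
      have hz1 : (Z.subtype ⟨z, hz⟩ : Γ) = z := rfl
      rw [hz1] at h1 h2
      have h0 : Cfsg.centralChar (β₀ : Γ → ℂ) (q * z) - Cfsg.centralChar (β₀' : Γ → ℂ) (q * z)
          = 0 := by
        simp only [Cfsg.centralChar]
        rw [h1, h2, hβ₀ q hq, hβ₀' q hq, ← e1, ← e2, e3]
        have hb1 := Helper76.irr_one_ne_zero β₀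
        have hb1' := Helper76.irr_one_ne_zero β₀'
        field_simp
        ring
      rw [h0]
      exact Helper77.memLocalIdeal_zero hMm
    · exact Helper77.memLocalIdeal_sub hMm (hnil g hg β₀) (hnil g hg β₀')
  exact Helper81.sameBlock_trans (Helper81.sameBlock_trans hβ₀B hmain)
    (Helper81.sameBlock_symm hβ₀'B)

end central

end Cfsg.Agent.Helper79
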