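import Cfsg.Agent.Helper79.FongBlock

/-!
# Central `p'`-extensions: a normal `p`-subgroup with small centralizer (helper79)

* `fong_exists_normal_pSubgroup`: if `φ : Γ →* H` is surjective with central kernel of order
  prime to `p`, and `P` is a normal `p`-subgroup of `H` with `C_H(P) ≤ P`, then `Γ` has a normal
  `p`-subgroup `Q` with `C_Γ(Q) ≤ Q · ker φ`.
* `sum_comp_of_surjective`: summing a function of `f a` over the source of a surjective
  homomorphism.
-/

set_option autoImplicit false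
set_option linter.style.haveILetI false

namespace Cfsg.Agent.Helper79

universe u v

theorem fong_exists_normal_pSubgroup {Γ : Type u} {H : Type v} [Group Γ] [Finite Γ] [Group H]
    [Finite H] {p : ℕ} [Fact p.Prime] (φ : Γ →* H) (hφ : Function.Surjective φ)
    (hker : φ.ker ≤ Subgroup.center Γ) (hkp : ¬ p ∣ Nat.card φ.ker)
    (P : Subgroup H) [hPn : P.Normal] (hP : IsPGroup p P)
    (hC : Subgroup.centralizer (P : Set H) ≤ P) :
    ∃ Q : Subgroup Γ, Q.Normal ∧ IsPGroup p Q ∧
      ∀ g ∈ Subgroup.centralizer (Q : Set Γ), ∃ q ∈ Q, ∃ z ∈ φ.ker, g = q * z := by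
  classical
  have hp : p.Prime := Fact.out
  set W : Subgroup Γ := P.comap φ with hW
  haveI hWn : W.Normal := hPn.comap φ
  let S' : Sylow p W := default
  set Q : Subgroup Γ := (S' : Subgroup W).map W.subtype with hQ
  have hQp : IsPGroup p Q := S'.isPGroup'.map _
  have hQW : Q ≤ W := by
    rintro _ ⟨s, -, rfl⟩
    exact s.2
  -- the image of `S'` in `P` is everything
  let φW : W →* P := φ.subgroupComap P
  have hφW : Function.Surjective φW := MonoidHom.subgroupComap_surjective_of_surjective φ P hφ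
  have htop : (S' : Subgroup W).map φW = ⊤ := by
    rw [← Subgroup.index_eq_one]
    have h1 : ((S' : Subgroup W).map φW).index ∣ (S' : Subgroup W).index :=
      Subgroup.index_map_dvd _ hφW
    obtain ⟨n, hn⟩ := hP.index ((S' : Subgroup W).map φW)
    have h2 : ¬ p ∣ (S' : Subgroup W).index := S'.not_dvd_index
    rcases Nat.eq_zero_or_pos n with h0 | h0
    · rw [hn, h0, pow_zero]
    · exfalso
      apply h2
      exact dvd_trans (by rw [hn]; exact dvd_pow_self p h0.ne') h1
  -- every element of `W` is `q * z`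
  have hdecomp : ∀ w ∈ W, ∃ q ∈ Q, ∃ z ∈ φ.ker, w = q * z := by
    intro w hw
    have h1 : φW ⟨w, hw⟩ ∈ (S' : Subgroup W).map φW := by rw [htop]; trivial
    obtain ⟨s, hs, hs'⟩ := h1
    have h2 : φ (s : Γ) = φ w := congrArg Subtype.val hs'
    refine ⟨(s : Γ), ⟨s, hs, rfl⟩, (s : Γ)⁻¹ * w, ?_, by group⟩
    rw [MonoidHom.mem_ker, map_mul, map_inv, h2, inv_mul_cancel]
  -- `p`-elements of `W` lie in `Q`
  have hpelt : ∀ w ∈ W, (∃ k : ℕ, w ^ p ^ k = 1) → w ∈ Q := by
    intro w hw ⟨k, hk⟩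
    obtain ⟨q, hq, z, hz, rfl⟩ := hdecomp w hw
    obtain ⟨j, hj⟩ := hQp ⟨q, hq⟩
    have hj' : q ^ p ^ j = 1 := congrArg Subtype.val hj
    have hcomm : Commute q z := Subgroup.mem_center_iff.mp (hker hz) q
    have h1 : z ^ (p ^ (k + j)) = 1 := by
      have h2 : (q * z) ^ (p ^ (k + j)) = 1 := by
        rw [pow_add, pow_mul, hk, one_pow]
      rw [hcomm.mul_pow, pow_add, mul_comm (p ^ k) (p ^ j), pow_mul, hj', one_pow, one_mul,
        mul_comm (p ^ j) (p ^ k), ← pow_add] at h2
      exact h2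
    have h3 : z ^ Nat.card φ.ker = 1 := by
      have := pow_card_eq_one' (G := φ.ker) (x := ⟨z, hz⟩)
      exact congrArg Subtype.val this
    have hz1 : z = 1 := by
      have hcop : Nat.Coprime (p ^ (k + j)) (Nat.card φ.ker) :=
        Nat.Coprime.pow_left _ ((Nat.Prime.coprime_iff_not_dvd hp).mpr hkp)
      have h4 : orderOf z ∣ Nat.gcd (p ^ (k + j)) (Nat.card φ.ker) :=
        Nat.dvd_gcd (orderOf_dvd_of_pow_eq_one h1) (orderOf_dvd_of_pow_eq_one h3)
      rw [hcop] at h4
      exact orderOf_eq_one_iff.mp (Nat.dvd_one.mp h4)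
    rw [hz1, mul_one]
    exact hq
  have hQn : Q.Normal := by
    constructor
    intro q hq g
    apply hpelt _ (hWn.conj_mem q (hQW hq) g)
    obtain ⟨j, hj⟩ := hQp ⟨q, hq⟩
    have hj' : q ^ p ^ j = 1 := congrArg Subtype.val hj
    exact ⟨j, by rw [conj_pow, hj', mul_one, mul_inv_cancel]⟩
  refine ⟨Q, hQn, hQp, ?_⟩
  intro g hg
  apply hdecomp
  show φ g ∈ P
  apply hC
  rw [Subgroup.mem_centralizer_iff]
  intro x hx
  obtain ⟨w, rfl⟩ := hφ x
  obtain ⟨q, hq, z, hz, rfl⟩ := hdecomp w hx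
  have h1 := Subgroup.mem_centralizer_iff.mp hg q hq
  have hz' : φ z = 1 := hz
  rw [map_mul, hz', mul_one, ← map_mul, ← map_mul, h1]

/-- Summing a function of `f a` over the source of a surjective homomorphism. -/
theorem sum_comp_of_surjective {A : Type u} {B : Type v} [Group A] [Fintype A] [Group B]
    [Fintype B] (f : A →* B) (hf : Function.Surjective f) (F : B → ℂ) :
    ∑ a : A, F (f a) = (Nat.card f.ker : ℂ) * ∑ b : B, F b := by
  classical
  rw [← Finset.sum_fiberwise Finset.univ (fun a : A => f a) (fun a => F (f a)), Finset.mul_sum]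
  refine Finset.sum_congr rfl fun b _ => ?_
  have h1 : ∀ a ∈ Finset.univ.filter (fun a : A => f a = b), F (f a) = F b := by
    intro a ha
    rw [(Finset.mem_filter.mp ha).2]
  rw [Finset.sum_congr rfl h1, Finset.sum_const, nsmul_eq_mul]
  congr 2
  obtain ⟨a₀, rfl⟩ := hf b
  rw [← Fintype.card_subtype, ← Nat.card_eq_fintype_card]
  apply Nat.card_congr
  refine ⟨fun a => ⟨a₀⁻¹ * (a : A), by
      rw [MonoidHom.mem_ker, map_mul, map_inv, a.2, inv_mul_cancel]⟩,
    fun k => ⟨a₀ * (k : A), by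
      rw [map_mul, MonoidHom.mem_ker.mp k.2, mul_one]⟩, ?_, ?_⟩
  · intro a
    apply Subtype.ext
    simp
  · intro k
    apply Subtype.ext
    simp

end Cfsg.Agent.Helper79
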