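import Cfsg.Agent.Helper79.FongBlock2
import Cfsg.Agent.Helper76.Cover2
import Cfsg.Agent.Helper75.CliffordCorr
import Cfsg.Agent.Helper3.Taketa
import Cfsg.Agent.Helper81.BlockDefect

/-!
# Blocks over an invariant character of a normal `p'`-subgroup: general lemmas (helper79)

* `fong_sameBlock_transfer`: transfer of "same block" along a surjection with kernel of order
  prime to `p`, twisted by a fixed class function `σ` (`χ ∘ f = β · σ`).
* `eq_of_sameBlock_of_not_dvd_card`: the `p`-blocks of a `p'`-group are singletons.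
* `fong_over_of_sameBlock`: characters in the same block lie over the same `G`-invariant
  irreducible character of a normal `p'`-subgroup.
* `fong_exists_pPrime_degree_over`: over a `G`-invariant irreducible character of a normal
  `p'`-subgroup there is an irreducible character of degree prime to `p`.
-/

set_option autoImplicit false
set_option linter.style.haveILetI false
set_option linter.unusedSectionVars false

namespace Cfsg.Agent.Helper79

universe u v

open scoped ComplexConjugate

/-- Transfer of "same block" along a surjective homomorphism whose kernel has order prime to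
`p`, twisted by a class function `σ` with integral values and degree prime to `p`. -/
theorem fong_sameBlock_transfer {A : Type u} {B : Type v} [Group A] [Fintype A] [Group B]
    [Fintype B] {p : ℕ} [Fact p.Prime] {M : Ideal Cfsg.AlgInt} (hM : Cfsg.IsPModular p M)
    (f : A →* B) (hf : Function.Surjective f) (hker : ¬ p ∣ Nat.card f.ker)
    (σ : A → ℂ) (hσcl : Cfsg.IsClassFunction A σ) (hσint : ∀ a, IsIntegral ℤ (σ a))
    (d : ℕ) (hd : σ 1 = d) (hdp : ¬ p ∣ d)
    (χ χ' : Cfsg.IrrCharacter B) (β β' : Cfsg.IrrCharacter A)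
    (h1 : ∀ a, (χ : B → ℂ) (f a) = (β : A → ℂ) a * σ a)
    (h2 : ∀ a, (χ' : B → ℂ) (f a) = (β' : A → ℂ) a * σ a)
    (h : Cfsg.SameBlock M (β : A → ℂ) (β' : A → ℂ)) :
    Cfsg.SameBlock M (χ : B → ℂ) (χ' : B → ℂ) := by
  classical
  have hMm := hM.2.1
  have hp : p.Prime := Fact.out
  intro x
  rw [← Helper81.omega_classInd χ x, ← Helper81.omega_classInd χ' x]
  set c : A → ℂ := fun a => Helper81.classInd x (f a) * σ a with hc
  have hk0 : (Nat.card f.ker : ℂ) ≠ 0 := by exact_mod_cast Nat.card_pos.ne'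
  have hd0 : (d : ℂ) ≠ 0 := by
    intro h0
    have : d = 0 := by exact_mod_cast h0
    exact hdp (this ▸ dvd_zero p)
  have key : ∀ (ξ : Cfsg.IrrCharacter B) (γ : Cfsg.IrrCharacter A),
      (∀ a, (ξ : B → ℂ) (f a) = (γ : A → ℂ) a * σ a) →
      Helper81.omega (ξ : B → ℂ) (Helper81.classInd x)
        = ((Nat.card f.ker * d : ℕ) : ℂ)⁻¹ * Helper81.omega (γ : A → ℂ) c := by
    intro ξ γ hξ
    unfold Helper81.omega
    have e1 : ∑ a : A, c a * (γ : A → ℂ) a
        = (Nat.card f.ker : ℂ) * ∑ b : B, Helper81.classInd x b * (ξ : B → ℂ) b := by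
      rw [← sum_comp_of_surjective f hf (fun b => Helper81.classInd x b * (ξ : B → ℂ) b)]
      refine Finset.sum_congr rfl fun a _ => ?_
      rw [hc, hξ a]
      ring
    have e2 : (ξ : B → ℂ) 1 = (γ : A → ℂ) 1 * d := by
      have := hξ 1
      rw [map_one, hd] at this
      exact this
    have hγ1 := Helper81.irr_one_ne_zero γ
    rw [e1, e2]
    push_cast
    field_simp
  rw [key χ β h1, key χ' β' h2, ← mul_sub]
  have hccl : Cfsg.IsClassFunction A c := by
    intro a b
    rw [hc]
    show Helper81.classInd x (f (b * a * b⁻¹)) * σ (b * a * b⁻¹) = Helper81.classInd x (f a) * σ a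
    rw [hσcl a b, map_mul, map_mul, map_inv, Helper81.classInd_isClassFunction x (f a) (f b)]
  have hcloc : ∀ a, Cfsg.MemLocalRing M (c a) := by
    intro a
    rw [hc]
    apply Helper77.memLocalRing_mul hMm
    · unfold Helper81.classInd
      split_ifs
      · exact Helper77.memLocalRing_one hMm
      · exact Helper77.memLocalRing_zero hMm
    · exact Helper77.memLocalRing_of_isIntegral hMm (hσint a)
  have h3 := Helper16.omega_sub_memLocalIdeal hMm β β' h hccl hcloc
  have h4 : ¬ p ∣ Nat.card f.ker * d := by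
    intro h5
    rcases (Nat.Prime.dvd_mul hp).mp h5 with h6 | h6
    · exact hker h6
    · exact hdp h6
  exact Helper77.memLocalIdeal_mul hMm (Helper77.memLocalRing_natCast_inv hM h4) h3

/-- The `p`-blocks of a group of order prime to `p` are singletons. -/
theorem eq_of_sameBlock_of_not_dvd_card {K : Type u} [Group K] [Fintype K] {p : ℕ}
    [Fact p.Prime] {M : Ideal Cfsg.AlgInt} (hM : Cfsg.IsPModular p M) (hK : ¬ p ∣ Nat.card K)
    (θ θ' : Cfsg.IrrCharacter K) (h : Cfsg.SameBlock M (θ : K → ℂ) (θ' : K → ℂ)) : θ = θ' := by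
  classical
  have hMm := hM.2.1
  have hcl := Helper77.blockCoeff_isClassFunction ({θ} : Set (Cfsg.IrrCharacter K))
  have hloc : ∀ g : K, Cfsg.MemLocalRing M
      (Cfsg.blockCoeff ({θ} : Set (Cfsg.IrrCharacter K)) g) := by
    intro g
    unfold Cfsg.blockCoeff
    rw [finsum_mem_singleton]
    apply Helper77.memLocalRing_mul hMm (Helper77.memLocalRing_natCast_inv hM hK)
    apply Helper77.memLocalRing_of_isIntegral hMm
    exact IsIntegral.mul (Helper81.irr_isIntegral θ 1)
      (map_isIntegral_int (starRingEnd ℂ) (Helper81.irr_isIntegral θ g))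
  have h3 := Helper16.omega_sub_memLocalIdeal hMm θ θ' h hcl hloc
  rw [Helper77.omega_blockCoeff, Helper77.omega_blockCoeff] at h3
  by_contra hne
  rw [if_pos (Set.mem_singleton θ), if_neg (fun h' => hne (Set.mem_singleton_iff.mp h').symm),
    sub_zero] at h3
  exact Helper77.not_memLocalIdeal_one hMm h3

section overSec

variable {G : Type u} [Group G] [Fintype G] {p : ℕ} [Fact p.Prime] {M : Ideal Cfsg.AlgInt}

/-- Characters in the same `p`-block lie over the same `G`-invariant irreducible character of a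
normal subgroup of order prime to `p`. -/
theorem fong_over_of_sameBlock (hM : Cfsg.IsPModular p M) (K : Subgroup G) [hK : K.Normal]
    [Fintype K] (hKp : ¬ p ∣ Nat.card K) (θ : Cfsg.IrrCharacter K)
    (hinv : ∀ (g : G) (n : K), (θ : K → ℂ) ⟨g * n * g⁻¹, hK.conj_mem n n.2 g⟩ = (θ : K → ℂ) n)
    (χ χ' : Cfsg.IrrCharacter G) (h : Cfsg.SameBlock M (χ : G → ℂ) (χ' : G → ℂ))
    (hχ : Cfsg.classInner (fun n : K => (χ : G → ℂ) n) (θ : K → ℂ) ≠ 0) :
    Cfsg.classInner (fun n : K => (χ' : G → ℂ) n) (θ : K → ℂ) ≠ 0 := by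
  classical
  have hMm := hM.2.1
  haveI : M.IsPrime := hMm.isPrime
  have hres : Cfsg.IsCharacter K (fun n : K => (χ' : G → ℂ) n) :=
    Helper79.isCharacter_restrict (Helper79.irr_isCharacter χ') K
  have h1 : (fun n : K => (χ' : G → ℂ) n) 1 ≠ 0 := Helper81.irr_one_ne_zero χ'
  obtain ⟨ψ, hψ, hne⟩ := Helper75.exists_irr_constituent hres h1
  have hmem := Helper76.mem_blockOrbit_of_sameBlock hMm K (b := Cfsg.blockOf M (θ : K → ℂ))
    ⟨θ, rfl⟩ χ χ' h θ (Helper81.mem_blockOf_self θ) hχ ⟨ψ, hψ⟩ hne
  obtain ⟨g, θ', hθ', hψθ'⟩ := hmem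
  have e1 : θ' = θ := (eq_of_sameBlock_of_not_dvd_card hM hKp θ θ' hθ').symm
  have e2 : (⟨ψ, hψ⟩ : Cfsg.IrrCharacter K) = θ := by
    rw [hψθ', e1]
    apply Subtype.ext
    funext n
    rw [Helper81.irrTwist_apply]
    exact hinv g n
  have e3 : ψ = (θ : K → ℂ) := congrArg Subtype.val e2
  rw [← e3]
  exact hne

end overSec

end Cfsg.Agent.Helper79
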