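import Cfsg.Agent.Helper79.FongBlock3
import Cfsg.Agent.Helper77.PrincipalDefect

/-!
# Characters of `p'`-degree over an invariant character; full defect (helper79)

* `fong_exists_pPrime_degree_over`: over a `G`-invariant irreducible character of a normal
  `p'`-subgroup there is an irreducible character of degree prime to `p`.
* `fong_isDefectGroup_iff_of_pPrime_degree`: the defect groups of a block containing a
  character of degree prime to `p` are exactly the Sylow `p`-subgroups.
-/

set_option autoImplicit false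
set_option linter.style.haveILetI false
set_option linter.unusedSectionVars false

namespace Cfsg.Agent.Helper79

universe u

open scoped ComplexConjugate

variable {G : Type u} [Group G] [Fintype G] {p : ℕ} [Fact p.Prime] {M : Ideal Cfsg.AlgInt}

theorem fong_exists_pPrime_degree_over (K : Subgroup G) [hK : K.Normal] [Fintype K]
    (hKp : ¬ p ∣ Nat.card K) (θ : Cfsg.IrrCharacter K)
    (hinv : ∀ (g : G) (n : K), (θ : K → ℂ) ⟨g * n * g⁻¹, hK.conj_mem n n.2 g⟩ = (θ : K → ℂ) n) :
    ∃ χ : Cfsg.IrrCharacter G,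
      Cfsg.classInner (fun n : K => (χ : G → ℂ) n) (θ : K → ℂ) ≠ 0 ∧
      ¬ p ∣ Cfsg.charDegree (χ : G → ℂ) := by
  classical
  have hp : p.Prime := Fact.out
  letI : Fintype (Cfsg.IrrCharacter G) := Fintype.ofFinite _
  by_contra hcon
  push Not at hcon
  let S : Sylow p G := default
  have hsum : ∀ χ : Cfsg.IrrCharacter G, ∃ m : ℕ,
      ∑ x : (S : Subgroup G), (χ : G → ℂ) x = (Nat.card (S : Subgroup G) : ℂ) * m :=
    fun χ => Helper81.irr_sum_subgroup _ χ
  choose a ha using hsum
  have hθc : Cfsg.IsCharacter K (θ : K → ℂ) := Helper79.irr_isCharacter θ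
  have hmult : ∀ χ : Cfsg.IrrCharacter G, ∃ n : ℕ,
      Cfsg.classInner (fun n : K => (χ : G → ℂ) n) (θ : K → ℂ) = n :=
    fun χ => Helper3.classInner_isCharacter_nat
      (Helper79.isCharacter_restrict (Helper79.irr_isCharacter χ) K) hθc
  choose n hn using hmult
  have hdθ : ¬ p ∣ Cfsg.charDegree (θ : K → ℂ) :=
    fun h => hKp (dvd_trans h (Helper81.charDegree_dvd_card θ))
  have hpn : ∀ χ, p ∣ n χ := by
    intro χ
    by_cases h0 : Cfsg.classInner (fun n : K => (χ : G → ℂ) n) (θ : K → ℂ) = 0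
    · have : n χ = 0 := by exact_mod_cast (hn χ).symm.trans h0
      rw [this]; exact dvd_zero p
    · have hdiv := hcon χ h0
      have hcl := Helper75.clifford_restrict K χ.2 θ.2 h0
      have hset : {ψ : K → ℂ | ∃ g : G, ψ = Helper75.conjFun K g (θ : K → ℂ)}
          = {(θ : K → ℂ)} := by
        ext ψ
        constructor
        · rintro ⟨g, rfl⟩
          rw [Set.mem_singleton_iff]
          funext k
          rw [Helper75.conjFun_apply]
          exact hinv g k
        · intro h
          rw [Set.mem_singleton_iff] at h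
          exact ⟨1, by rw [h, Helper75.conjFun_one]⟩
      rw [hset, finsum_mem_singleton, hn χ] at hcl
      have h1 := congrFun hcl 1
      simp only [Pi.smul_apply, smul_eq_mul] at h1
      have h2 : (χ : G → ℂ) ((1 : K) : G) = (χ : G → ℂ) 1 := rfl
      rw [h2, Helper81.irr_one_eq_charDegree θ, Helper81.irr_one_eq_charDegree χ] at h1
      have h4 : Cfsg.charDegree (χ : G → ℂ) = n χ * Cfsg.charDegree (θ : K → ℂ) := by
        exact_mod_cast h1
      rw [h4] at hdiv
      exact ((Nat.Prime.dvd_mul hp).mp hdiv).resolve_right hdθ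
  have hind : ∀ x : G, Cfsg.indFun K (θ : K → ℂ) x
      = ∑ χ : Cfsg.IrrCharacter G, (n χ : ℂ) * (χ : G → ℂ) x := by
    intro x
    rw [Helper3.classFunction_apply_eq_sum (Cfsg.indFun K (θ : K → ℂ))
      (Helper3.indFun_isClassFunction K _) x]
    refine Finset.sum_congr rfl fun χ _ => ?_
    congr 1
    rw [Helper3.frobenius_reciprocity K (θ : K → ℂ) (χ : G → ℂ) (Helper81.irr_isClassFunction χ),
      Helper75.classInner_conj_symm (fun n : K => (χ : G → ℂ) n) (θ : K → ℂ), hn χ,
      Complex.conj_natCast]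
  have hvan : ∀ x : G, x ∉ K → Cfsg.indFun K (θ : K → ℂ) x = 0 := by
    intro x hx
    unfold Cfsg.indFun
    rw [Finset.sum_eq_zero, mul_zero]
    intro y _
    apply Helper3.extendByZero_of_not_mem
    intro hmem
    apply hx
    have := hK.conj_mem _ hmem y
    simpa [mul_assoc] using this
  have hSK : ∀ x : (S : Subgroup G), (x : G) ∈ K → x = 1 := by
    intro x hx
    obtain ⟨k, hk⟩ := S.isPGroup' x
    have h1 : (x : G) ^ p ^ k = 1 := congrArg Subtype.val hk
    have h2 : (x : G) ^ Nat.card K = 1 := by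
      have := pow_card_eq_one' (G := K) (x := ⟨x, hx⟩)
      exact congrArg Subtype.val this
    have hcop : Nat.Coprime (p ^ k) (Nat.card K) :=
      Nat.Coprime.pow_left _ ((Nat.Prime.coprime_iff_not_dvd hp).mpr hKp)
    have h4 : orderOf (x : G) ∣ Nat.gcd (p ^ k) (Nat.card K) :=
      Nat.dvd_gcd (orderOf_dvd_of_pow_eq_one h1) (orderOf_dvd_of_pow_eq_one h2)
    rw [hcop] at h4
    exact Subtype.ext (orderOf_eq_one_iff.mp (Nat.dvd_one.mp h4))
  have hS1 : ∑ x : (S : Subgroup G), Cfsg.indFun K (θ : K → ℂ) x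
      = (K.index : ℂ) * (θ : K → ℂ) 1 := by
    rw [Finset.sum_eq_single (1 : (S : Subgroup G))]
    · exact Helper3.indFun_apply_one K _
    · intro x _ hx1
      exact hvan x (fun h => hx1 (hSK x h))
    · intro h
      exact absurd (Finset.mem_univ _) h
  have hS2 : ∑ x : (S : Subgroup G), Cfsg.indFun K (θ : K → ℂ) x
      = (Nat.card (S : Subgroup G) : ℂ) * ∑ χ : Cfsg.IrrCharacter G, (n χ : ℂ) * a χ := by
    simp_rw [hind]
    rw [Finset.sum_comm, Finset.mul_sum]
    refine Finset.sum_congr rfl fun χ _ => ?_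
    rw [← Finset.mul_sum, ha χ]
    ring
  have hnat : K.index * Cfsg.charDegree (θ : K → ℂ)
      = Nat.card (S : Subgroup G) * ∑ χ : Cfsg.IrrCharacter G, n χ * a χ := by
    have := hS1.symm.trans hS2
    rw [Helper81.irr_one_eq_charDegree θ] at this
    exact_mod_cast this
  have hpsum : p ∣ ∑ χ : Cfsg.IrrCharacter G, n χ * a χ :=
    Finset.dvd_sum fun χ _ => Dvd.dvd.mul_right (hpn χ) _
  have hScard : Nat.card (S : Subgroup G) = p ^ (Nat.card G).factorization p :=
    S.card_eq_multiplicity
  obtain ⟨t, ht⟩ := hpsum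
  have h5 : p ^ ((Nat.card G).factorization p + 1) ∣ K.index * Cfsg.charDegree (θ : K → ℂ) := by
    rw [hnat, hScard, ht, pow_succ]
    exact ⟨t, by ring⟩
  have h6 : p ^ ((Nat.card G).factorization p + 1) ∣ K.index :=
    (Nat.Coprime.pow_left _ ((Nat.Prime.coprime_iff_not_dvd hp).mpr hdθ)).dvd_of_dvd_mul_right h5
  have h7 : p ^ ((Nat.card G).factorization p + 1) ∣ Nat.card G :=
    dvd_trans h6 (Subgroup.index_dvd_card K)
  exact Nat.pow_succ_factorization_not_dvd (Nat.card_pos.ne') hp h7

/-- The defect groups of a block containing a character of degree prime to `p` are exactly the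
Sylow `p`-subgroups. -/
theorem fong_isDefectGroup_iff_of_pPrime_degree (hM : Cfsg.IsPModular p M)
    {B : Set (Cfsg.IrrCharacter G)} (hB : Cfsg.IsPBlock M B) (χ₀ : Cfsg.IrrCharacter G)
    (hχ₀ : χ₀ ∈ B) (hdeg : ¬ p ∣ Cfsg.charDegree (χ₀ : G → ℂ)) (D : Subgroup G) :
    Cfsg.IsDefectGroup p M B D ↔ ∃ S : Sylow p G, (S : Subgroup G) = D := by
  have hdef : Cfsg.blockDefect p B = (Nat.card G).factorization p := by
    unfold Cfsg.blockDefect
    have h0 : sInf ((fun χ : Cfsg.IrrCharacter G =>
        (Cfsg.charDegree (χ : G → ℂ)).factorization p) '' B) = 0 := by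
      apply Nat.eq_zero_of_le_zero
      apply Nat.sInf_le
      exact ⟨χ₀, hχ₀, Nat.factorization_eq_zero_of_not_dvd hdeg⟩
    rw [h0, Nat.sub_zero]
  have fwd : ∀ D : Subgroup G, Cfsg.IsDefectGroup p M B D →
      ∃ S : Sylow p G, (S : Subgroup G) = D := by
    intro D hD
    have hcard := Helper77.card_of_isDefectGroup hM hB hD
    rw [hdef] at hcard
    obtain ⟨g, -, -, -, hDp⟩ := Helper16.isDefectGroup_exists_data hD
    obtain ⟨S, hS⟩ := hDp.exists_le_sylow
    refine ⟨S, ?_⟩
    symm
    apply Subgroup.eq_of_le_of_card_ge hS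
    rw [hcard, S.card_eq_multiplicity]
  constructor
  · exact fwd D
  · rintro ⟨S, rfl⟩
    obtain ⟨D', hD'⟩ := Helper16.exists_isDefectGroup (p := p) hM.2.1 hB
    obtain ⟨S', hS'⟩ := fwd D' hD'
    obtain ⟨g, hg⟩ := MulAction.exists_smul_eq G S' S
    have h1 := Helper16.isDefectGroup_conj hD' g
    have h2 : (S : Subgroup G) = D'.map (MulAut.conj g).toMonoidHom := by
      rw [← hg, ← hS', Sylow.coe_subgroup_smul]
      rfl
    rw [h2]
    exact h1

end Cfsg.Agent.Helper79
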