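import Cfsg.Agent.Helper79.FongBlock4
import Cfsg.Agent.Helper15.FinLift
import Cfsg.Agent.Helper81.BlockKer

/-!
# Fong: the characters over an invariant character of a normal `p'`-subgroup form a block
(helper79)

* `fong_sameBlock_over`: let `K` be a normal `p'`-subgroup of `G` and `P` a normal `p`-subgroup
  of `G ⧸ K` containing its centralizer.  If `θ ∈ Irr(K)` is `G`-invariant, any two irreducible
  characters of `G` lying over `θ` are in the same `p`-block.

The proof passes to the finite group of lifts of Helper15 (a central extension `Ĝ` of `G` by a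
cyclic `p'`-group in which `θ` extends to `σ`), writes `χ ∘ π = β · σ` by Gallagher, and applies
`fong_sameBlock_of_central` to `Ĝ ⧸ K₀`.
-/

set_option autoImplicit false
set_option linter.style.haveILetI false
set_option linter.unusedSectionVars false
set_option maxHeartbeats 1000000

namespace Cfsg.Agent.Helper79

universe u

open scoped ComplexConjugate

variable {G : Type u} [Group G] [Fintype G] {p : ℕ} [Fact p.Prime] {M : Ideal Cfsg.AlgInt}

theorem fong_sameBlock_over (hM : Cfsg.IsPModular p M) (K : Subgroup G) [hK : K.Normal]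
    [Fintype K] (hKp : ¬ p ∣ Nat.card K)
    (P : Subgroup (G ⧸ K)) [P.Normal] (hP : IsPGroup p P)
    (hC : Subgroup.centralizer (P : Set (G ⧸ K)) ≤ P)
    (θ : Cfsg.IrrCharacter K)
    (hinv : ∀ (g : G) (n : K), (θ : K → ℂ) ⟨g * n * g⁻¹, hK.conj_mem n n.2 g⟩ = (θ : K → ℂ) n)
    (χ χ' : Cfsg.IrrCharacter G)
    (hχ : Cfsg.classInner (fun n : K => (χ : G → ℂ) n) (θ : K → ℂ) ≠ 0)
    (hχ' : Cfsg.classInner (fun n : K => (χ' : G → ℂ) n) (θ : K → ℂ) ≠ 0) :
    Cfsg.SameBlock M (χ : G → ℂ) (χ' : G → ℂ) := by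
  classical
  have hp : p.Prime := Fact.out
  have hMm := hM.2.1
  obtain ⟨d, ρ, hρ, hρθ⟩ := θ.2
  have hinv' : ∀ (g : G) (n : K), ρ.character (Helper15.conjN g n) = ρ.character n := by
    intro g n
    rw [hρθ]
    exact hinv g n
  have hd : 0 < d := by
    have := hρ
    simpa using Cfsg.Agent.Helper80.rep_finrank_pos ρ
  have hdeg : Cfsg.charDegree (θ : K → ℂ) = d := by
    apply Helper75.charDegree_of_one_eq_nat
    rw [← hρθ, Representation.char_one]
    simp
  have hdp : ¬ p ∣ d := by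
    rw [← hdeg]
    exact fun h => hKp (dvd_trans h (Helper81.charDegree_dvd_card θ))
  have hnd : ¬ p ∣ d * Nat.card K := fun h => ((Nat.Prime.dvd_mul hp).mp h).elim hdp hKp
  haveI hfin : Finite (Helper15.finLift ρ (Nat.card K)) :=
    Helper15.finite_finLift ρ hρ hinv' _ Nat.card_pos
  letI : Fintype (Helper15.finLift ρ (Nat.card K)) := Fintype.ofFinite _
  letI : Fintype (Helper15.finLiftBase ρ).range := Fintype.ofFinite _
  have hπ : Function.Surjective (Helper15.finLiftPr ρ (Nat.card K)) :=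
    Helper15.finLiftPr_surjective ρ hinv' _ hd
  -- the extension `σ` of `θ` to the group of lifts
  have hσirr : (Helper15.finLiftRep ρ (Nat.card K)).IsIrreducible :=
    Helper15.isIrreducible_of_image ρ _ hρ (fun n => ⟨Helper15.finLiftBase ρ n, rfl⟩)
  have hσ : Cfsg.IsIrrCharacter (Helper15.finLift ρ (Nat.card K))
      (Helper15.finLiftRep ρ (Nat.card K)).character := ⟨d, _, hσirr, rfl⟩
  obtain ⟨σN, hσNdef⟩ : ∃ σN : Representation ℂ (Helper15.finLiftBase ρ).range (Fin d → ℂ),
      ∀ x : (Helper15.finLiftBase ρ).range, σN x = Helper15.finLiftRep ρ (Nat.card K) x :=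
    ⟨(Helper15.finLiftRep ρ _).comp (Subgroup.subtype _), fun _ => rfl⟩
  have hσNirr : σN.IsIrreducible :=
    Helper15.isIrreducible_of_image ρ _ hρ
      (fun n => ⟨⟨Helper15.finLiftBase ρ n, n, rfl⟩, by rw [hσNdef]; rfl⟩)
  have hσNchar : σN.character = fun n : (Helper15.finLiftBase ρ).range =>
      (Helper15.finLiftRep ρ (Nat.card K)).character n := by
    funext x
    unfold Representation.character
    rw [hσNdef]
  have hσN : Cfsg.IsIrrCharacter (Helper15.finLiftBase ρ).range
      (fun n : (Helper15.finLiftBase ρ).range =>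
        (Helper15.finLiftRep ρ (Nat.card K)).character n) := ⟨d, σN, hσNirr, hσNchar⟩
  have hσ1 : (Helper15.finLiftRep ρ (Nat.card K)).character 1 = (d : ℂ) := by
    rw [Representation.char_one]
    simp
  -- Gallagher: `ξ ∘ π = β · σ`
  have hgal : ∀ ξ : Cfsg.IrrCharacter G,
      Cfsg.classInner (fun n : K => (ξ : G → ℂ) n) (θ : K → ℂ) ≠ 0 →
      ∃ β : Cfsg.IrrCharacter (Helper15.finLift ρ (Nat.card K)),
        (∀ x ∈ (Helper15.finLiftBase ρ).range, β.1 x = β.1 1) ∧
        ∀ a, (ξ : G → ℂ) (Helper15.finLiftPr ρ (Nat.card K) a)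
          = β.1 a * (Helper15.finLiftRep ρ (Nat.card K)).character a := by
    intro ξ hξ
    have hne' : Cfsg.classInner
        (fun n : (Helper15.finLiftBase ρ).range =>
          (ξ : G → ℂ) (Helper15.finLiftPr ρ (Nat.card K) n))
        (fun n : (Helper15.finLiftBase ρ).range =>
          (Helper15.finLiftRep ρ (Nat.card K)).character n) ≠ 0 := by
      have h1 : Cfsg.classInner
          (fun n : (Helper15.finLiftBase ρ).range =>
            (ξ : G → ℂ) (Helper15.finLiftPr ρ (Nat.card K) n))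
          (fun n : (Helper15.finLiftBase ρ).range =>
            (Helper15.finLiftRep ρ (Nat.card K)).character n) =
          Cfsg.classInner (fun n : K => (ξ : G → ℂ) n) ρ.character := by
        unfold Cfsg.classInner
        rw [Nat.card_congr (MonoidHom.ofInjective (Helper15.finLiftBase_injective ρ)).toEquiv.symm]
        congr 1
        rw [← Equiv.sum_comp (MonoidHom.ofInjective (Helper15.finLiftBase_injective ρ)).toEquiv]
        apply Finset.sum_congr rfl
        intro n _
        rfl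
      rw [h1, hρθ]
      exact hξ
    have hψ : Cfsg.IsIrrCharacter (Helper15.finLift ρ (Nat.card K))
        (fun x => (ξ : G → ℂ) (Helper15.finLiftPr ρ (Nat.card K) x)) :=
      Cfsg.Agent.Helper79.isIrrCharacter_comp _ hπ ξ.2
    obtain ⟨hβ, hβN, hψβ⟩ := (Helper15.gallagher_average (Helper15.finLiftBase ρ).range
      (Helper15.finLiftRep ρ (Nat.card K)).character hσ hσN _ hψ).1 hne'
    refine ⟨⟨_, hβ⟩, hβN, fun a => ?_⟩
    have := congrFun hψβ a
    rw [Pi.mul_apply] at this
    exact this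
  obtain ⟨β, hβK, hβ⟩ := hgal χ hχ
  obtain ⟨β', hβ'K, hβ'⟩ := hgal χ' hχ'
  -- elements of the kernel of `π`
  have hL' : ∀ z : Helper15.finLift ρ (Nat.card K), Helper15.finLiftPr ρ (Nat.card K) z = 1 →
      z ∈ Subgroup.center (Helper15.finLift ρ (Nat.card K)) ∧ z ^ (d * Nat.card K) = 1 := by
    intro z hz
    have h1 : z.1.1 = 1 := hz
    have h2 : ((1 : G), z.1.2) ∈ Helper15.finLift ρ (Nat.card K) := by
      have := z.2
      rw [← h1]
      exact this
    obtain ⟨c, hc, hc1⟩ := Helper15.finLift_ker ρ hρ _ h2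
    constructor
    · rw [Subgroup.mem_center_iff]
      intro y
      apply Subtype.ext
      refine Prod.ext ?_ ?_
      · show y.1.1 * z.1.1 = z.1.1 * y.1.1
        rw [h1, mul_one, one_mul]
      · show y.1.2 * z.1.2 = z.1.2 * y.1.2
        rw [hc, Helper15.scalarUnit_comm]
    · apply Subtype.ext
      rw [Subgroup.coe_pow]
      refine Prod.ext ?_ ?_
      · rw [Prod.pow_fst, h1, one_pow]
        rfl
      · rw [Prod.pow_snd, hc, ← map_pow, hc1, map_one]
        rfl
  have hL : ∀ a : Helper15.finLift ρ (Nat.card K), Helper15.finLiftPr ρ (Nat.card K) a ∈ K →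
      ∃ z : Helper15.finLift ρ (Nat.card K), Helper15.finLiftPr ρ (Nat.card K) z = 1 ∧
        ∃ n ∈ (Helper15.finLiftBase ρ).range, a = z * n := by
    intro a ha
    refine ⟨a * (Helper15.finLiftBase ρ ⟨_, ha⟩)⁻¹, ?_, Helper15.finLiftBase ρ ⟨_, ha⟩,
      ⟨_, rfl⟩, (inv_mul_cancel_right _ _).symm⟩
    rw [map_mul, map_inv]
    have : Helper15.finLiftPr ρ (Nat.card K) (Helper15.finLiftBase ρ ⟨_, ha⟩)
        = Helper15.finLiftPr ρ (Nat.card K) a := rfl
    rw [this, mul_inv_cancel]
  have hkerπ : ¬ p ∣ Nat.card (Helper15.finLiftPr ρ (Nat.card K)).ker := by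
    intro hdiv
    obtain ⟨x, hx⟩ := exists_prime_orderOf_dvd_card' p hdiv
    have h1 := (hL' (x : Helper15.finLift ρ (Nat.card K)) x.2).2
    have h2 : orderOf (x : Helper15.finLift ρ (Nat.card K)) = p := by
      rw [Subgroup.orderOf_coe]
      exact hx
    exact hnd (h2 ▸ orderOf_dvd_of_pow_eq_one h1)
  -- the quotient `Γ = Ĝ ⧸ K₀` and its map onto `G ⧸ K`
  have hK₀ker : (Helper15.finLiftBase ρ).range
      ≤ ((QuotientGroup.mk' K).comp (Helper15.finLiftPr ρ (Nat.card K))).ker := by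
    rintro _ ⟨n, rfl⟩
    rw [MonoidHom.mem_ker]
    show ((Helper15.finLiftPr ρ (Nat.card K) (Helper15.finLiftBase ρ n) : G) : G ⧸ K) = 1
    rw [QuotientGroup.eq_one_iff]
    exact n.2
  set φ : (Helper15.finLift ρ (Nat.card K)) ⧸ (Helper15.finLiftBase ρ).range →* G ⧸ K :=
    QuotientGroup.lift (Helper15.finLiftBase ρ).range
      ((QuotientGroup.mk' K).comp (Helper15.finLiftPr ρ (Nat.card K))) hK₀ker with hφdef
  have hφ : Function.Surjective φ := by
    intro y
    obtain ⟨g, rfl⟩ := QuotientGroup.mk_surjective y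
    obtain ⟨a, rfl⟩ := hπ g
    exact ⟨(a : _ ⧸ (Helper15.finLiftBase ρ).range), rfl⟩
  have hφker : ∀ γ ∈ φ.ker, γ ∈ Subgroup.center _ ∧ γ ^ (d * Nat.card K) = 1 := by
    intro γ hγ
    obtain ⟨a, rfl⟩ := QuotientGroup.mk_surjective γ
    have h1 : Helper15.finLiftPr ρ (Nat.card K) a ∈ K := by
      rw [MonoidHom.mem_ker] at hγ
      have h2 : φ (a : _ ⧸ (Helper15.finLiftBase ρ).range)
          = ((Helper15.finLiftPr ρ (Nat.card K) a : G) : G ⧸ K) := rfl
      rw [h2] at hγ
      exact (QuotientGroup.eq_one_iff _).mp hγ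
    obtain ⟨z, hz, n, hn, rfl⟩ := hL a h1
    have h3 : ((z * n : Helper15.finLift ρ (Nat.card K)) :
        _ ⧸ (Helper15.finLiftBase ρ).range) = (z : _ ⧸ (Helper15.finLiftBase ρ).range) := by
      rw [QuotientGroup.mk_mul, (QuotientGroup.eq_one_iff n).mpr hn, mul_one]
    rw [h3]
    obtain ⟨hzc, hzp⟩ := hL' z hz
    constructor
    · rw [Subgroup.mem_center_iff]
      intro γ'
      obtain ⟨b, rfl⟩ := QuotientGroup.mk_surjective γ'
      rw [← QuotientGroup.mk_mul, ← QuotientGroup.mk_mul, Subgroup.mem_center_iff.mp hzc b]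
    · rw [← QuotientGroup.mk_pow, hzp, QuotientGroup.mk_one]
  have hkerc : φ.ker ≤ Subgroup.center _ := fun γ hγ => (hφker γ hγ).1
  have hkerp : ¬ p ∣ Nat.card φ.ker := by
    intro hdiv
    obtain ⟨x, hx⟩ := exists_prime_orderOf_dvd_card' p hdiv
    have h1 := (hφker (x : _) x.2).2
    have h2 : orderOf (x : (Helper15.finLift ρ (Nat.card K)) ⧸ (Helper15.finLiftBase ρ).range)
        = p := by
      rw [Subgroup.orderOf_coe]
      exact hx
    exact hnd (h2 ▸ orderOf_dvd_of_pow_eq_one h1)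
  obtain ⟨Q, hQn, hQp, hCQ⟩ := fong_exists_normal_pSubgroup φ hφ hkerc hkerp P hP hC
  -- deflation of `β`, `β'`
  obtain ⟨βq, hβq, hβqm⟩ := Helper79.exists_irr_deflation (N := (Helper15.finLiftBase ρ).range)
    β.2 hβK
  obtain ⟨βq', hβq', hβqm'⟩ := Helper79.exists_irr_deflation
    (N := (Helper15.finLiftBase ρ).range) β'.2 hβ'K
  have hcc : ∀ z ∈ φ.ker, βq z * βq' 1 = βq' z * βq 1 := by
    intro γ hγ
    obtain ⟨a, rfl⟩ := QuotientGroup.mk_surjective γ
    have h1 : Helper15.finLiftPr ρ (Nat.card K) a ∈ K := by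
      rw [MonoidHom.mem_ker] at hγ
      have h2 : φ (a : _ ⧸ (Helper15.finLiftBase ρ).range)
          = ((Helper15.finLiftPr ρ (Nat.card K) a : G) : G ⧸ K) := rfl
      rw [h2] at hγ
      exact (QuotientGroup.eq_one_iff _).mp hγ
    obtain ⟨z, hz, n, hn, rfl⟩ := hL a h1
    have e0 : βq (1 : _ ⧸ (Helper15.finLiftBase ρ).range) = β.1 1 := hβqm 1
    have e0' : βq' (1 : _ ⧸ (Helper15.finLiftBase ρ).range) = β'.1 1 := hβqm' 1
    rw [hβqm, hβqm', e0, e0',
      Helper79.isCharacter_mul_of_ker (Helper79.irr_isCharacter β) (hβK n hn) z,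
      Helper79.isCharacter_mul_of_ker (Helper79.irr_isCharacter β') (hβ'K n hn) z]
    have e1 := hβ z
    have e1' := hβ' z
    have e2 := hβ 1
    have e2' := hβ' 1
    rw [hz] at e1 e1'
    rw [map_one] at e2 e2'
    have e3 : β.1 z * (Helper15.finLiftRep ρ (Nat.card K)).character z
        = β.1 1 * (Helper15.finLiftRep ρ (Nat.card K)).character 1 := by
      rw [← e1, ← e2]
    have e3' : β'.1 z * (Helper15.finLiftRep ρ (Nat.card K)).character z
        = β'.1 1 * (Helper15.finLiftRep ρ (Nat.card K)).character 1 := by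
      rw [← e1', ← e2']
    have hσz : (Helper15.finLiftRep ρ (Nat.card K)).character z ≠ 0 := by
      intro h0
      rw [h0, mul_zero, hσ1] at e3
      have hd0 : (d : ℂ) ≠ 0 := by exact_mod_cast hd.ne'
      exact (mul_ne_zero (Helper81.irr_one_ne_zero β) hd0) e3.symm
    have e4 : (β.1 z * β'.1 1 - β'.1 z * β.1 1)
        * (Helper15.finLiftRep ρ (Nat.card K)).character z = 0 := by
      linear_combination (β'.1 1) * e3 - (β.1 1) * e3'
    rcases mul_eq_zero.mp e4 with h5 | h5
    · exact sub_eq_zero.mp h5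
    · exact absurd h5 hσz
  have hSBq : Cfsg.SameBlock M βq βq' :=
    fong_sameBlock_of_central hM Q hQp φ.ker hkerc hkerp hCQ ⟨βq, hβq⟩ ⟨βq', hβq'⟩ hcc
  have hSB : Cfsg.SameBlock M β.1 β'.1 := by
    have h1 := Helper81.sameBlock_comp_mk hM (Helper15.finLiftBase ρ).range hSBq
    have e1 : (fun g : Helper15.finLift ρ (Nat.card K) =>
        βq (g : _ ⧸ (Helper15.finLiftBase ρ).range)) = β.1 := funext hβqm
    have e2 : (fun g : Helper15.finLift ρ (Nat.card K) =>
        βq' (g : _ ⧸ (Helper15.finLiftBase ρ).range)) = β'.1 := funext hβqm'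
    rwa [e1, e2] at h1
  exact fong_sameBlock_transfer hM (Helper15.finLiftPr ρ (Nat.card K)) hπ hkerπ
    (Helper15.finLiftRep ρ (Nat.card K)).character
    (Helper81.irr_isClassFunction ⟨_, hσ⟩) (fun a => Helper81.irr_isIntegral ⟨_, hσ⟩ a)
    d hσ1 hdp χ χ' β β' hβ hβ' hSB

end Cfsg.Agent.Helper79
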