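import Cfsg.Agent.Helper16.Fong
import Cfsg.Agent.Helper3.Frobenius
import Cfsg.Agent.Helper3.Taketa
import Cfsg.Agent.Helper75.CliffordCorr

/-!
# Fong–Reynolds, part 1: the idempotent of a block of a normal subgroup inside its stabilizer

`N ⊴ G`, `N ≤ T ≤ G`, `b` a set of irreducible characters of `N` which is stable under `T`.
`frEps N T b` is the idempotent of `b` seen as a function on `T`; `frCov hNT b` is the set of
irreducible characters of `T` lying over `b`.

* `fr_omega_eps_of_mem`, `fr_omega_eps_of_not_mem`: `Ω_ψ(ε)` is `1` or `0` according as `ψ` lies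
  over `b` or not.
* `fr_cov_inner_zero`: a character of `T` lying over `b` has all its constituents on `N` in `b`.
* `fr_cov_closed`: the characters of `T` over `b` form a union of blocks.
-/

set_option autoImplicit false
set_option linter.unusedSectionVars false
open Cfsg
open scoped ComplexConjugate

namespace Cfsg.Agent.Helper79

universe u

section frgen

variable {H : Type u} [Group H] [Fintype H]

/-- Pairing the idempotent of a set `U` of irreducible characters with a function. -/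
theorem fr_sum_blockCoeff_mul [Fintype (Cfsg.IrrCharacter H)] (U : Set (Cfsg.IrrCharacter H))
    [DecidablePred (· ∈ U)] (f : H → ℂ) :
    ∑ n : H, Cfsg.blockCoeff U n * f n
      = ∑ θ : Cfsg.IrrCharacter H,
          if θ ∈ U then (θ : H → ℂ) 1 * Cfsg.classInner f (θ : H → ℂ) else 0 := by
  classical
  have h1 : ∀ n : H, Cfsg.blockCoeff U n * f n
      = ∑ θ : Cfsg.IrrCharacter H,
          if θ ∈ U then (Nat.card H : ℂ)⁻¹ * ((θ : H → ℂ) 1 * (f n * conj ((θ : H → ℂ) n)))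
          else 0 := by
    intro n
    rw [Cfsg.blockCoeff, finsum_mem_def, finsum_eq_sum_of_fintype, Finset.mul_sum, Finset.sum_mul]
    refine Finset.sum_congr rfl fun θ _ => ?_
    rw [Set.indicator_apply]
    by_cases hθ : θ ∈ U
    · rw [if_pos hθ, if_pos hθ]; ring
    · rw [if_neg hθ, if_neg hθ]; ring
  rw [Finset.sum_congr rfl fun n _ => h1 n, Finset.sum_comm]
  refine Finset.sum_congr rfl fun θ _ => ?_
  by_cases hθ : θ ∈ U
  · simp only [if_pos hθ]
    rw [Cfsg.classInner, ← Finset.mul_sum, ← Finset.mul_sum]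
    ring
  · simp only [if_neg hθ]
    exact Finset.sum_const_zero

end frgen

section fr

variable {G : Type u} [Group G] [Fintype G] {M : Ideal Cfsg.AlgInt}
  (N : Subgroup G) [hN : N.Normal] [Fintype N] (T : Subgroup G) [Fintype T]
  {b : Set (Cfsg.IrrCharacter N)}

theorem fr_irrConj_injective (g : G) : Function.Injective (Helper16.irrConj N g) := by
  intro θ θ' h
  apply Subtype.ext
  have h1 : (Helper16.irrConj N g⁻¹ (Helper16.irrConj N g θ) : N → ℂ)
      = (Helper16.irrConj N g⁻¹ (Helper16.irrConj N g θ') : N → ℂ) := by rw [h]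
  rw [Helper16.irrConj_irrConj, Helper16.irrConj_irrConj, inv_mul_cancel, Helper16.irrConj_one,
    Helper16.irrConj_one] at h1
  exact h1

/-- The idempotent of `U` at a conjugate element is the idempotent of the conjugate set. -/
theorem fr_blockCoeff_image (g : G) (U : Set (Cfsg.IrrCharacter N)) (k : N) :
    Cfsg.blockCoeff U ⟨g⁻¹ * (k : G) * g, by
      have := hN.conj_mem k k.2 g⁻¹
      rwa [inv_inv] at this⟩ = Cfsg.blockCoeff (Helper16.irrConj N g '' U) k := by
  unfold Cfsg.blockCoeff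
  congr 1
  rw [finsum_mem_image (fun θ _ θ' _ h => fr_irrConj_injective N g h)]
  refine finsum_mem_congr rfl fun θ _ => ?_
  rw [Helper16.irrConj_apply, Helper16.irrConj_apply]
  congr 1
  refine congrArg (θ : N → ℂ) (Subtype.ext ?_)
  simp

theorem fr_image_eq_of_stable (g : G) (h1 : ∀ θ ∈ b, Helper16.irrConj N g θ ∈ b)
    (h2 : ∀ θ ∈ b, Helper16.irrConj N g⁻¹ θ ∈ b) : Helper16.irrConj N g '' b = b := by
  apply Set.Subset.antisymm
  · rintro _ ⟨θ, hθ, rfl⟩
    exact h1 θ hθ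
  · intro θ hθ
    refine ⟨Helper16.irrConj N g⁻¹ θ, h2 θ hθ, ?_⟩
    apply Subtype.ext
    rw [Helper16.irrConj_irrConj, mul_inv_cancel, Helper16.irrConj_one]

/-- The idempotent of a `T`-stable set is invariant under conjugation by `T`. -/
theorem fr_blockCoeff_conj_of_mem (hst : ∀ t ∈ T, ∀ θ ∈ b, Helper16.irrConj N t θ ∈ b)
    {t : G} (ht : t ∈ T) (k : N) :
    Cfsg.blockCoeff b ⟨t * (k : G) * t⁻¹, hN.conj_mem k k.2 t⟩ = Cfsg.blockCoeff b k := by
  have h := fr_blockCoeff_image N t⁻¹ b k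
  rw [fr_image_eq_of_stable N t⁻¹ (hst t⁻¹ (T.inv_mem ht))
    (by rw [inv_inv]; exact hst t ht)] at h
  rw [← h]
  congr 1
  apply Subtype.ext
  simp

/-- The idempotent of `b`, extended by zero and restricted to `T`. -/
noncomputable def frEps (N : Subgroup G) [Fintype N] (T : Subgroup G)
    (b : Set (Cfsg.IrrCharacter N)) : T → ℂ :=
  fun t => Helper16.ext0 N (Cfsg.blockCoeff b) (t : G)

theorem fr_eps_isClassFunction (hst : ∀ t ∈ T, ∀ θ ∈ b, Helper16.irrConj N t θ ∈ b) :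
    Cfsg.IsClassFunction T (frEps N T b) := by
  intro t h
  show Helper16.ext0 N (Cfsg.blockCoeff b) ((h : G) * (t : G) * (h : G)⁻¹)
    = Helper16.ext0 N (Cfsg.blockCoeff b) (t : G)
  by_cases ht : (t : G) ∈ N
  · rw [Helper16.ext0_apply_mem N _ ht, Helper16.ext0_apply_mem N _ (hN.conj_mem _ ht h)]
    exact fr_blockCoeff_conj_of_mem N T hst h.2 ⟨(t : G), ht⟩
  · have ht' : (h : G) * (t : G) * (h : G)⁻¹ ∉ N := by
      intro hc
      apply ht
      have := hN.conj_mem _ hc (h : G)⁻¹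
      have e : (h : G)⁻¹ * ((h : G) * (t : G) * (h : G)⁻¹) * (h : G)⁻¹⁻¹ = (t : G) := by group
      rwa [e] at this
    rw [Helper16.ext0_apply_not_mem N _ ht, Helper16.ext0_apply_not_mem N _ ht']

theorem fr_eps_memLocalRing (hM : M.IsMaximal) (hb : Cfsg.IsPBlock M b) (t : T) :
    Cfsg.MemLocalRing M (frEps N T b t) :=
  Helper16.ext0_memLocalRing hM N (fun k => Helper77.blockCoeff_memLocalRing hM hb k) _

/-- The idempotent of `b` is an idempotent of the group algebra of `T`. -/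
theorem fr_eps_conv (hNT : N ≤ T) :
    Helper81.conv (frEps N T b) (frEps N T b) = frEps N T b := by
  classical
  funext t
  have h1 : Helper81.conv (frEps N T b) (frEps N T b) t
      = ∑ x : T, (fun g : G => Helper16.ext0 N (Cfsg.blockCoeff b) g
          * Helper16.ext0 N (Cfsg.blockCoeff b) (g⁻¹ * (t : G))) x := rfl
  rw [h1, Helper76.sum_subgroup_of_support T (fun g : G => Helper16.ext0 N (Cfsg.blockCoeff b) g
          * Helper16.ext0 N (Cfsg.blockCoeff b) (g⁻¹ * (t : G)))]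
  · have h2 := congrFun (Helper16.conv_ext0 N (Cfsg.blockCoeff b) (Cfsg.blockCoeff b)) (t : G)
    rw [Helper77.conv_blockCoeff] at h2
    exact h2
  · intro g hg
    have : g ∉ N := fun h => hg (hNT h)
    simp only [Helper16.ext0_apply_not_mem N _ this, zero_mul]

/-- `Ω_ψ` of the idempotent of `b` in terms of the restriction of `ψ` to `N`. -/
theorem fr_omega_eps (hNT : N ≤ T) (ψ : T → ℂ) :
    Helper81.omega ψ (frEps N T b)
      = (∑ n : N, Cfsg.blockCoeff b n * ψ ⟨(n : G), hNT n.2⟩) / ψ 1 := by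
  classical
  rw [Helper81.omega]
  congr 1
  have h1 : ∑ t : T, frEps N T b t * ψ t
      = ∑ t : T, (fun g : G => Helper16.ext0 N (Cfsg.blockCoeff b) g * Helper16.ext0 T ψ g) t := by
    refine Finset.sum_congr rfl fun t _ => ?_
    show _ = Helper16.ext0 N (Cfsg.blockCoeff b) (t : G) * Helper16.ext0 T ψ (t : G)
    rw [Helper16.ext0_apply_coe]
    rfl
  rw [h1, Helper76.sum_subgroup_of_support T
    (fun g : G => Helper16.ext0 N (Cfsg.blockCoeff b) g * Helper16.ext0 T ψ g)]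
  · rw [Helper16.sum_ext0_mul N]
    refine Finset.sum_congr rfl fun n _ => ?_
    rw [Helper16.ext0_apply_mem T ψ (hNT n.2)]
  · intro g hg
    have : g ∉ N := fun h => hg (hNT h)
    simp only [Helper16.ext0_apply_not_mem N _ this, zero_mul]

theorem fr_omega_eps_zero_or_one (hNT : N ≤ T) (hcl : Cfsg.IsClassFunction T (frEps N T b))
    (ψ : Cfsg.IrrCharacter T) :
    Helper81.omega (ψ : T → ℂ) (frEps N T b) = 0 ∨ Helper81.omega (ψ : T → ℂ) (frEps N T b) = 1 := by
  have h := Helper81.omega_conv ψ hcl hcl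
  rw [fr_eps_conv N T hNT] at h
  have h2 : Helper81.omega (ψ : T → ℂ) (frEps N T b)
      * (Helper81.omega (ψ : T → ℂ) (frEps N T b) - 1) = 0 := by
    rw [mul_sub, ← h]; ring
  rcases mul_eq_zero.mp h2 with h3 | h3
  · exact Or.inl h3
  · exact Or.inr (sub_eq_zero.mp h3)

/-- The irreducible characters of `T` lying over `b`. -/
def frCov (hNT : N ≤ T) (b : Set (Cfsg.IrrCharacter N)) : Set (Cfsg.IrrCharacter T) :=
  {ψ | ∃ θ ∈ b, Cfsg.classInner (fun n : N => (ψ : T → ℂ) ⟨(n : G), hNT n.2⟩) (θ : N → ℂ) ≠ 0}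

/-- Multiplicities of the irreducible characters of `N` in the restriction of a character of
`T`, and the degree formula. -/
theorem fr_res_decomp (hNT : N ≤ T) {ψ : T → ℂ} (hψ : Cfsg.IsCharacter T ψ)
    [Fintype (Cfsg.IrrCharacter N)] :
    ∃ m : Cfsg.IrrCharacter N → ℕ,
      (∀ θ : Cfsg.IrrCharacter N,
        Cfsg.classInner (fun n : N => ψ ⟨(n : G), hNT n.2⟩) (θ : N → ℂ) = (m θ : ℂ)) ∧
      ψ 1 = ((∑ θ : Cfsg.IrrCharacter N, m θ * Cfsg.charDegree (θ : N → ℂ) : ℕ) : ℂ) := by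
  classical
  have hchar : Cfsg.IsCharacter N (fun n : N => ψ ⟨(n : G), hNT n.2⟩) :=
    Helper75.isCharacter_resTo hNT hψ
  choose m hm using fun θ : Cfsg.IrrCharacter N =>
    Helper3.classInner_isCharacter_nat hchar (Helper15.isChar_of_irr θ.2)
  refine ⟨m, hm, ?_⟩
  have h := congrFun (Helper15.classFun_eq_sum (isCharacter_isClassFunction hchar)) 1
  rw [Finset.sum_apply] at h
  have h1 : ψ 1 = ψ ⟨((1 : N) : G), hNT (1 : N).2⟩ := rfl
  rw [h1, h]
  push_cast
  refine Finset.sum_congr rfl fun θ _ => ?_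
  rw [Pi.smul_apply, smul_eq_mul, hm, Helper81.irr_one_eq_charDegree]

/-- The pairing of the idempotent of `U` with the restriction of a character of `T`. -/
theorem fr_D_eq (hNT : N ≤ T) {ψ : T → ℂ} [Fintype (Cfsg.IrrCharacter N)]
    (m : Cfsg.IrrCharacter N → ℕ)
    (hm : ∀ θ : Cfsg.IrrCharacter N,
        Cfsg.classInner (fun n : N => ψ ⟨(n : G), hNT n.2⟩) (θ : N → ℂ) = (m θ : ℂ))
    (U : Set (Cfsg.IrrCharacter N)) [DecidablePred (· ∈ U)] :
    ∑ n : N, Cfsg.blockCoeff U n * ψ ⟨(n : G), hNT n.2⟩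
      = ((∑ θ : Cfsg.IrrCharacter N,
          if θ ∈ U then m θ * Cfsg.charDegree (θ : N → ℂ) else 0 : ℕ) : ℂ) := by
  rw [fr_sum_blockCoeff_mul U (fun n : N => ψ ⟨(n : G), hNT n.2⟩)]
  push_cast
  refine Finset.sum_congr rfl fun θ _ => ?_
  by_cases hθ : θ ∈ U
  · rw [if_pos hθ, if_pos hθ, hm, Helper81.irr_one_eq_charDegree]; ring
  · rw [if_neg hθ, if_neg hθ]

/-- `Ω_ψ(ε) = 1` for `ψ` lying over `b`. -/
theorem fr_omega_eps_of_mem (hNT : N ≤ T)
    (hst : ∀ t ∈ T, ∀ θ ∈ b, Helper16.irrConj N t θ ∈ b) {ψ : Cfsg.IrrCharacter T}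
    (hψ : ψ ∈ frCov N T hNT b) : Helper81.omega (ψ : T → ℂ) (frEps N T b) = 1 := by
  classical
  have := Fintype.ofFinite (Cfsg.IrrCharacter N)
  rcases fr_omega_eps_zero_or_one N T hNT (fr_eps_isClassFunction N T hst) ψ with h0 | h1
  · exfalso
    obtain ⟨θ₀, hθ₀, hne⟩ := hψ
    obtain ⟨m, hm, -⟩ := fr_res_decomp N T hNT (Helper15.isChar_of_irr ψ.2)
    rw [fr_omega_eps N T hNT, div_eq_zero_iff] at h0
    rcases h0 with h0 | h0
    · rw [fr_D_eq N T hNT m hm b] at h0
      have h2 : (∑ θ : Cfsg.IrrCharacter N,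
          if θ ∈ b then m θ * Cfsg.charDegree (θ : N → ℂ) else 0) = 0 := by exact_mod_cast h0
      have h3 := (Finset.sum_eq_zero_iff.mp h2) θ₀ (Finset.mem_univ _)
      rw [if_pos hθ₀] at h3
      rcases Nat.mul_eq_zero.mp h3 with h4 | h4
      · apply hne
        rw [hm, h4, Nat.cast_zero]
      · exact (Helper81.charDegree_pos θ₀).ne' h4
    · exact Helper81.irr_one_ne_zero ψ h0
  · exact h1

/-- `Ω_ψ(ε) = 0` for `ψ` not lying over `b`. -/
theorem fr_omega_eps_of_not_mem (hNT : N ≤ T) {ψ : Cfsg.IrrCharacter T}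
    (hψ : ψ ∉ frCov N T hNT b) : Helper81.omega (ψ : T → ℂ) (frEps N T b) = 0 := by
  classical
  have := Fintype.ofFinite (Cfsg.IrrCharacter N)
  rw [fr_omega_eps N T hNT, fr_sum_blockCoeff_mul b (fun n : N => (ψ : T → ℂ) ⟨(n : G), hNT n.2⟩),
    Finset.sum_eq_zero, zero_div]
  intro θ _
  by_cases hθ : θ ∈ b
  · rw [if_pos hθ]
    have : Cfsg.classInner (fun n : N => (ψ : T → ℂ) ⟨(n : G), hNT n.2⟩) (θ : N → ℂ) = 0 := by
      by_contra hne
      exact hψ ⟨θ, hθ, hne⟩
    rw [this, mul_zero]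
  · rw [if_neg hθ]

/-- A character of `T` lying over `b` has all its constituents on `N` in `b`. -/
theorem fr_cov_inner_zero (hNT : N ≤ T)
    (hst : ∀ t ∈ T, ∀ θ ∈ b, Helper16.irrConj N t θ ∈ b) {ψ : Cfsg.IrrCharacter T}
    (hψ : ψ ∈ frCov N T hNT b) {θ' : Cfsg.IrrCharacter N} (hθ' : θ' ∉ b) :
    Cfsg.classInner (fun n : N => (ψ : T → ℂ) ⟨(n : G), hNT n.2⟩) (θ' : N → ℂ) = 0 := by
  classical
  have := Fintype.ofFinite (Cfsg.IrrCharacter N)
  obtain ⟨m, hm, hdeg⟩ := fr_res_decomp N T hNT (Helper15.isChar_of_irr ψ.2)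
  have h1 := fr_omega_eps_of_mem N T hNT hst hψ
  rw [fr_omega_eps N T hNT, div_eq_one_iff_eq (Helper81.irr_one_ne_zero ψ),
    fr_D_eq N T hNT m hm b, hdeg] at h1
  have h2 : (∑ θ : Cfsg.IrrCharacter N,
      if θ ∈ b then m θ * Cfsg.charDegree (θ : N → ℂ) else 0)
      = ∑ θ : Cfsg.IrrCharacter N, m θ * Cfsg.charDegree (θ : N → ℂ) := by exact_mod_cast h1
  have h3 : ∑ θ : Cfsg.IrrCharacter N, m θ * Cfsg.charDegree (θ : N → ℂ)
      = (∑ θ : Cfsg.IrrCharacter N,
          if θ ∈ b then m θ * Cfsg.charDegree (θ : N → ℂ) else 0)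
        + ∑ θ : Cfsg.IrrCharacter N,
          if θ ∈ b then 0 else m θ * Cfsg.charDegree (θ : N → ℂ) := by
    rw [← Finset.sum_add_distrib]
    refine Finset.sum_congr rfl fun θ _ => ?_
    by_cases hθ : θ ∈ b
    · rw [if_pos hθ, if_pos hθ, add_zero]
    · rw [if_neg hθ, if_neg hθ, zero_add]
  have h4 : (∑ θ : Cfsg.IrrCharacter N,
      if θ ∈ b then 0 else m θ * Cfsg.charDegree (θ : N → ℂ)) = 0 := by omega
  have h5 := (Finset.sum_eq_zero_iff.mp h4) θ' (Finset.mem_univ _)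
  rw [if_neg hθ'] at h5
  rcases Nat.mul_eq_zero.mp h5 with h6 | h6
  · rw [hm, h6, Nat.cast_zero]
  · exact absurd h6 (Helper81.charDegree_pos θ').ne'

/-- The characters of `T` lying over the `T`-stable block `b` form a union of blocks. -/
theorem fr_cov_closed (hM : M.IsMaximal) (hb : Cfsg.IsPBlock M b) (hNT : N ≤ T)
    (hst : ∀ t ∈ T, ∀ θ ∈ b, Helper16.irrConj N t θ ∈ b) {ψ ψ' : Cfsg.IrrCharacter T}
    (hψ : ψ ∈ frCov N T hNT b) (h : Cfsg.SameBlock M (ψ : T → ℂ) (ψ' : T → ℂ)) :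
    ψ' ∈ frCov N T hNT b := by
  by_contra hψ'
  have h1 := Helper16.omega_sub_memLocalIdeal hM ψ ψ' h (fr_eps_isClassFunction N T hst)
    (fr_eps_memLocalRing N T hM hb)
  rw [fr_omega_eps_of_mem N T hNT hst hψ, fr_omega_eps_of_not_mem N T hNT hψ', sub_zero] at h1
  exact Helper77.not_memLocalIdeal_one hM h1

end fr

end Cfsg.Agent.Helper79
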