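import Cfsg.Agent.Helper79.FongReynolds
import Cfsg.Agent.Helper15.Gallagher

/-!
# Fong–Reynolds, part 2: the Clifford correspondence over the stabilizer of a block

`N ⊴ G`, `N ≤ T ≤ G`, `b` a set of irreducible characters of `N`, stable under `T` and moved off
itself by every element outside `T`.  Induction `ψ ↦ ψ^G` is a bijection from the irreducible
characters of `T` over `b` onto the irreducible characters of `G` over `b`.

* `fr_ind_count`: `[ (ψ^G)|_T, ψ ] = 1` and `[ (ψ^G)|_T, ψ' ] = 0` for `ψ' ≠ ψ` over `b`.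
* `fr_ind_irr`: `ψ^G` is irreducible.
* `fr_ind_injective`, `fr_exists_ind`: injectivity and surjectivity.
-/

set_option autoImplicit false
set_option linter.unusedSectionVars false
open Cfsg
open scoped ComplexConjugate

namespace Cfsg.Agent.Helper79

universe u

section fr2

variable {G : Type u} [Group G] [Fintype G] {M : Ideal Cfsg.AlgInt}
  (N : Subgroup G) [hN : N.Normal] [Fintype N] (T : Subgroup G) [Fintype T]
  {b : Set (Cfsg.IrrCharacter N)}

/-- For `x ∉ T`, the conjugate idempotent pairs to zero with a character of `T` over `b`. -/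
theorem fr_D_conj (hNT : N ≤ T)
    (hst : ∀ t ∈ T, ∀ θ ∈ b, Helper16.irrConj N t θ ∈ b)
    (hdis : ∀ x : G, x ∉ T → ∀ θ ∈ b, Helper16.irrConj N x θ ∉ b)
    {ψ : Cfsg.IrrCharacter T} (hψ : ψ ∈ frCov N T hNT b) {x : G} (hx : x ∉ T) :
    ∑ n : N, Cfsg.blockCoeff b ⟨x * (n : G) * x⁻¹, hN.conj_mem n n.2 x⟩
      * (ψ : T → ℂ) ⟨(n : G), hNT n.2⟩ = 0 := by
  classical
  have := Fintype.ofFinite (Cfsg.IrrCharacter N)
  have h1 : ∀ n : N, Cfsg.blockCoeff b ⟨x * (n : G) * x⁻¹, hN.conj_mem n n.2 x⟩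
      = Cfsg.blockCoeff (Helper16.irrConj N x⁻¹ '' b) n := by
    intro n
    rw [← fr_blockCoeff_image N x⁻¹ b n]
    congr 1
    apply Subtype.ext
    simp
  rw [Finset.sum_congr rfl fun n _ => by rw [h1 n]]
  rw [fr_sum_blockCoeff_mul (Helper16.irrConj N x⁻¹ '' b)
    (fun n : N => (ψ : T → ℂ) ⟨(n : G), hNT n.2⟩)]
  refine Finset.sum_eq_zero fun θ _ => ?_
  by_cases hθ : θ ∈ Helper16.irrConj N x⁻¹ '' b
  · rw [if_pos hθ]
    obtain ⟨θ₁, hθ₁, rfl⟩ := hθ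
    have hx' : x⁻¹ ∉ T := fun h => hx (by simpa using T.inv_mem h)
    rw [fr_cov_inner_zero N T hNT hst hψ (hdis x⁻¹ hx' θ₁ hθ₁), mul_zero]
  · rw [if_neg hθ]

/-- The `b`-part of the restriction to `N` of `ψ^G` has degree `ψ(1)`. -/
theorem fr_D_ind (hNT : N ≤ T)
    (hst : ∀ t ∈ T, ∀ θ ∈ b, Helper16.irrConj N t θ ∈ b)
    (hdis : ∀ x : G, x ∉ T → ∀ θ ∈ b, Helper16.irrConj N x θ ∉ b)
    {ψ : Cfsg.IrrCharacter T} (hψ : ψ ∈ frCov N T hNT b) :
    ∑ n : N, Cfsg.blockCoeff b n * Cfsg.indFun T (ψ : T → ℂ) (n : G) = (ψ : T → ℂ) 1 := by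
  classical
  have hT0 : (Nat.card T : ℂ) ≠ 0 := by exact_mod_cast Nat.card_pos.ne'
  have hD : ∑ n : N, Cfsg.blockCoeff b n * (ψ : T → ℂ) ⟨(n : G), hNT n.2⟩ = (ψ : T → ℂ) 1 := by
    have h := fr_omega_eps_of_mem N T hNT hst hψ
    rw [fr_omega_eps N T hNT, div_eq_one_iff_eq (Helper81.irr_one_ne_zero ψ)] at h
    exact h
  have h1 : ∀ x : G,
      ∑ n : N, Cfsg.blockCoeff b n * Cfsg.extendByZero T (ψ : T → ℂ) (x⁻¹ * (n : G) * x)
      = if x ∈ T then (ψ : T → ℂ) 1 else 0 := by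
    intro x
    rw [← Equiv.sum_comp (MulAut.conjNormal x : N ≃* N).toEquiv]
    have h2 : ∀ m : N, Cfsg.blockCoeff b ((MulAut.conjNormal x : N ≃* N).toEquiv m)
        * Cfsg.extendByZero T (ψ : T → ℂ)
            (x⁻¹ * (((MulAut.conjNormal x : N ≃* N).toEquiv m : N) : G) * x)
        = Cfsg.blockCoeff b ⟨x * (m : G) * x⁻¹, hN.conj_mem m m.2 x⟩
            * (ψ : T → ℂ) ⟨(m : G), hNT m.2⟩ := by
      intro m
      have e1 : ((MulAut.conjNormal x : N ≃* N).toEquiv m)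
          = ⟨x * (m : G) * x⁻¹, hN.conj_mem m m.2 x⟩ :=
        Subtype.ext (MulAut.conjNormal_apply x m)
      rw [e1]
      have e2 : x⁻¹ * (x * (m : G) * x⁻¹) * x = (m : G) := by group
      rw [e2, Helper3.extendByZero_of_mem T _ (hNT m.2)]
    rw [Finset.sum_congr rfl fun m _ => h2 m]
    by_cases hx : x ∈ T
    · rw [if_pos hx, ← hD]
      refine Finset.sum_congr rfl fun m _ => ?_
      rw [fr_blockCoeff_conj_of_mem N T hst hx m]
    · rw [if_neg hx]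
      exact fr_D_conj N T hNT hst hdis hψ hx
  unfold Cfsg.indFun
  have h3 : ∀ n : N, Cfsg.blockCoeff b n * ((Nat.card T : ℂ)⁻¹
        * ∑ x : G, Cfsg.extendByZero T (ψ : T → ℂ) (x⁻¹ * (n : G) * x))
      = (Nat.card T : ℂ)⁻¹ * ∑ x : G, Cfsg.blockCoeff b n
        * Cfsg.extendByZero T (ψ : T → ℂ) (x⁻¹ * (n : G) * x) := by
    intro n
    rw [Finset.mul_sum, Finset.mul_sum, Finset.mul_sum]
    refine Finset.sum_congr rfl fun x _ => ?_
    ring
  rw [Finset.sum_congr rfl fun n _ => h3 n, ← Finset.mul_sum, Finset.sum_comm,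
    Finset.sum_congr rfl fun x _ => h1 x]
  rw [← Helper76.sum_subgroup_of_support T (fun x : G => if x ∈ T then (ψ : T → ℂ) 1 else 0)
    (fun g hg => if_neg hg)]
  have h4 : ∀ t : T, (fun x : G => if x ∈ T then (ψ : T → ℂ) 1 else 0) (t : G)
      = (ψ : T → ℂ) 1 := fun t => if_pos t.2
  rw [Finset.sum_congr rfl fun t _ => h4 t, Finset.sum_const, Finset.card_univ, nsmul_eq_mul,
    ← Nat.card_eq_fintype_card, ← mul_assoc, inv_mul_cancel₀ hT0, one_mul]

/-- **Clifford correspondence, counting form.** -/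
theorem fr_ind_count (hNT : N ≤ T)
    (hst : ∀ t ∈ T, ∀ θ ∈ b, Helper16.irrConj N t θ ∈ b)
    (hdis : ∀ x : G, x ∉ T → ∀ θ ∈ b, Helper16.irrConj N x θ ∉ b)
    {ψ : Cfsg.IrrCharacter T} (hψ : ψ ∈ frCov N T hNT b) :
    Cfsg.classInner (fun t : T => Cfsg.indFun T (ψ : T → ℂ) (t : G)) (ψ : T → ℂ) = 1 ∧
    ∀ ψ' ∈ frCov N T hNT b, ψ' ≠ ψ →
      Cfsg.classInner (fun t : T => Cfsg.indFun T (ψ : T → ℂ) (t : G)) (ψ' : T → ℂ) = 0 := by
  classical
  have := Fintype.ofFinite (Cfsg.IrrCharacter T)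
  have hΦ : Cfsg.IsCharacter T (fun t : T => Cfsg.indFun T (ψ : T → ℂ) (t : G)) :=
    isCharacter_restrict (Helper3.isCharacter_indFun T _ (Helper15.isChar_of_irr ψ.2)) T
  choose k hk using fun ψ' : Cfsg.IrrCharacter T =>
    Helper3.classInner_isCharacter_nat hΦ (Helper15.isChar_of_irr ψ'.2)
  have hdec := Helper15.classFun_eq_sum (isCharacter_isClassFunction hΦ)
  have hD1 := fr_D_ind N T hNT hst hdis hψ
  have hD2 : ∑ n : N, Cfsg.blockCoeff b n * Cfsg.indFun T (ψ : T → ℂ) (n : G)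
      = ((∑ ψ' : Cfsg.IrrCharacter T, k ψ' *
          (if ψ' ∈ frCov N T hNT b then Cfsg.charDegree (ψ' : T → ℂ) else 0) : ℕ) : ℂ) := by
    have h1 : ∀ n : N, Cfsg.indFun T (ψ : T → ℂ) (n : G)
        = ∑ ψ' : Cfsg.IrrCharacter T, (k ψ' : ℂ) * (ψ' : T → ℂ) ⟨(n : G), hNT n.2⟩ := by
      intro n
      have h2 := congrFun hdec ⟨(n : G), hNT n.2⟩
      rw [Finset.sum_apply] at h2
      refine h2.trans ?_
      refine Finset.sum_congr rfl fun ψ' _ => ?_
      rw [Pi.smul_apply, smul_eq_mul, hk]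
    rw [Finset.sum_congr rfl fun n _ => by rw [h1 n, Finset.mul_sum], Finset.sum_comm]
    push_cast
    refine Finset.sum_congr rfl fun ψ' _ => ?_
    have h3 : ∑ n : N, Cfsg.blockCoeff b n * ((k ψ' : ℂ) * (ψ' : T → ℂ) ⟨(n : G), hNT n.2⟩)
        = (k ψ' : ℂ) * ∑ n : N, Cfsg.blockCoeff b n * (ψ' : T → ℂ) ⟨(n : G), hNT n.2⟩ := by
      rw [Finset.mul_sum]
      refine Finset.sum_congr rfl fun n _ => ?_
      ring
    rw [h3]
    congr 1
    have h4 := fr_omega_eps N T hNT (b := b) (ψ' : T → ℂ)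
    by_cases hψ' : ψ' ∈ frCov N T hNT b
    · rw [if_pos hψ']
      rw [fr_omega_eps_of_mem N T hNT hst hψ', eq_comm,
        div_eq_one_iff_eq (Helper81.irr_one_ne_zero ψ')] at h4
      rw [h4, Helper81.irr_one_eq_charDegree]
    · rw [if_neg hψ']
      rw [fr_omega_eps_of_not_mem N T hNT hψ', eq_comm, div_eq_zero_iff] at h4
      rcases h4 with h4 | h4
      · rw [h4]
      · exact absurd h4 (Helper81.irr_one_ne_zero ψ')
  rw [hD2, Helper81.irr_one_eq_charDegree] at hD1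
  have hN1 : ∑ ψ' : Cfsg.IrrCharacter T, k ψ' *
      (if ψ' ∈ frCov N T hNT b then Cfsg.charDegree (ψ' : T → ℂ) else 0)
      = Cfsg.charDegree (ψ : T → ℂ) := by exact_mod_cast hD1
  have hkψ : k ψ ≠ 0 := by
    intro h0
    have h5 : Cfsg.classInner (Cfsg.indFun T (ψ : T → ℂ)) (Cfsg.indFun T (ψ : T → ℂ)) = 0 := by
      rw [Helper3.frobenius_reciprocity T _ _ (Helper3.indFun_isClassFunction T _),
        Helper15.classInner_conj_symm, hk, h0]
      simp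
    have h6 := congrFun (Helper15.classInner_self_eq_zero h5) 1
    rw [Helper3.indFun_apply_one] at h6
    have hidx : (T.index : ℂ) ≠ 0 := by
      exact_mod_cast (Subgroup.index_ne_zero_of_finite (H := T))
    exact mul_ne_zero hidx (Helper81.irr_one_ne_zero ψ) h6
  have hpos := Helper81.charDegree_pos ψ
  rw [← Finset.add_sum_erase Finset.univ _ (Finset.mem_univ ψ), if_pos hψ] at hN1
  have hle : k ψ * Cfsg.charDegree (ψ : T → ℂ) ≤ 1 * Cfsg.charDegree (ψ : T → ℂ) := by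
    rw [one_mul]; exact Nat.le.intro hN1
  have hk1 : k ψ = 1 := by
    have := Nat.le_of_mul_le_mul_right hle hpos
    omega
  rw [hk1, one_mul] at hN1
  have hR : ∑ ψ' ∈ Finset.univ.erase ψ, k ψ' *
      (if ψ' ∈ frCov N T hNT b then Cfsg.charDegree (ψ' : T → ℂ) else 0) = 0 := by omega
  refine ⟨by rw [hk, hk1, Nat.cast_one], ?_⟩
  intro ψ' hψ' hne
  have h7 := (Finset.sum_eq_zero_iff.mp hR) ψ' (Finset.mem_erase.mpr ⟨hne, Finset.mem_univ _⟩)
  rw [if_pos hψ'] at h7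
  rcases Nat.mul_eq_zero.mp h7 with h8 | h8
  · rw [hk, h8, Nat.cast_zero]
  · exact absurd h8 (Helper81.charDegree_pos ψ').ne'

/-- A character of `T` over `b` induces irreducibly to `G`. -/
theorem fr_ind_irr (hNT : N ≤ T)
    (hst : ∀ t ∈ T, ∀ θ ∈ b, Helper16.irrConj N t θ ∈ b)
    (hdis : ∀ x : G, x ∉ T → ∀ θ ∈ b, Helper16.irrConj N x θ ∉ b)
    {ψ : Cfsg.IrrCharacter T} (hψ : ψ ∈ frCov N T hNT b) :
    Cfsg.IsIrrCharacter G (Cfsg.indFun T (ψ : T → ℂ)) := by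
  apply Helper3.isIrrCharacter_of_norm_one _
    (Helper3.isCharacter_indFun T _ (Helper15.isChar_of_irr ψ.2))
  rw [Helper3.frobenius_reciprocity T _ _ (Helper3.indFun_isClassFunction T _),
    Helper15.classInner_conj_symm, (fr_ind_count N T hNT hst hdis hψ).1]
  simp

/-- Induction is injective on the characters of `T` over `b`. -/
theorem fr_ind_injective (hNT : N ≤ T)
    (hst : ∀ t ∈ T, ∀ θ ∈ b, Helper16.irrConj N t θ ∈ b)
    (hdis : ∀ x : G, x ∉ T → ∀ θ ∈ b, Helper16.irrConj N x θ ∉ b)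
    {ψ ψ' : Cfsg.IrrCharacter T} (hψ : ψ ∈ frCov N T hNT b) (hψ' : ψ' ∈ frCov N T hNT b)
    (h : Cfsg.indFun T (ψ : T → ℂ) = Cfsg.indFun T (ψ' : T → ℂ)) : ψ = ψ' := by
  by_contra hne
  have h1 := (fr_ind_count N T hNT hst hdis hψ).2 ψ' hψ' (fun h => hne h.symm)
  rw [h, (fr_ind_count N T hNT hst hdis hψ').1] at h1
  exact one_ne_zero h1

/-- Every irreducible character of `G` over `b` is induced from a character of `T` over `b`. -/
theorem fr_exists_ind (hNT : N ≤ T)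
    (hst : ∀ t ∈ T, ∀ θ ∈ b, Helper16.irrConj N t θ ∈ b)
    (hdis : ∀ x : G, x ∉ T → ∀ θ ∈ b, Helper16.irrConj N x θ ∉ b)
    (χ : Cfsg.IrrCharacter G) {θ : Cfsg.IrrCharacter N} (hθ : θ ∈ b)
    (hχ : Cfsg.classInner (fun n : N => (χ : G → ℂ) n) (θ : N → ℂ) ≠ 0) :
    ∃ ψ ∈ frCov N T hNT b, (χ : G → ℂ) = Cfsg.indFun T (ψ : T → ℂ) := by
  classical
  have := Fintype.ofFinite (Cfsg.IrrCharacter T)
  have hcl : Cfsg.IsClassFunction T (fun t : T => (χ : G → ℂ) t) :=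
    Helper16.isClassFunction_res (Helper81.irr_isClassFunction χ) T
  have hdec := Helper15.classFun_eq_sum hcl
  have h1 : (fun n : N => (χ : G → ℂ) n) = ∑ ψ' : Cfsg.IrrCharacter T,
      Cfsg.classInner (fun t : T => (χ : G → ℂ) t) (ψ' : T → ℂ)
        • (fun n : N => (ψ' : T → ℂ) ⟨(n : G), hNT n.2⟩) := by
    funext n
    have h2 := congrFun hdec ⟨(n : G), hNT n.2⟩
    rw [Finset.sum_apply] at h2 ⊢
    exact h2
  rw [h1, Helper15.classInner_sum_left] at hχ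
  obtain ⟨ψ', -, hψ'⟩ := Finset.exists_ne_zero_of_sum_ne_zero hχ
  rw [Helper15.classInner_smul_left] at hψ'
  have ha : Cfsg.classInner (fun t : T => (χ : G → ℂ) t) (ψ' : T → ℂ) ≠ 0 :=
    left_ne_zero_of_mul hψ'
  have hb' : Cfsg.classInner (fun n : N => (ψ' : T → ℂ) ⟨(n : G), hNT n.2⟩) (θ : N → ℂ) ≠ 0 :=
    right_ne_zero_of_mul hψ'
  have hcov : ψ' ∈ frCov N T hNT b := ⟨θ, hθ, hb'⟩
  refine ⟨ψ', hcov, ?_⟩
  by_contra hne
  have h3 := Helper15.irr_inner_ne (fr_ind_irr N T hNT hst hdis hcov) χ.2 (fun h => hne h.symm)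
  rw [Helper3.frobenius_reciprocity T _ _ (Helper81.irr_isClassFunction χ),
    Helper15.classInner_conj_symm] at h3
  exact ha ((map_eq_zero _).mp h3)

end fr2

end Cfsg.Agent.Helper79
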