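import Cfsg.Agent.Helper79.FongReynolds2

/-!
# Fong–Reynolds, part 3: blocks

`N ⊴ G`, `N ≤ T ≤ G`, `b` a block of `N` whose stabilizer is `T`.

* `fr_omega_ind`: `Ω_{ψ^G}(Tr_T^G(z ε)) = Ω_ψ(z)` for `ψ` over `b`.
* `fr_sameBlock_ind`: induction maps a block of `T` into a block of `G` (any subgroup `T`).
* `fr_sameBlock_of_ind`: if `ψ₁^G` and `ψ₂^G` are in the same block, so are `ψ₁` and `ψ₂`
  (for `ψ₁`, `ψ₂` over `b`).
-/

set_option autoImplicit false
set_option linter.unusedSectionVars false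
open Cfsg
open scoped ComplexConjugate

namespace Cfsg.Agent.Helper79

universe u

section fr3

variable {G : Type u} [Group G] [Fintype G] {M : Ideal Cfsg.AlgInt}
  (N : Subgroup G) [hN : N.Normal] [Fintype N] (T : Subgroup G) [Fintype T]
  {b : Set (Cfsg.IrrCharacter N)}

/-- Pairing an induced function with a class function. -/
theorem fr_sum_indFun_mul (w : T → ℂ) {χ : G → ℂ} (hχ : Cfsg.IsClassFunction G χ) :
    ∑ g : G, Cfsg.indFun T w g * χ g
      = (Nat.card G : ℂ) * ((Nat.card T : ℂ)⁻¹ * ∑ t : T, w t * χ t) := by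
  have hG : (Nat.card G : ℂ) ≠ 0 := by exact_mod_cast Nat.card_pos.ne'
  have hc : Cfsg.IsClassFunction G (fun g => conj (χ g)) := by
    intro g h
    show conj (χ (h * g * h⁻¹)) = conj (χ g)
    rw [hχ g h]
  have h := Helper3.frobenius_reciprocity T w (fun g => conj (χ g)) hc
  unfold Cfsg.classInner at h
  simp only [Complex.conj_conj] at h
  rw [← h, ← mul_assoc, mul_inv_cancel₀ hG, one_mul]

/-- **The key identity of the Fong–Reynolds correspondence.** -/
theorem fr_omega_ind (hNT : N ≤ T)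
    (hst : ∀ t ∈ T, ∀ θ ∈ b, Helper16.irrConj N t θ ∈ b)
    (hdis : ∀ x : G, x ∉ T → ∀ θ ∈ b, Helper16.irrConj N x θ ∉ b)
    {ψ : Cfsg.IrrCharacter T} (hψ : ψ ∈ frCov N T hNT b)
    {z : T → ℂ} (hz : Cfsg.IsClassFunction T z) :
    Helper81.omega (Cfsg.indFun T (ψ : T → ℂ))
        (Cfsg.indFun T (Helper81.conv z (frEps N T b)))
      = Helper81.omega (ψ : T → ℂ) z := by
  classical
  have := Fintype.ofFinite (Cfsg.IrrCharacter T)
  have hε : Cfsg.IsClassFunction T (frEps N T b) := fr_eps_isClassFunction N T hst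
  have hχcl := Helper3.indFun_isClassFunction T (ψ : T → ℂ)
  have hcount := fr_ind_count N T hNT hst hdis hψ
  have hΦcl : Cfsg.IsClassFunction T (fun t : T => Cfsg.indFun T (ψ : T → ℂ) (t : G)) :=
    Helper16.isClassFunction_res hχcl T
  have hdec := Helper15.classFun_eq_sum hΦcl
  have hT0 : (Nat.card T : ℂ) ≠ 0 := by exact_mod_cast Nat.card_pos.ne'
  have hψ1 := Helper81.irr_one_ne_zero ψ
  have hidx : (T.index : ℂ) ≠ 0 := by
    exact_mod_cast (Subgroup.index_ne_zero_of_finite (H := T))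
  have h1 : ∑ t : T, Helper81.conv z (frEps N T b) t * Cfsg.indFun T (ψ : T → ℂ) (t : G)
      = Helper81.omega (ψ : T → ℂ) z * (ψ : T → ℂ) 1 := by
    have h2 : ∀ t : T, Helper81.conv z (frEps N T b) t * Cfsg.indFun T (ψ : T → ℂ) (t : G)
        = ∑ ψ' : Cfsg.IrrCharacter T,
            Cfsg.classInner (fun t : T => Cfsg.indFun T (ψ : T → ℂ) (t : G)) (ψ' : T → ℂ)
              * (Helper81.conv z (frEps N T b) t * (ψ' : T → ℂ) t) := by
      intro t
      have h3 := congrFun hdec t
      rw [Finset.sum_apply] at h3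
      have h3' : Cfsg.indFun T (ψ : T → ℂ) (t : G) = _ := h3
      rw [h3', Finset.mul_sum]
      refine Finset.sum_congr rfl fun ψ' _ => ?_
      rw [Pi.smul_apply, smul_eq_mul]; ring
    rw [Finset.sum_congr rfl fun t _ => h2 t, Finset.sum_comm]
    rw [Finset.sum_eq_single ψ]
    · rw [← Finset.mul_sum, hcount.1, one_mul]
      have h4 := Helper81.omega_conv ψ hz hε
      rw [fr_omega_eps_of_mem N T hNT hst hψ, mul_one, Helper81.omega] at h4
      rw [← h4, div_mul_cancel₀ _ hψ1]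
    · intro ψ' _ hne
      rw [← Finset.mul_sum]
      by_cases hψ' : ψ' ∈ frCov N T hNT b
      · rw [hcount.2 ψ' hψ' hne, zero_mul]
      · have h4 := Helper81.omega_conv ψ' hz hε
        rw [fr_omega_eps_of_not_mem N T hNT hψ', mul_zero, Helper81.omega, div_eq_zero_iff] at h4
        rcases h4 with h4 | h4
        · rw [h4, mul_zero]
        · exact absurd h4 (Helper81.irr_one_ne_zero ψ')
    · intro h
      exact absurd (Finset.mem_univ ψ) h
  rw [Helper81.omega, fr_sum_indFun_mul T _ hχcl, h1, Helper3.indFun_apply_one]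
  have hcard : (Nat.card G : ℂ) = (Nat.card T : ℂ) * (T.index : ℂ) := by
    rw [← Nat.cast_mul, Subgroup.card_mul_index]
  rw [hcard]
  field_simp

/-- Induction of a class function with local values has local values. -/
theorem fr_indFun_memLocalRing (hM : M.IsMaximal) {w : T → ℂ} (hw : Cfsg.IsClassFunction T w)
    (hwS : ∀ t, Cfsg.MemLocalRing M (w t)) (g : G) :
    Cfsg.MemLocalRing M (Cfsg.indFun T w g) := by
  classical
  have := Fintype.ofFinite (G ⧸ T)
  have hT0 : (Nat.card T : ℂ) ≠ 0 := by exact_mod_cast Nat.card_pos.ne'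
  unfold Cfsg.indFun
  have hF : ∀ u : G, ∀ t ∈ T, Cfsg.extendByZero T w ((u * t)⁻¹ * g * (u * t))
      = Cfsg.extendByZero T w (u⁻¹ * g * u) := by
    intro u t ht
    rw [← Helper16.fongCount_ext0_eq_extendByZero]
    have e : (u * t)⁻¹ * g * (u * t) = t⁻¹ * (u⁻¹ * g * u) * t⁻¹⁻¹ := by group
    rw [e, Helper16.ext0_conjInv T hw (T.inv_mem ht)]
  rw [Helper16.fongCount_sum_cosets T (fun u => Cfsg.extendByZero T w (u⁻¹ * g * u)) hF,
    ← mul_assoc, inv_mul_cancel₀ hT0, one_mul]
  apply Helper77.memLocalRing_sum hM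
  intro q _
  rw [← Helper16.fongCount_ext0_eq_extendByZero]
  exact Helper16.ext0_memLocalRing hM T hwS _

theorem fr_classInd_memLocalRing {H : Type u} [Group H] [Fintype H] (hM : M.IsMaximal) (g y : H) :
    Cfsg.MemLocalRing M (Helper81.classInd g y) := by
  unfold Helper81.classInd
  split_ifs
  · exact Helper77.memLocalRing_one hM
  · exact Helper77.memLocalRing_zero hM

/-- Induction maps characters in one block of a subgroup to characters in one block. -/
theorem fr_sameBlock_ind (hM : M.IsMaximal) (ψ₁ ψ₂ : Cfsg.IrrCharacter T)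
    (h : Cfsg.SameBlock M (ψ₁ : T → ℂ) (ψ₂ : T → ℂ)) :
    Cfsg.SameBlock M (Cfsg.indFun T (ψ₁ : T → ℂ)) (Cfsg.indFun T (ψ₂ : T → ℂ)) := by
  intro g
  rw [← Helper16.inducedCentralChar_eq_centralChar_indFun,
    ← Helper16.inducedCentralChar_eq_centralChar_indFun,
    Helper16.inducedCentralChar_eq_omega_res, Helper16.inducedCentralChar_eq_omega_res]
  exact Helper16.omega_sub_memLocalIdeal hM ψ₁ ψ₂ h
    (Helper16.isClassFunction_res (Helper81.classInd_isClassFunction g) T)
    (fun t => fr_classInd_memLocalRing hM g (t : G))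

/-- **Fong–Reynolds, injectivity on blocks.** -/
theorem fr_sameBlock_of_ind (hM : M.IsMaximal) (hb : Cfsg.IsPBlock M b) (hNT : N ≤ T)
    (hst : ∀ t ∈ T, ∀ θ ∈ b, Helper16.irrConj N t θ ∈ b)
    (hdis : ∀ x : G, x ∉ T → ∀ θ ∈ b, Helper16.irrConj N x θ ∉ b)
    {ψ₁ ψ₂ : Cfsg.IrrCharacter T} (h₁ : ψ₁ ∈ frCov N T hNT b) (h₂ : ψ₂ ∈ frCov N T hNT b)
    (h : Cfsg.SameBlock M (Cfsg.indFun T (ψ₁ : T → ℂ)) (Cfsg.indFun T (ψ₂ : T → ℂ))) :
    Cfsg.SameBlock M (ψ₁ : T → ℂ) (ψ₂ : T → ℂ) := by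
  intro t
  have hz := Helper81.classInd_isClassFunction t
  have hw : Cfsg.IsClassFunction T (Helper81.conv (Helper81.classInd t) (frEps N T b)) :=
    Helper81.conv_isClassFunction hz (fr_eps_isClassFunction N T hst)
  have hwS : ∀ s, Cfsg.MemLocalRing M (Helper81.conv (Helper81.classInd t) (frEps N T b) s) := by
    intro s
    apply Helper77.memLocalRing_sum hM
    intro x _
    exact Helper77.memLocalRing_mul hM (fr_classInd_memLocalRing hM t x)
      (fr_eps_memLocalRing N T hM hb _)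
  have key : Cfsg.MemLocalIdeal M
      (Helper81.omega (Cfsg.indFun T (ψ₁ : T → ℂ))
          (Cfsg.indFun T (Helper81.conv (Helper81.classInd t) (frEps N T b)))
        - Helper81.omega (Cfsg.indFun T (ψ₂ : T → ℂ))
          (Cfsg.indFun T (Helper81.conv (Helper81.classInd t) (frEps N T b)))) :=
    Helper16.omega_sub_memLocalIdeal hM ⟨_, fr_ind_irr N T hNT hst hdis h₁⟩
      ⟨_, fr_ind_irr N T hNT hst hdis h₂⟩ h (Helper3.indFun_isClassFunction T _)
      (fr_indFun_memLocalRing T hM hw hwS)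
  rw [fr_omega_ind N T hNT hst hdis h₁ hz, fr_omega_ind N T hNT hst hdis h₂ hz,
    Helper81.omega_classInd, Helper81.omega_classInd] at key
  exact key

end fr3

end Cfsg.Agent.Helper79
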