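import Cfsg.Agent.Helper79.FongReynolds3

/-!
# Fong–Reynolds, part 4: the correspondence

`N ⊴ G`, `b` a block of `N`, `T` its stabilizer.

* `fr_stable_of_stab`, `fr_disjoint_of_stab`: the stabilizer hypothesis in the form used here.
* `fr_cover_sameBlock`: a block of `G` covering `b` has all its members over `b`.
* `fr_main`: a block `B'` of `T` covering `b` induces a block `B` of `G` covering `b`, induction
  is a bijection from `B'` onto `B`.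
* `fr_unique`: distinct blocks of `T` covering `b` induce distinct blocks.
* `fr_exists`: every block of `G` covering `b` is induced from a block of `T` covering `b`.
-/

set_option autoImplicit false
set_option linter.unusedSectionVars false
open Cfsg
open scoped ComplexConjugate

namespace Cfsg.Agent.Helper79

universe u

section fr4

variable {G : Type u} [Group G] [Fintype G] {M : Ideal Cfsg.AlgInt}
  (N : Subgroup G) [hN : N.Normal] [Fintype N] (T : Subgroup G) [Fintype T]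
  {b : Set (Cfsg.IrrCharacter N)}

/-- The stabilizer of `b` stabilizes `b`. -/
theorem fr_stable_of_stab
    (hT : ∀ g : G, g ∈ T ↔ ∀ θ ∈ b, ∀ θ' : Cfsg.IrrCharacter N,
      (∀ n : N, (θ' : N → ℂ) n = (θ : N → ℂ) ⟨g * n * g⁻¹, hN.conj_mem n n.2 g⟩) → θ' ∈ b) :
    ∀ t ∈ T, ∀ θ ∈ b, Helper16.irrConj N t θ ∈ b := by
  intro t ht θ hθ
  refine (hT t⁻¹).mp (T.inv_mem ht) θ hθ (Helper16.irrConj N t θ) (fun n => ?_)
  rw [Helper16.irrConj_apply]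
  refine congrArg (θ : N → ℂ) (Subtype.ext ?_)
  simp

/-- An element outside the stabilizer of the block `b` moves every member of `b` out of `b`. -/
theorem fr_disjoint_of_stab (hM : M.IsMaximal) (hb : Cfsg.IsPBlock M b)
    (hT : ∀ g : G, g ∈ T ↔ ∀ θ ∈ b, ∀ θ' : Cfsg.IrrCharacter N,
      (∀ n : N, (θ' : N → ℂ) n = (θ : N → ℂ) ⟨g * n * g⁻¹, hN.conj_mem n n.2 g⟩) → θ' ∈ b) :
    ∀ x : G, x ∉ T → ∀ θ ∈ b, Helper16.irrConj N x θ ∉ b := by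
  intro x hx θ hθ hcon
  have hx' : x⁻¹ ∉ T := fun h => hx (by simpa using T.inv_mem h)
  apply hx'
  rw [hT x⁻¹]
  intro θ₁ hθ₁ θ' hθ'
  have e : θ' = Helper16.irrConj N x θ₁ := by
    apply Subtype.ext
    funext n
    rw [hθ' n, Helper16.irrConj_apply]
    refine congrArg (θ₁ : N → ℂ) (Subtype.ext ?_)
    simp
  rw [e]
  have h1 := Helper16.sameBlock_irrConj (M := M) N x (Helper16.sameBlock_of_mem hM hb hθ hθ₁)
  rw [Helper16.eq_blockOf_of_mem hM hb hcon]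
  exact h1

/-- The inner product with the restriction of a class function is invariant under twisting by
conjugation. -/
theorem fr_inner_irrTwist {χ : G → ℂ} (hχ : Cfsg.IsClassFunction G χ) (g : G)
    (θ : Cfsg.IrrCharacter N) :
    Cfsg.classInner (fun n : N => χ n) (Helper81.irrTwist (MulAut.conjNormal g) θ : N → ℂ)
      = Cfsg.classInner (fun n : N => χ n) (θ : N → ℂ) := by
  unfold Cfsg.classInner
  congr 1
  rw [← Equiv.sum_comp (MulAut.conjNormal g : N ≃* N).toEquiv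
    (fun m : N => χ m * conj ((θ : N → ℂ) m))]
  refine Finset.sum_congr rfl fun n _ => ?_
  rw [Helper81.irrTwist_apply]
  have h1 : χ (((MulAut.conjNormal g : N ≃* N).toEquiv n : N) : G) = χ n := by
    have e : (((MulAut.conjNormal g : N ≃* N).toEquiv n : N) : G) = g * n * g⁻¹ :=
      MulAut.conjNormal_apply g n
    rw [e, hχ]
  rw [h1]
  rfl

/-- If one member of a block of `G` lies over the block `b` of `N`, so does every member. -/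
theorem fr_cover_sameBlock (hM : M.IsMaximal) (hb : Cfsg.IsPBlock M b)
    (χ χ' : Cfsg.IrrCharacter G) (h : Cfsg.SameBlock M (χ : G → ℂ) (χ' : G → ℂ))
    {θ : Cfsg.IrrCharacter N} (hθ : θ ∈ b)
    (hχ : Cfsg.classInner (fun n : N => (χ : G → ℂ) n) (θ : N → ℂ) ≠ 0) :
    ∃ θ' ∈ b, Cfsg.classInner (fun n : N => (χ' : G → ℂ) n) (θ' : N → ℂ) ≠ 0 := by
  have hne : (fun n : N => (χ' : G → ℂ) n) ≠ 0 := by
    intro h0
    have h1 := congrFun h0 1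
    exact Helper81.irr_one_ne_zero χ' (by simpa using h1)
  obtain ⟨φ, hφ⟩ := Helper15.exists_constituent
    (Helper16.isClassFunction_res (Helper81.irr_isClassFunction χ') N) hne
  obtain ⟨g, θ', hθ', rfl⟩ :=
    Helper76.mem_blockOrbit_of_sameBlock hM N hb χ χ' h θ hθ hχ φ hφ
  refine ⟨θ', hθ', ?_⟩
  rwa [fr_inner_irrTwist N (Helper81.irr_isClassFunction χ') g θ'] at hφ

/-- The character induced from a character of `T` over `b` lies over `b`. -/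
theorem fr_ind_cover (hNT : N ≤ T)
    (hst : ∀ t ∈ T, ∀ θ ∈ b, Helper16.irrConj N t θ ∈ b)
    (hdis : ∀ x : G, x ∉ T → ∀ θ ∈ b, Helper16.irrConj N x θ ∉ b)
    {ψ : Cfsg.IrrCharacter T} (hψ : ψ ∈ frCov N T hNT b) :
    ∃ θ ∈ b, Cfsg.classInner (fun n : N => Cfsg.indFun T (ψ : T → ℂ) (n : G)) (θ : N → ℂ)
      ≠ 0 := by
  classical
  have := Fintype.ofFinite (Cfsg.IrrCharacter N)
  have h1 := fr_D_ind N T hNT hst hdis hψ
  rw [fr_sum_blockCoeff_mul b (fun n : N => Cfsg.indFun T (ψ : T → ℂ) (n : G))] at h1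
  have h2 : (∑ θ : Cfsg.IrrCharacter N, if θ ∈ b then (θ : N → ℂ) 1
      * Cfsg.classInner (fun n : N => Cfsg.indFun T (ψ : T → ℂ) (n : G)) (θ : N → ℂ) else 0)
      ≠ 0 := by
    rw [h1]; exact Helper81.irr_one_ne_zero ψ
  obtain ⟨θ, -, hθ⟩ := Finset.exists_ne_zero_of_sum_ne_zero h2
  by_cases hθb : θ ∈ b
  · rw [if_pos hθb] at hθ
    exact ⟨θ, hθb, right_ne_zero_of_mul hθ⟩
  · rw [if_neg hθb] at hθ
    exact absurd rfl hθ

/-- **Fong–Reynolds (i).** -/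
theorem fr_main (hM : M.IsMaximal) (hb : Cfsg.IsPBlock M b) (hNT : N ≤ T)
    (hst : ∀ t ∈ T, ∀ θ ∈ b, Helper16.irrConj N t θ ∈ b)
    (hdis : ∀ x : G, x ∉ T → ∀ θ ∈ b, Helper16.irrConj N x θ ∉ b)
    {B' : Set (Cfsg.IrrCharacter T)} (hB' : Cfsg.IsPBlock M B')
    {ψ₀ : Cfsg.IrrCharacter T} (hψ₀ : ψ₀ ∈ B') (hcov : ψ₀ ∈ frCov N T hNT b) :
    Cfsg.IsInducedBlock M T B' (Cfsg.blockOf M (Cfsg.indFun T (ψ₀ : T → ℂ))) ∧
    (∃ χ ∈ Cfsg.blockOf M (Cfsg.indFun T (ψ₀ : T → ℂ)), ∃ θ ∈ b,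
      Cfsg.classInner (fun n : N => (χ : G → ℂ) n) (θ : N → ℂ) ≠ 0) ∧
    (∀ ψ ∈ B', ψ ∈ frCov N T hNT b) ∧
    (∀ ψ ∈ B', Cfsg.IsIrrCharacter G (Cfsg.indFun T (ψ : T → ℂ))) ∧
    ∀ χ : Cfsg.IrrCharacter G, χ ∈ Cfsg.blockOf M (Cfsg.indFun T (ψ₀ : T → ℂ)) ↔
      ∃ ψ ∈ B', (χ : G → ℂ) = Cfsg.indFun T (ψ : T → ℂ) := by
  have hall : ∀ ψ ∈ B', ψ ∈ frCov N T hNT b := fun ψ hψ =>
    fr_cov_closed N T hM hb hNT hst hcov (Helper16.sameBlock_of_mem hM hB' hψ₀ hψ)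
  have hirr : ∀ ψ ∈ B', Cfsg.IsIrrCharacter G (Cfsg.indFun T (ψ : T → ℂ)) := fun ψ hψ =>
    fr_ind_irr N T hNT hst hdis (hall ψ hψ)
  obtain ⟨χ₀, hχ₀⟩ : ∃ χ₀ : Cfsg.IrrCharacter G, (χ₀ : G → ℂ) = Cfsg.indFun T (ψ₀ : T → ℂ) :=
    ⟨⟨_, hirr ψ₀ hψ₀⟩, rfl⟩
  refine ⟨⟨hB', ⟨χ₀, by rw [hχ₀]⟩, ?_⟩, ?_, hall, hirr, ?_⟩
  · intro ξ hξ χ hχ g
    rw [Helper16.inducedCentralChar_eq_centralChar_indFun]
    exact Helper16.sameBlock_trans hM
      (fr_sameBlock_ind T hM ξ ψ₀ (Helper16.sameBlock_of_mem hM hB' hξ hψ₀)) hχ g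
  · obtain ⟨θ, hθ, hne⟩ := fr_ind_cover N T hNT hst hdis hcov
    refine ⟨χ₀, ?_, θ, hθ, ?_⟩
    · show Cfsg.SameBlock M _ _
      rw [hχ₀]
      exact Helper16.sameBlock_refl hM _
    · rw [hχ₀]
      exact hne
  · intro χ
    constructor
    · intro hχ
      have hχ' : Cfsg.SameBlock M (χ₀ : G → ℂ) (χ : G → ℂ) := by
        rw [hχ₀]; exact hχ
      obtain ⟨θ, hθ, hne⟩ := fr_ind_cover N T hNT hst hdis hcov
      rw [← hχ₀] at hne
      obtain ⟨θ', hθ', hne'⟩ := fr_cover_sameBlock N hM hb χ₀ χ hχ' hθ hne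
      obtain ⟨ψ, hψ, hψχ⟩ := fr_exists_ind N T hNT hst hdis χ hθ' hne'
      refine ⟨ψ, ?_, hψχ⟩
      have h1 : Cfsg.SameBlock M (Cfsg.indFun T (ψ₀ : T → ℂ)) (Cfsg.indFun T (ψ : T → ℂ)) := by
        rw [← hψχ]; exact hχ
      have h2 := fr_sameBlock_of_ind N T hM hb hNT hst hdis hcov hψ h1
      rw [Helper16.eq_blockOf_of_mem hM hB' hψ₀]
      exact h2
    · rintro ⟨ψ, hψ, hψχ⟩
      show Cfsg.SameBlock M _ _
      rw [hψχ]
      exact fr_sameBlock_ind T hM ψ₀ ψ (Helper16.sameBlock_of_mem hM hB' hψ₀ hψ)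

/-- **Fong–Reynolds (ii).** -/
theorem fr_unique (hM : M.IsMaximal) (hb : Cfsg.IsPBlock M b) (hNT : N ≤ T)
    (hst : ∀ t ∈ T, ∀ θ ∈ b, Helper16.irrConj N t θ ∈ b)
    (hdis : ∀ x : G, x ∉ T → ∀ θ ∈ b, Helper16.irrConj N x θ ∉ b)
    {B'₁ B'₂ : Set (Cfsg.IrrCharacter T)}
    {ψ₁ ψ₂ : Cfsg.IrrCharacter T} (h₁ : ψ₁ ∈ B'₁) (hc₁ : ψ₁ ∈ frCov N T hNT b)
    (h₂ : ψ₂ ∈ B'₂) (hc₂ : ψ₂ ∈ frCov N T hNT b)
    {B : Set (Cfsg.IrrCharacter G)} (hi₁ : Cfsg.IsInducedBlock M T B'₁ B)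
    (hi₂ : Cfsg.IsInducedBlock M T B'₂ B) : B'₁ = B'₂ := by
  obtain ⟨χ, hχ⟩ := Helper16.exists_mem_of_isPBlock hM hi₁.2.1
  have h : Cfsg.SameBlock M (Cfsg.indFun T (ψ₁ : T → ℂ)) (Cfsg.indFun T (ψ₂ : T → ℂ)) := by
    intro g
    have e1 := hi₁.2.2 ψ₁ h₁ χ hχ g
    have e2 := hi₂.2.2 ψ₂ h₂ χ hχ g
    rw [Helper16.inducedCentralChar_eq_centralChar_indFun] at e1 e2
    have := Helper77.memLocalIdeal_sub hM e1 e2
    rwa [sub_sub_sub_cancel_right] at this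
  have h3 := fr_sameBlock_of_ind N T hM hb hNT hst hdis hc₁ hc₂ h
  rw [Helper16.eq_blockOf_of_mem hM hi₁.1 h₁, Helper16.eq_blockOf_of_mem hM hi₂.1 h₂]
  exact (Helper16.blockOf_eq_of_mem hM h3).symm

/-- **Fong–Reynolds (iii).** -/
theorem fr_exists (hM : M.IsMaximal) (hb : Cfsg.IsPBlock M b) (hNT : N ≤ T)
    (hst : ∀ t ∈ T, ∀ θ ∈ b, Helper16.irrConj N t θ ∈ b)
    (hdis : ∀ x : G, x ∉ T → ∀ θ ∈ b, Helper16.irrConj N x θ ∉ b)
    {B : Set (Cfsg.IrrCharacter G)} (hB : Cfsg.IsPBlock M B)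
    {χ : Cfsg.IrrCharacter G} (hχ : χ ∈ B) {θ : Cfsg.IrrCharacter N} (hθ : θ ∈ b)
    (hne : Cfsg.classInner (fun n : N => (χ : G → ℂ) n) (θ : N → ℂ) ≠ 0) :
    ∃ ψ ∈ frCov N T hNT b, (χ : G → ℂ) = Cfsg.indFun T (ψ : T → ℂ) ∧
      Cfsg.IsInducedBlock M T (Cfsg.blockOf M (ψ : T → ℂ)) B := by
  obtain ⟨ψ, hψ, hψχ⟩ := fr_exists_ind N T hNT hst hdis χ hθ hne
  refine ⟨ψ, hψ, hψχ, ?_⟩
  have h1 := (fr_main N T hM hb hNT hst hdis (B' := Cfsg.blockOf M (ψ : T → ℂ)) ⟨ψ, rfl⟩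
    (Helper16.sameBlock_refl hM _) hψ).1
  rw [← hψχ, ← Helper16.eq_blockOf_of_mem hM hB hχ] at h1
  exact h1

end fr4

end Cfsg.Agent.Helper79
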