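import Cfsg.Agent.Helper79.FongReynolds6
import Cfsg.Agent.Helper16.ExtFMT

/-!
# The extended first main theorem: the stabilizer criterion

`fr_ext_stab`: let `P` be a `p`-subgroup of `G`, `H = P C_G(P)`, `b` a block of `H` with defect
group `P` inducing the block `B` of `G`, and `T` the stabilizer of `b` in `N_G(P)`.  Then `B` has
defect group `P` iff `p ∤ |T : H|`.
-/

set_option autoImplicit false
set_option linter.unusedSectionVars false
open Cfsg
open scoped ComplexConjugate

namespace Cfsg.Agent.Helper79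

universe u

section fr7

variable {G : Type u} [Group G] [Fintype G] {M : Ideal Cfsg.AlgInt}

/-- `N_G(P)` normalizes `P C_G(P)`. -/
theorem fr_normalizer_le_normalizer_sup (P : Subgroup G) :
    Subgroup.normalizer (P : Set G)
      ≤ Subgroup.normalizer ((P ⊔ Subgroup.centralizer (P : Set G) : Subgroup G) : Set G) := by
  have key : ∀ n ∈ Subgroup.normalizer (P : Set G),
      ∀ x ∈ (P ⊔ Subgroup.centralizer (P : Set G) : Subgroup G),
      n * x * n⁻¹ ∈ (P ⊔ Subgroup.centralizer (P : Set G) : Subgroup G) := by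
    intro n hn
    have hle : (P ⊔ Subgroup.centralizer (P : Set G) : Subgroup G)
        ≤ (P ⊔ Subgroup.centralizer (P : Set G) : Subgroup G).comap
          (MulAut.conj n).toMonoidHom := by
      apply sup_le
      · intro x hx
        show n * x * n⁻¹ ∈ (P ⊔ Subgroup.centralizer (P : Set G) : Subgroup G)
        exact Subgroup.mem_sup_left ((Subgroup.mem_normalizer_iff.mp hn x).mp hx)
      · intro x hx
        show n * x * n⁻¹ ∈ (P ⊔ Subgroup.centralizer (P : Set G) : Subgroup G)
        apply Subgroup.mem_sup_right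
        rw [Subgroup.mem_centralizer_iff]
        intro y hy
        have hy' : n⁻¹ * y * n ∈ P := by
          have := (Subgroup.mem_normalizer_iff.mp
            ((Subgroup.normalizer (P : Set G)).inv_mem hn) y).mp hy
          rwa [inv_inv] at this
        have h1 := Subgroup.mem_centralizer_iff.mp hx _ hy'
        calc y * (n * x * n⁻¹) = n * ((n⁻¹ * y * n) * x) * n⁻¹ := by group
          _ = n * (x * (n⁻¹ * y * n)) * n⁻¹ := by rw [h1]
          _ = n * x * n⁻¹ * y := by group
    intro x hx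
    exact hle hx
  intro n hn
  rw [Subgroup.mem_normalizer_iff]
  intro h
  constructor
  · exact key n hn h
  · intro hh
    have := key n⁻¹ ((Subgroup.normalizer (P : Set G)).inv_mem hn) _ hh
    have e : n⁻¹ * (n * h * n⁻¹) * n⁻¹⁻¹ = h := by group
    rwa [e] at this

/-- **Extended first main theorem: the stabilizer criterion.** -/
theorem fr_ext_stab {p : ℕ} [Fact p.Prime] (hM : Cfsg.IsPModular p M) (P : Subgroup G)
    (hP : IsPGroup p P) (H : Subgroup G) [Fintype H]
    (hH : H = P ⊔ Subgroup.centralizer (P : Set G)) (b : Set (Cfsg.IrrCharacter H))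
    (hb : Cfsg.IsPBlock M b) (hbP : Cfsg.IsDefectGroup p M b (P.subgroupOf H))
    (B : Set (Cfsg.IrrCharacter G)) (hind : Cfsg.IsInducedBlock M H b B) (T : Subgroup G)
    (hT : ∀ g : G, g ∈ T ↔ (g ∈ Subgroup.normalizer (P : Set G) ∧ ∀ θ ∈ b,
      ∀ θ' : Cfsg.IrrCharacter H, (∀ h h' : H, (h' : G) = g * h * g⁻¹ →
        (θ' : H → ℂ) h' = (θ : H → ℂ) h) → θ' ∈ b)) :
    Cfsg.IsDefectGroup p M B P ↔ ¬ p ∣ H.relIndex T := by
  classical
  have hMm : M.IsMaximal := hM.2.1
  have hPH : P ≤ H := by rw [hH]; exact le_sup_left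
  have hCH : Subgroup.centralizer (P : Set G) ≤ H := by rw [hH]; exact le_sup_right
  have hHN : H ≤ Subgroup.normalizer (P : Set G) := by
    rw [hH]; exact sup_le Subgroup.le_normalizer (Subgroup.centralizer_le_normalizer _)
  have hNH : Subgroup.normalizer (P : Set G) ≤ Subgroup.normalizer (H : Set G) := by
    rw [hH]; exact fr_normalizer_le_normalizer_sup P
  have hTN : T ≤ Subgroup.normalizer (P : Set G) := fun g hg => ((hT g).mp hg).1
  have hHT : H ≤ T := by
    intro h hh
    rw [hT]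
    refine ⟨hHN hh, fun θ hθ θ' hθ' => ?_⟩
    have : θ' = θ := by
      apply Subtype.ext
      funext x
      have h1 := hθ' x (⟨h, hh⟩ * x * ⟨h, hh⟩⁻¹) rfl
      rw [Helper81.irr_conj] at h1
      exact h1
    rw [this]; exact hθ
  -- the ambient group `N_G(P)`
  let _ : Fintype ↥(Subgroup.normalizer (P : Set G)) := Fintype.ofFinite _
  let _ : Fintype ↥(H.subgroupOf (Subgroup.normalizer (P : Set G))) := Fintype.ofFinite _
  let _ : Fintype ↥(T.subgroupOf (Subgroup.normalizer (P : Set G))) := Fintype.ofFinite _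
  have hNn : (H.subgroupOf (Subgroup.normalizer (P : Set G))).Normal :=
    Subgroup.normal_subgroupOf_of_le_normalizer hNH
  have hPn : (P.subgroupOf (Subgroup.normalizer (P : Set G))).Normal :=
    Subgroup.normal_subgroupOf_of_le_normalizer le_rfl
  have hPp : IsPGroup p (P.subgroupOf (Subgroup.normalizer (P : Set G))) := hP.comap_subtype
  have hPN' : P.subgroupOf (Subgroup.normalizer (P : Set G))
      ≤ H.subgroupOf (Subgroup.normalizer (P : Set G)) := fun x hx => hPH hx
  have hC' : Subgroup.centralizer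
      ((P.subgroupOf (Subgroup.normalizer (P : Set G)) : Subgroup _) : Set _)
      ≤ H.subgroupOf (Subgroup.normalizer (P : Set G)) := by
    intro x hx
    apply hCH
    rw [Subgroup.mem_centralizer_iff]
    intro y hy
    have h1 := Subgroup.mem_centralizer_iff.mp hx ⟨y, Subgroup.le_normalizer hy⟩ hy
    exact congrArg Subtype.val h1
  obtain ⟨e₁, he₁⟩ : ∃ e₁ : ↥(H.subgroupOf (Subgroup.normalizer (P : Set G))) ≃* ↥H,
      e₁ = Subgroup.subgroupOfEquivOfLe hHN := ⟨_, rfl⟩
  have hb' : Cfsg.IsPBlock M (Helper75.irrComp e₁ '' b) := Helper75.isPBlock_image_irrComp _ hb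
  have hbP' : Cfsg.IsDefectGroup p M (Helper75.irrComp e₁ '' b)
      ((P.subgroupOf (Subgroup.normalizer (P : Set G))).subgroupOf
        (H.subgroupOf (Subgroup.normalizer (P : Set G)))) := by
    have h4 := Helper75.isDefectGroup_image_irrComp e₁ hbP
    have e4 : (P.subgroupOf H).comap e₁.toMonoidHom
        = (P.subgroupOf (Subgroup.normalizer (P : Set G))).subgroupOf
          (H.subgroupOf (Subgroup.normalizer (P : Set G))) := by
      rw [he₁]
      ext x
      rfl
    rwa [e4] at h4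
  have hNT' : H.subgroupOf (Subgroup.normalizer (P : Set G))
      ≤ T.subgroupOf (Subgroup.normalizer (P : Set G)) := fun x hx => hHT hx
  have hT' : ∀ g : ↥(Subgroup.normalizer (P : Set G)),
      g ∈ T.subgroupOf (Subgroup.normalizer (P : Set G)) ↔
      ∀ θ ∈ Helper75.irrComp e₁ '' b,
        ∀ θ' : Cfsg.IrrCharacter ↥(H.subgroupOf (Subgroup.normalizer (P : Set G))),
        (∀ n : ↥(H.subgroupOf (Subgroup.normalizer (P : Set G))),
          (θ' : ↥(H.subgroupOf (Subgroup.normalizer (P : Set G))) → ℂ) n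
            = (θ : ↥(H.subgroupOf (Subgroup.normalizer (P : Set G))) → ℂ)
              ⟨g * n * g⁻¹, hNn.conj_mem n n.2 g⟩) → θ' ∈ Helper75.irrComp e₁ '' b := by
    intro g
    have hg1 : g ∈ T.subgroupOf (Subgroup.normalizer (P : Set G)) ↔ (g : G)⁻¹ ∈ T := by
      rw [Subgroup.inv_mem_iff]; rfl
    rw [hg1, hT]
    constructor
    · rintro ⟨-, hstab⟩ _ ⟨θ, hθ, rfl⟩ θ' hθ'
      have h1 : Helper75.irrComp e₁.symm θ' ∈ b := by
        apply hstab θ hθ
        intro h h' hh'
        rw [Helper75.irrComp_apply, hθ', Helper75.irrComp_apply]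
        refine congrArg (θ : H → ℂ) (Subtype.ext ?_)
        rw [he₁]
        show (g : G) * (h' : G) * (g : G)⁻¹ = (h : G)
        rw [hh']; group
      exact ⟨_, h1, Helper75.irrComp_irrComp_symm_gen e₁ θ'⟩
    · intro hstab
      refine ⟨(Subgroup.normalizer (P : Set G)).inv_mem g.2, fun θ hθ θ' hθ' => ?_⟩
      have h1 := hstab (Helper75.irrComp e₁ θ) ⟨θ, hθ, rfl⟩ (Helper75.irrComp e₁ θ') (by
        intro n
        rw [Helper75.irrComp_apply, Helper75.irrComp_apply]
        apply hθ'
        rw [he₁]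
        show ((n : ↥(Subgroup.normalizer (P : Set G))) : G)
          = (g : G)⁻¹ * ((g : G) * ((n : ↥(Subgroup.normalizer (P : Set G))) : G) * (g : G)⁻¹)
            * (g : G)⁻¹⁻¹
        group)
      obtain ⟨θ'', hθ'', heq⟩ := h1
      rw [← Helper75.irrComp_injective e₁ heq]
      exact hθ''
  have hst' := fr_stable_of_stab (H.subgroupOf (Subgroup.normalizer (P : Set G)))
    (T.subgroupOf (Subgroup.normalizer (P : Set G))) hT'
  have hdis' := fr_disjoint_of_stab (H.subgroupOf (Subgroup.normalizer (P : Set G)))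
    (T.subgroupOf (Subgroup.normalizer (P : Set G))) hMm hb' hT'
  -- a block of `N_G(P)` covering `b`
  obtain ⟨θ₀, hθ₀⟩ := Helper16.exists_mem_of_isPBlock hMm hb
  obtain ⟨χ₀, hχ₀⟩ := Helper76.exists_irr_over (H.subgroupOf (Subgroup.normalizer (P : Set G)))
    (Helper75.irrComp e₁ θ₀)
  have hB₁ : Cfsg.IsPBlock M (Cfsg.blockOf M (χ₀ : ↥(Subgroup.normalizer (P : Set G)) → ℂ)) :=
    ⟨χ₀, rfl⟩
  have hχ₀B : χ₀ ∈ Cfsg.blockOf M (χ₀ : ↥(Subgroup.normalizer (P : Set G)) → ℂ) :=
    Helper16.sameBlock_refl hMm _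
  have hθ₀' : Helper75.irrComp e₁ θ₀ ∈ Helper75.irrComp e₁ '' b := ⟨θ₀, hθ₀, rfl⟩
  have hU := fr_induced_of_cover (H.subgroupOf (Subgroup.normalizer (P : Set G))) hM
    (P.subgroupOf (Subgroup.normalizer (P : Set G))) hPp hC' hb' hB₁ hχ₀B hθ₀' hχ₀
  have hind₁ : Cfsg.IsInducedBlock M (Subgroup.normalizer (P : Set G))
      (Cfsg.blockOf M (χ₀ : ↥(Subgroup.normalizer (P : Set G)) → ℂ)) B := by
    refine ⟨hB₁, hind.2.1, fun ξ hξ χ hχ g => ?_⟩
    have h1 := hind.2.2 θ₀ hθ₀ χ hχ g
    have h2 := Helper16.inducedCentralChar_trans hMm hHN (θ₀ : H → ℂ) ξ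
      (fun n => by
        have := hU.2.2 (Helper75.irrComp e₁ θ₀) hθ₀' ξ hξ n
        rw [he₁] at this
        exact this) g
    have h3 := Helper77.memLocalIdeal_sub hMm h1 h2
    rwa [sub_sub_sub_cancel_left] at h3
  have hiff1 : Cfsg.IsDefectGroup p M B P ↔
      Cfsg.IsDefectGroup p M (Cfsg.blockOf M (χ₀ : ↥(Subgroup.normalizer (P : Set G)) → ℂ))
        (P.subgroupOf (Subgroup.normalizer (P : Set G))) := by
    constructor
    · intro hBP
      exact Helper16.isDefectGroup_subgroupOf_of_induced hM hP Subgroup.le_normalizer le_rfl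
        hind₁ hBP
    · intro h
      exact Helper16.fmt_defectGroup hM P hP hind₁ h
  have hiff2 := fr_defect_iff (H.subgroupOf (Subgroup.normalizer (P : Set G)))
    (T.subgroupOf (Subgroup.normalizer (P : Set G))) hM hb' hNT' hst' hdis'
    (P.subgroupOf (Subgroup.normalizer (P : Set G))) hPp hPN' hC' hbP' hB₁ hχ₀B hθ₀' hχ₀
  rw [hiff1, hiff2, Subgroup.relIndex_subgroupOf hTN]

end fr7

end Cfsg.Agent.Helper79
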