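import Cfsg.Agent.Helper77.BlockRank
import Cfsg.Agent.Helper16.BlockCore

/-!
# Unions of blocks: zero sums and the rank as a trace

* `KrClosed M S`: the set `S` of irreducible characters is a union of blocks.
* `kr_sum_eq_zero`: a sum over a union of blocks vanishes if it vanishes on each block.
* `kr_card_mul_blockRank`: `|G| * blockRank p S = ∑_{χ ∈ S} pregInner p χ χ` for a union of
  blocks `S`.
-/

set_option autoImplicit false
set_option linter.unusedSectionVars false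
open Cfsg
open scoped ComplexConjugate

namespace Cfsg.Agent.Helper79

universe u

section kr1

variable {G : Type u} [Group G] [Fintype G]

/-- A union of blocks. -/
def KrClosed (M : Ideal Cfsg.AlgInt) (S : Set (Cfsg.IrrCharacter G)) : Prop :=
  ∀ χ ∈ S, ∀ ψ : Cfsg.IrrCharacter G, Cfsg.SameBlock M (χ : G → ℂ) (ψ : G → ℂ) → ψ ∈ S

theorem kr_closed_compl {M : Ideal Cfsg.AlgInt} {S : Set (Cfsg.IrrCharacter G)}
    (hS : KrClosed M S) : KrClosed M Sᶜ := by
  intro χ hχ ψ h hψ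
  exact hχ (hS ψ hψ χ (Helper16.sameBlock_symm h))

theorem kr_closed_block {M : Ideal Cfsg.AlgInt} (hM : M.IsMaximal)
    {B : Set (Cfsg.IrrCharacter G)} (hB : Cfsg.IsPBlock M B) : KrClosed M B := by
  intro χ hχ ψ h
  rw [Helper16.eq_blockOf_of_mem hM hB hχ]
  exact h

/-- A sum over a union of blocks vanishes if it vanishes on each of the blocks. -/
theorem kr_sum_eq_zero {M : Ideal Cfsg.AlgInt} (hM : M.IsMaximal)
    {S : Set (Cfsg.IrrCharacter G)} (hS : KrClosed M S) (f : Cfsg.IrrCharacter G → ℂ)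
    (h : ∀ χ ∈ S, ∑ᶠ ψ ∈ Cfsg.blockOf M (χ : G → ℂ), f ψ = 0) : ∑ᶠ ψ ∈ S, f ψ = 0 := by
  classical
  obtain ⟨n, hn⟩ : ∃ n, S.ncard = n := ⟨_, rfl⟩
  induction n using Nat.strong_induction_on generalizing S with
  | _ n ih =>
    rcases S.eq_empty_or_nonempty with rfl | ⟨χ, hχ⟩
    · simp
    · have hBS : Cfsg.blockOf M (χ : G → ℂ) ⊆ S := fun ψ hψ => hS χ hχ ψ hψ
      have hS' : KrClosed M (S \ Cfsg.blockOf M (χ : G → ℂ)) := by
        intro ψ hψ ψ' hψψ'
        refine ⟨hS ψ hψ.1 ψ' hψψ', fun hc => hψ.2 ?_⟩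
        exact Helper16.sameBlock_trans hM hc (Helper16.sameBlock_symm hψψ')
      have hfin : S.Finite := Set.toFinite S
      have hlt : (S \ Cfsg.blockOf M (χ : G → ℂ)).ncard < n := by
        rw [← hn]
        apply Set.ncard_lt_ncard _ hfin
        refine ⟨Set.sdiff_subset, fun hc => ?_⟩
        exact (hc hχ).2 (Helper16.sameBlock_refl hM _)
      have h1 := ih _ hlt hS' (fun ψ hψ => h ψ hψ.1) rfl
      have hunion : (S \ Cfsg.blockOf M (χ : G → ℂ)) ∪ Cfsg.blockOf M (χ : G → ℂ) = S :=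
        Set.sdiff_union_of_subset hBS
      rw [← hunion, finsum_mem_union Set.disjoint_sdiff_left (Set.toFinite _) (Set.toFinite _),
        h1, h χ hχ, add_zero]

/-- For `χ` in a union of blocks `S`, the `p`-regular part of `χ` is a combination of members of
`S`. -/
theorem kr_card_smul_pRegularPart [Fintype (Cfsg.IrrCharacter G)] {p : ℕ}
    {M : Ideal Cfsg.AlgInt} (hM : Cfsg.IsPModular p M) {S : Set (Cfsg.IrrCharacter G)}
    (hS : KrClosed M S) [DecidablePred (fun ψ => ψ ∈ S)] {χ : Cfsg.IrrCharacter G}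
    (hχ : χ ∈ S) :
    (Nat.card G : ℂ) • Cfsg.pRegularPart p (χ : G → ℂ)
      = ∑ ψ ∈ Finset.univ.filter (fun ψ : Cfsg.IrrCharacter G => ψ ∈ S),
          Helper77.pregInner p (χ : G → ℂ) (ψ : G → ℂ) • (ψ : G → ℂ) := by
  funext h
  simp only [Pi.smul_apply, smul_eq_mul, Finset.sum_apply]
  rw [Helper77.classFunction_expand
    (Helper77.pRegularPart_isClassFunction p (Helper81.irr_isClassFunction χ)) h,
    Finset.sum_filter]
  refine Finset.sum_congr rfl fun ψ _ => ?_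
  rw [Helper77.sum_pRegularPart_mul_conj]
  by_cases hψ : ψ ∈ S
  · rw [if_pos hψ]
  · have hψB : ψ ∉ Cfsg.blockOf M (χ : G → ℂ) := fun hc => hψ (hS χ hχ ψ hc)
    rw [if_neg hψ, ← Helper77.conj_pregInner,
      Helper77.pregInner_eq_zero hM ⟨χ, rfl⟩ hψB (Helper16.sameBlock_refl hM.2.1 _), map_zero,
      zero_mul]

/-- **The rank of a union of blocks as a trace.** -/
theorem kr_card_mul_blockRank [Fintype (Cfsg.IrrCharacter G)] {p : ℕ} {M : Ideal Cfsg.AlgInt}
    (hM : Cfsg.IsPModular p M) {B : Set (Cfsg.IrrCharacter G)} (hB : KrClosed M B)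
    [DecidablePred (fun ψ => ψ ∈ B)] :
    (Nat.card G : ℂ) * (Cfsg.blockRank p B : ℂ)
      = ∑ χ ∈ Finset.univ.filter (fun ψ : Cfsg.IrrCharacter G => ψ ∈ B),
          Helper77.pregInner p (χ : G → ℂ) (χ : G → ℂ) := by
  classical
  have hcard : (Nat.card G : ℂ) ≠ 0 := by
    have : 0 < Nat.card G := Nat.card_pos
    exact_mod_cast this.ne'
  obtain ⟨v, hvdef⟩ : ∃ v : ↥B → (G → ℂ), ∀ χ, v χ = (χ.1 : G → ℂ) := ⟨_, fun _ => rfl⟩
  have hv : LinearIndependent ℂ v := by
    have h1 := (Helper81.irr_linearIndependent (G := G)).comp (Subtype.val : ↥B → _)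
      Subtype.val_injective
    have h2 : v = (fun χ : Cfsg.IrrCharacter G => (χ : G → ℂ)) ∘ (Subtype.val : ↥B → _) := by
      funext χ; rw [hvdef]; rfl
    rw [h2]; exact h1
  obtain ⟨a, ha⟩ : ∃ a : ↥B → ↥B → ℂ, ∀ χ ψ, a χ ψ =
      (Nat.card G : ℂ)⁻¹ * Helper77.pregInner p (χ.1 : G → ℂ) (ψ.1 : G → ℂ) := ⟨_, fun _ _ => rfl⟩
  have hproj_v : ∀ χ : ↥B, Helper77.pRegProj p (v χ) = ∑ ψ : ↥B, a χ ψ • v ψ := by
    intro χ
    have h1 : Helper77.pRegProj p (v χ) = (Nat.card G : ℂ)⁻¹ •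
        ∑ ψ ∈ Finset.univ.filter (fun ψ : Cfsg.IrrCharacter G => ψ ∈ B),
          Helper77.pregInner p (χ.1 : G → ℂ) (ψ : G → ℂ) • (ψ : G → ℂ) := by
      rw [← kr_card_smul_pRegularPart hM hB χ.2, smul_smul, inv_mul_cancel₀ hcard, one_smul,
        hvdef, Helper77.pRegProj_apply]
    rw [h1, Finset.smul_sum,
      Finset.sum_subtype (Finset.univ.filter (fun ψ : Cfsg.IrrCharacter G => ψ ∈ B))
        (p := fun ψ => ψ ∈ B) (fun ψ => by simp)]
    refine Finset.sum_congr rfl fun ψ _ => ?_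
    rw [smul_smul, hvdef, ha]
  -- the coordinate map
  obtain ⟨Φ, hΦ⟩ : ∃ Φ : (↥B → ℂ) →ₗ[ℂ] (G → ℂ), ∀ c, Φ c = ∑ ψ : ↥B, c ψ • v ψ :=
    ⟨{ toFun := fun c => ∑ ψ : ↥B, c ψ • v ψ
       map_add' := fun c d => by
        simp only [Pi.add_apply, add_smul, Finset.sum_add_distrib]
       map_smul' := fun r c => by
        simp only [Pi.smul_apply, smul_eq_mul, RingHom.id_apply, Finset.smul_sum, smul_smul] },
      fun _ => rfl⟩
  have hΦinj : Function.Injective Φ := by
    rw [← LinearMap.ker_eq_bot, LinearMap.ker_eq_bot']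
    intro c hc
    rw [hΦ] at hc
    funext ψ
    exact (Fintype.linearIndependent_iff.mp hv) c hc ψ
  -- the matrix of the projection in coordinates
  obtain ⟨f, hf⟩ : ∃ f : (↥B → ℂ) →ₗ[ℂ] (↥B → ℂ), ∀ c ψ, f c ψ = ∑ χ : ↥B, c χ * a χ ψ :=
    ⟨{ toFun := fun c ψ => ∑ χ : ↥B, c χ * a χ ψ
       map_add' := fun c d => by
        funext ψ
        simp only [Pi.add_apply, add_mul, Finset.sum_add_distrib]
       map_smul' := fun r c => by
        funext ψ
        simp only [Pi.smul_apply, smul_eq_mul, RingHom.id_apply, Finset.mul_sum, mul_assoc] },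
      fun _ _ => rfl⟩
  have hΦf : ∀ c, Φ (f c) = Helper77.pRegProj p (Φ c) := by
    intro c
    rw [hΦ, hΦ, map_sum]
    simp only [map_smul, hproj_v, hf, Finset.sum_smul, Finset.smul_sum, smul_smul]
    rw [Finset.sum_comm]
  have hff : ∀ c, f (f c) = f c := by
    intro c
    apply hΦinj
    rw [hΦf, hΦf, Helper77.pRegProj_idem]
  have hproj : LinearMap.IsProj (LinearMap.range f) f := by
    refine ⟨fun x => LinearMap.mem_range_self f x, ?_⟩
    rintro _ ⟨y, rfl⟩
    exact hff y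
  have htr := hproj.trace
  -- the range of `f` has the dimension of the span of the `p`-regular parts
  have hrank : Module.finrank ℂ ↥(LinearMap.range f) = Cfsg.blockRank p B := by
    rw [(Submodule.equivMapOfInjective Φ hΦinj (LinearMap.range f)).finrank_eq]
    unfold Cfsg.blockRank
    have hset : Submodule.map Φ (LinearMap.range f)
        = Submodule.span ℂ ((fun χ : Cfsg.IrrCharacter G => Cfsg.pRegularPart p (χ : G → ℂ)) '' B) := by
      apply le_antisymm
      · rintro _ ⟨_, ⟨c, rfl⟩, rfl⟩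
        rw [hΦf, hΦ, map_sum]
        refine Submodule.sum_mem _ fun χ _ => ?_
        rw [map_smul]
        refine Submodule.smul_mem _ _ (Submodule.subset_span ⟨χ.1, χ.2, ?_⟩)
        rw [hvdef]; rfl
      · rw [Submodule.span_le]
        rintro _ ⟨χ, hχ, rfl⟩
        refine ⟨f (Pi.single ⟨χ, hχ⟩ 1), LinearMap.mem_range_self f _, ?_⟩
        rw [hΦf, hΦ]
        have h1 : ∑ ψ : ↥B, (Pi.single (⟨χ, hχ⟩ : ↥B) (1 : ℂ) : ↥B → ℂ) ψ • v ψ = v ⟨χ, hχ⟩ := by
          rw [Finset.sum_eq_single (⟨χ, hχ⟩ : ↥B)]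
          · rw [Pi.single_eq_same, one_smul]
          · intro ψ _ hψ
            rw [Pi.single_eq_of_ne hψ, zero_smul]
          · intro h; exact absurd (Finset.mem_univ _) h
        rw [h1, hvdef]; rfl
    rw [hset]
  -- the trace in coordinates
  have htr2 : LinearMap.trace ℂ (↥B → ℂ) f = ∑ χ : ↥B, a χ χ := by
    rw [LinearMap.trace_eq_matrix_trace ℂ (Pi.basisFun ℂ ↥B) f, Matrix.trace]
    refine Finset.sum_congr rfl fun χ _ => ?_
    rw [Matrix.diag_apply, LinearMap.toMatrix_apply, Pi.basisFun_repr, Pi.basisFun_apply, hf,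
      Finset.sum_eq_single χ]
    · rw [Pi.single_eq_same, one_mul]
    · intro ψ _ hψ
      rw [Pi.single_eq_of_ne hψ, zero_mul]
    · intro h; exact absurd (Finset.mem_univ _) h
  rw [htr2, hrank] at htr
  rw [← htr, Finset.mul_sum,
    Finset.sum_subtype (Finset.univ.filter (fun ψ : Cfsg.IrrCharacter G => ψ ∈ B))
      (p := fun ψ => ψ ∈ B) (fun ψ => by simp)]
  refine Finset.sum_congr rfl fun χ _ => ?_
  rw [ha, ← mul_assoc, mul_inv_cancel₀ hcard, one_mul]

end kr1

end Cfsg.Agent.Helper79
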