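import Cfsg.Agent.Helper79.KR1
import Cfsg.Agent.Helper78.GenDecomp

/-!
# The section formula for unions of blocks

Let `z` be a `p`-element of `G` with centralizer `C`.

* `kr_weak_orth`: weak block orthogonality for a union of blocks.
* `kr_sum_blockPart_section`: `Σ_{χ ∈ Irr G} (ϑ_χ)_S(s) (ϑ'_χ)_S(s⁻¹) = Σ_{ψ ∈ S} |ψ(s)|²` for a
  union `S` of blocks of `C` and `p`-regular `s ∈ C`.
* `krSec M B' C`: the irreducible characters of the subgroup `C` lying in blocks which induce a
  block contained in `B'`.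
* `kr_section_sum`: for a union `B'` of blocks of `G` and `p`-regular `s ∈ C`:
  `Σ_{χ ∈ B'} |χ(z s)|² = Σ_{ψ ∈ krSec M B' C} |ψ(s)|²`.
-/

set_option autoImplicit false
set_option linter.unusedSectionVars false
open Cfsg
open scoped ComplexConjugate

namespace Cfsg.Agent.Helper79

universe u

section kr2

variable {G : Type u} [Group G] [Fintype G]

/-- Weak block orthogonality for a union of blocks. -/
theorem kr_weak_orth {p : ℕ} {M : Ideal Cfsg.AlgInt} (hM : Cfsg.IsPModular p M)
    {S : Set (Cfsg.IrrCharacter G)} (hS : KrClosed M S) {x y : G}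
    (hx : ¬ p ∣ orderOf x) (hy : p ∣ orderOf y) :
    ∑ᶠ χ ∈ S, (χ : G → ℂ) x * conj ((χ : G → ℂ) y) = 0 :=
  kr_sum_eq_zero hM.2.1 hS _ fun χ _ => Helper77.weak_block_orthogonality hM ⟨χ, rfl⟩ hx hy

/-- The irreducible characters of the subgroup `C` lying in blocks which induce a block contained
in `B'`. -/
def krSec (M : Ideal Cfsg.AlgInt) (B' : Set (Cfsg.IrrCharacter G)) (C : Subgroup G) :
    Set (Cfsg.IrrCharacter C) :=
  {ψ | ∃ (e : Set (Cfsg.IrrCharacter C)) (β : Set (Cfsg.IrrCharacter G)),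
    ψ ∈ e ∧ Cfsg.IsInducedBlock M C e β ∧ β ⊆ B'}

theorem kr_sec_closed {M : Ideal Cfsg.AlgInt} (hM : M.IsMaximal)
    (B' : Set (Cfsg.IrrCharacter G)) (C : Subgroup G) [Fintype C] : KrClosed M (krSec M B' C) := by
  rintro ψ ⟨e, β, hψ, hind, hβ⟩ ψ' h
  exact ⟨e, β, kr_closed_block hM hind.1 ψ hψ ψ' h, hind, hβ⟩

/-- Section orthogonality for the part in a union of blocks. -/
theorem kr_sum_blockPart_section {p : ℕ} [Fact p.Prime] {M : Ideal Cfsg.AlgInt}
    (hM : Cfsg.IsPModular p M) (z : G) (hz : ∃ k : ℕ, orderOf z = p ^ k)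
    (e : Set (Cfsg.IrrCharacter (Subgroup.centralizer ({z} : Set G)))) (he : KrClosed M e)
    (s : Subgroup.centralizer ({z} : Set G)) (hs : ¬ p ∣ orderOf s) :
    ∑ᶠ χ : Cfsg.IrrCharacter G,
        Cfsg.blockPart e (fun c : Subgroup.centralizer ({z} : Set G) => (χ : G → ℂ) (z * c)) s
          * Cfsg.blockPart e
              (fun c : Subgroup.centralizer ({z} : Set G) => (χ : G → ℂ) (z⁻¹ * c)) s⁻¹
      = ∑ᶠ ψ ∈ e, (ψ : Subgroup.centralizer ({z} : Set G) → ℂ) s
          * conj ((ψ : Subgroup.centralizer ({z} : Set G) → ℂ) s) := by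
  classical
  let _ : Fintype (Subgroup.centralizer ({z} : Set G)) := Fintype.ofFinite _
  have := Fintype.ofFinite (Cfsg.IrrCharacter G)
  have := Fintype.ofFinite (Cfsg.IrrCharacter (Subgroup.centralizer ({z} : Set G)))
  have hcomm : ∀ c : Subgroup.centralizer ({z} : Set G), z * (c : G) = (c : G) * z :=
    fun c => Subgroup.mem_centralizer_iff.mp c.2 z rfl
  have hcardC : (Nat.card (Subgroup.centralizer ({z} : Set G)) : ℂ) ≠ 0 := by
    have : 0 < Nat.card (Subgroup.centralizer ({z} : Set G)) := Nat.card_pos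
    exact_mod_cast this.ne'
  obtain ⟨E, hE⟩ : ∃ E : Finset (Cfsg.IrrCharacter (Subgroup.centralizer ({z} : Set G))),
      E = (Set.toFinite e).toFinset := ⟨_, rfl⟩
  obtain ⟨K, hK⟩ : ∃ K : Subgroup.centralizer ({z} : Set G) →
      Subgroup.centralizer ({z} : Set G) → ℂ, ∀ t c, K t c = ∑ ψ ∈ E,
        (ψ : Subgroup.centralizer ({z} : Set G) → ℂ) t
          * conj ((ψ : Subgroup.centralizer ({z} : Set G) → ℂ) c) := ⟨_, fun _ _ => rfl⟩
  -- the block part through the kernel
  have hK1 : ∀ (ϑ : Subgroup.centralizer ({z} : Set G) → ℂ)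
      (t : Subgroup.centralizer ({z} : Set G)),
      Cfsg.blockPart e ϑ t = (Nat.card (Subgroup.centralizer ({z} : Set G)) : ℂ)⁻¹ *
        ∑ c : Subgroup.centralizer ({z} : Set G), ϑ c * K t c := by
    intro ϑ t
    show ∑ᶠ ψ ∈ e, Cfsg.classInner ϑ (ψ : Subgroup.centralizer ({z} : Set G) → ℂ)
      * (ψ : Subgroup.centralizer ({z} : Set G) → ℂ) t = _
    rw [finsum_mem_eq_finite_toFinset_sum _ (Set.toFinite e), ← hE]
    calc ∑ ψ ∈ E, Cfsg.classInner ϑ (ψ : Subgroup.centralizer ({z} : Set G) → ℂ)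
          * (ψ : Subgroup.centralizer ({z} : Set G) → ℂ) t
        = ∑ ψ ∈ E, (Nat.card (Subgroup.centralizer ({z} : Set G)) : ℂ)⁻¹ *
            ∑ c : Subgroup.centralizer ({z} : Set G), ϑ c *
              ((ψ : Subgroup.centralizer ({z} : Set G) → ℂ) t
                * conj ((ψ : Subgroup.centralizer ({z} : Set G) → ℂ) c)) := by
          refine Finset.sum_congr rfl fun ψ _ => ?_
          unfold Cfsg.classInner
          rw [mul_assoc, Finset.sum_mul]
          congr 1
          refine Finset.sum_congr rfl fun c _ => ?_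
          ring
      _ = (Nat.card (Subgroup.centralizer ({z} : Set G)) : ℂ)⁻¹ *
            ∑ c : Subgroup.centralizer ({z} : Set G), ϑ c * K t c := by
          rw [← Finset.mul_sum, Finset.sum_comm]
          congr 1
          refine Finset.sum_congr rfl fun c _ => ?_
          rw [hK, Finset.mul_sum]
  -- weak block orthogonality
  have hK0 : ∀ t c : Subgroup.centralizer ({z} : Set G), ¬ p ∣ orderOf t → p ∣ orderOf c →
      K t c = 0 := by
    intro t c ht hc
    have h1 := kr_weak_orth hM he ht hc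
    rw [finsum_mem_eq_finite_toFinset_sum _ (Set.toFinite e), ← hE] at h1
    rw [hK, h1]
  have hKcl : ∀ t c d : Subgroup.centralizer ({z} : Set G), K t (d * c * d⁻¹) = K t c := by
    intro t c d
    rw [hK, hK]
    simp only [Helper81.irr_conj]
  -- the kernel composed with itself
  have hKK : ∀ t t' : Subgroup.centralizer ({z} : Set G),
      ∑ c : Subgroup.centralizer ({z} : Set G), K t' c * K t c⁻¹
        = (Nat.card (Subgroup.centralizer ({z} : Set G)) : ℂ) *
          ∑ ψ ∈ E, (ψ : Subgroup.centralizer ({z} : Set G) → ℂ) t'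
            * (ψ : Subgroup.centralizer ({z} : Set G) → ℂ) t := by
    intro t t'
    have h1 : ∀ c : Subgroup.centralizer ({z} : Set G), K t' c * K t c⁻¹
        = ∑ ψ ∈ E, ∑ ψ' ∈ E, (ψ : Subgroup.centralizer ({z} : Set G) → ℂ) t'
            * (ψ' : Subgroup.centralizer ({z} : Set G) → ℂ) t
            * ((ψ' : Subgroup.centralizer ({z} : Set G) → ℂ) c
              * (ψ : Subgroup.centralizer ({z} : Set G) → ℂ) c⁻¹) := by
      intro c
      rw [hK, hK, Finset.sum_mul_sum]
      refine Finset.sum_congr rfl fun ψ _ => Finset.sum_congr rfl fun ψ' _ => ?_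
      rw [Helper77.irr_inv ψ' c, Complex.conj_conj, Helper77.irr_inv ψ c]
      ring
    rw [Finset.sum_congr rfl (fun c _ => h1 c), Finset.sum_comm, Finset.mul_sum]
    refine Finset.sum_congr rfl fun ψ hψ => ?_
    rw [Finset.sum_comm]
    have h2 : ∀ ψ' ∈ E, ∑ c : Subgroup.centralizer ({z} : Set G),
        (ψ : Subgroup.centralizer ({z} : Set G) → ℂ) t'
          * (ψ' : Subgroup.centralizer ({z} : Set G) → ℂ) t
          * ((ψ' : Subgroup.centralizer ({z} : Set G) → ℂ) c
            * (ψ : Subgroup.centralizer ({z} : Set G) → ℂ) c⁻¹)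
        = if ψ' = ψ then (Nat.card (Subgroup.centralizer ({z} : Set G)) : ℂ) *
            ((ψ : Subgroup.centralizer ({z} : Set G) → ℂ) t'
              * (ψ : Subgroup.centralizer ({z} : Set G) → ℂ) t) else 0 := by
      intro ψ' _
      rw [← Finset.mul_sum]
      have h3 := Helper81.irr_orthonormal ψ' ψ
      by_cases hψψ : ψ' = ψ
      · rw [if_pos hψψ] at h3 ⊢
        have h4 : ∑ c : Subgroup.centralizer ({z} : Set G),
            (ψ' : Subgroup.centralizer ({z} : Set G) → ℂ) c
              * (ψ : Subgroup.centralizer ({z} : Set G) → ℂ) c⁻¹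
            = (Nat.card (Subgroup.centralizer ({z} : Set G)) : ℂ) := by
          field_simp at h3
          linear_combination h3
        rw [h4, hψψ]
        ring
      · rw [if_neg hψψ] at h3 ⊢
        rcases mul_eq_zero.mp h3 with h5 | h5
        · exact absurd h5 (inv_ne_zero hcardC)
        · rw [h5, mul_zero]
    rw [Finset.sum_congr rfl h2, Finset.sum_ite_eq' E ψ, if_pos hψ]
  -- main computation
  have hsinv : ¬ p ∣ orderOf s⁻¹ := by rw [orderOf_inv]; exact hs
  rw [finsum_eq_sum_of_fintype]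
  have hterm : ∀ χ : Cfsg.IrrCharacter G,
      Cfsg.blockPart e (fun c : Subgroup.centralizer ({z} : Set G) => (χ : G → ℂ) (z * c)) s
          * Cfsg.blockPart e
              (fun c : Subgroup.centralizer ({z} : Set G) => (χ : G → ℂ) (z⁻¹ * c)) s⁻¹
        = ((Nat.card (Subgroup.centralizer ({z} : Set G)) : ℂ)⁻¹) ^ 2 *
          ∑ c' : Subgroup.centralizer ({z} : Set G), K s⁻¹ c' * ((χ : G → ℂ) (z⁻¹ * (c' : G)) *
            ∑ c : Subgroup.centralizer ({z} : Set G), K s c * (χ : G → ℂ) (z * (c : G))) := by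
    intro χ
    rw [hK1, hK1, mul_mul_mul_comm, ← pow_two, Finset.sum_mul_sum]
    congr 1
    rw [Finset.sum_comm]
    refine Finset.sum_congr rfl fun c' _ => ?_
    rw [Finset.mul_sum, Finset.mul_sum]
    refine Finset.sum_congr rfl fun c _ => ?_
    ring
  rw [Finset.sum_congr rfl (fun χ _ => hterm χ), ← Finset.mul_sum, Finset.sum_comm]
  have hc' : ∀ c' : Subgroup.centralizer ({z} : Set G),
      ∑ χ : Cfsg.IrrCharacter G, K s⁻¹ c' * ((χ : G → ℂ) (z⁻¹ * (c' : G)) *
        ∑ c : Subgroup.centralizer ({z} : Set G), K s c * (χ : G → ℂ) (z * (c : G)))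
      = (Nat.card (Subgroup.centralizer ({z} : Set G)) : ℂ) * (K s⁻¹ c' * K s c'⁻¹) := by
    intro c'
    by_cases hcs : p ∣ orderOf c'
    · rw [hK0 s⁻¹ c' hsinv hcs]
      simp
    · have hcinv : ¬ p ∣ orderOf c'⁻¹ := by rw [orderOf_inv]; exact hcs
      have h1 := Helper78.section_fourier z hz (K s) (hKcl s) (fun c hc => hK0 s c hs hc) c'⁻¹
        hcinv
      rw [← Finset.mul_sum]
      have h2 : ∀ χ : Cfsg.IrrCharacter G, (χ : G → ℂ) (z⁻¹ * (c' : G))
          = conj ((χ : G → ℂ) (z * ((c'⁻¹ : Subgroup.centralizer ({z} : Set G)) : G))) := by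
        intro χ
        rw [← Helper77.irr_inv]
        refine congrArg (χ : G → ℂ) ?_
        rw [Subgroup.coe_inv, mul_inv_rev, inv_inv]
        have h3 := hcomm c'
        calc z⁻¹ * (c' : G) = z⁻¹ * ((c' : G) * z) * z⁻¹ := by group
          _ = z⁻¹ * (z * (c' : G)) * z⁻¹ := by rw [h3]
          _ = (c' : G) * z⁻¹ := by group
      rw [Finset.sum_congr rfl (fun χ _ => by rw [h2 χ]), h1]
      ring
  rw [Finset.sum_congr rfl (fun c' _ => hc' c'), ← Finset.mul_sum, hKK s s⁻¹,
    finsum_mem_eq_finite_toFinset_sum _ (Set.toFinite e), ← hE]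
  rw [Finset.sum_congr rfl (fun ψ _ => by rw [Helper77.irr_inv ψ s])]
  have h5 : ∀ ψ ∈ E, conj ((ψ : Subgroup.centralizer ({z} : Set G) → ℂ) s)
        * (ψ : Subgroup.centralizer ({z} : Set G) → ℂ) s
      = (ψ : Subgroup.centralizer ({z} : Set G) → ℂ) s
        * conj ((ψ : Subgroup.centralizer ({z} : Set G) → ℂ) s) := fun ψ _ => mul_comm _ _
  rw [Finset.sum_congr rfl h5]
  field_simp

end kr2

end Cfsg.Agent.Helper79
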