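import Cfsg.Agent.Helper79.KR2
import Cfsg.Agent.Helper81.SectionCount
import Cfsg.Agent.Helper15.CharInner

/-!
# The section formula for unions of blocks, II

* `kr_section_sum`: for a union `B'` of blocks of `G`, a `p`-element `z` with centralizer `C` and
  a `p`-regular `s ∈ C`: `Σ_{χ ∈ B'} |χ(z s)|² = Σ_{ψ ∈ krSec M B' C} |ψ(s)|²`.
* `kr_section_formula`: `|G| (k(B') - l(B')) = Σ_{z ≠ 1 a p-element} |C_G(z)| l(krSec M B' C_G(z))`.
-/

set_option autoImplicit false
set_option linter.unusedSectionVars false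
open Cfsg
open scoped ComplexConjugate

namespace Cfsg.Agent.Helper79

universe u

section kr3

variable {G : Type u} [Group G] [Fintype G]

/-- The block part of `c ↦ conj (F c⁻¹)` at `s⁻¹` is the conjugate of the block part of `F` at
`s`. -/
theorem kr_blockPart_conj {H : Type u} [Group H] [Finite H] (S : Set (Cfsg.IrrCharacter H))
    (F F' : H → ℂ) (hF : ∀ c, F' c = conj (F c⁻¹)) (s : H) :
    Cfsg.blockPart S F' s⁻¹ = conj (Cfsg.blockPart S F s) := by
  classical
  let _ : Fintype H := Fintype.ofFinite H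
  have := Fintype.ofFinite (Cfsg.IrrCharacter H)
  show ∑ᶠ ψ ∈ S, Cfsg.classInner F' (ψ : H → ℂ) * (ψ : H → ℂ) s⁻¹
    = conj (∑ᶠ ψ ∈ S, Cfsg.classInner F (ψ : H → ℂ) * (ψ : H → ℂ) s)
  rw [finsum_mem_eq_finite_toFinset_sum _ (Set.toFinite S),
    finsum_mem_eq_finite_toFinset_sum _ (Set.toFinite S), map_sum]
  refine Finset.sum_congr rfl fun ψ _ => ?_
  rw [map_mul, Helper77.irr_inv ψ s]
  congr 1
  unfold Cfsg.classInner
  rw [map_mul, map_inv₀, Complex.conj_natCast, map_sum]
  congr 1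
  rw [← Equiv.sum_comp (Equiv.inv H)]
  refine Finset.sum_congr rfl fun c _ => ?_
  rw [Equiv.inv_apply, hF, inv_inv, map_mul, Helper77.irr_inv ψ c]

/-- **The section formula, pointwise.** -/
theorem kr_section_sum {p : ℕ} [Fact p.Prime] {M : Ideal Cfsg.AlgInt}
    (hM : Cfsg.IsPModular p M) (z : G) (hz : ∃ k : ℕ, orderOf z = p ^ k)
    (B' : Set (Cfsg.IrrCharacter G)) (hB' : KrClosed M B')
    (s : Subgroup.centralizer ({z} : Set G)) (hs : ¬ p ∣ orderOf s) :
    ∑ᶠ χ ∈ B', (χ : G → ℂ) (z * s) * conj ((χ : G → ℂ) (z * s))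
      = ∑ᶠ ψ ∈ krSec M B' (Subgroup.centralizer ({z} : Set G)),
          (ψ : Subgroup.centralizer ({z} : Set G) → ℂ) s
            * conj ((ψ : Subgroup.centralizer ({z} : Set G) → ℂ) s) := by
  classical
  let _ : Fintype (Subgroup.centralizer ({z} : Set G)) := Fintype.ofFinite _
  have := Fintype.ofFinite (Cfsg.IrrCharacter G)
  have := Fintype.ofFinite (Cfsg.IrrCharacter (Subgroup.centralizer ({z} : Set G)))
  have hMm := hM.2.1
  have hSc := kr_sec_closed hMm B' (Subgroup.centralizer ({z} : Set G))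
  rw [← kr_sum_blockPart_section hM z hz _ hSc s hs]
  have hcomm : ∀ c : Subgroup.centralizer ({z} : Set G), z * (c : G) = (c : G) * z :=
    fun c => Subgroup.mem_centralizer_iff.mp c.2 z rfl
  have hFcl : ∀ χ : Cfsg.IrrCharacter G, Cfsg.IsClassFunction (Subgroup.centralizer ({z} : Set G))
      (fun c : Subgroup.centralizer ({z} : Set G) => (χ : G → ℂ) (z * c)) := by
    intro χ c d
    show (χ : G → ℂ) (z * ((d * c * d⁻¹ : Subgroup.centralizer ({z} : Set G)) : G))
      = (χ : G → ℂ) (z * (c : G))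
    have e : z * ((d * c * d⁻¹ : Subgroup.centralizer ({z} : Set G)) : G)
        = (d : G) * (z * (c : G)) * (d : G)⁻¹ := by
      push_cast
      calc z * ((d : G) * (c : G) * (d : G)⁻¹) = (z * (d : G)) * (c : G) * (d : G)⁻¹ := by group
        _ = ((d : G) * z) * (c : G) * (d : G)⁻¹ := by rw [hcomm d]
        _ = (d : G) * (z * (c : G)) * (d : G)⁻¹ := by group
    rw [e]
    exact Helper81.irr_conj χ _ _
  -- the part in the complement vanishes for `χ ∈ B'`
  have hin : ∀ χ ∈ B', Cfsg.blockPart (krSec M B' (Subgroup.centralizer ({z} : Set G)))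
      (fun c : Subgroup.centralizer ({z} : Set G) => (χ : G → ℂ) (z * c)) s
      = (χ : G → ℂ) (z * s) := by
    intro χ hχ
    have hexp := congrFun (Helper15.classFun_eq_sum (hFcl χ)) s
    simp only [Finset.sum_apply, Pi.smul_apply, smul_eq_mul] at hexp
    have hcompl : ∑ᶠ ψ ∈ (krSec M B' (Subgroup.centralizer ({z} : Set G)))ᶜ,
        Cfsg.classInner (fun c : Subgroup.centralizer ({z} : Set G) => (χ : G → ℂ) (z * c))
          (ψ : Subgroup.centralizer ({z} : Set G) → ℂ)
          * (ψ : Subgroup.centralizer ({z} : Set G) → ℂ) s = 0 := by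
      refine kr_sum_eq_zero hMm (kr_closed_compl hSc) _ fun ψ hψ => ?_
      refine Helper16.finsum_classInner_centralizer_eq_zero hM z hz
        (B := Cfsg.blockOf M (χ : G → ℂ)) ⟨χ, rfl⟩ χ (Helper16.sameBlock_refl hMm _)
        (b := Cfsg.blockOf M (ψ : Subgroup.centralizer ({z} : Set G) → ℂ)) ⟨ψ, rfl⟩ ?_ s hs
      intro hi
      exact hψ ⟨_, _, Helper16.sameBlock_refl hMm _, hi, fun χ' h => hB' χ hχ χ' h⟩
    show ∑ᶠ ψ ∈ krSec M B' (Subgroup.centralizer ({z} : Set G)),
      Cfsg.classInner (fun c : Subgroup.centralizer ({z} : Set G) => (χ : G → ℂ) (z * c))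
          (ψ : Subgroup.centralizer ({z} : Set G) → ℂ)
          * (ψ : Subgroup.centralizer ({z} : Set G) → ℂ) s = _
    have hsplit : ∀ f : Cfsg.IrrCharacter (Subgroup.centralizer ({z} : Set G)) → ℂ,
        ∑ᶠ ψ : Cfsg.IrrCharacter (Subgroup.centralizer ({z} : Set G)), f ψ
          = ∑ᶠ ψ ∈ krSec M B' (Subgroup.centralizer ({z} : Set G)), f ψ
            + ∑ᶠ ψ ∈ (krSec M B' (Subgroup.centralizer ({z} : Set G)))ᶜ, f ψ := by
      intro f
      rw [← finsum_mem_union disjoint_compl_right (Set.toFinite _) (Set.toFinite _),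
        Set.union_compl_self, finsum_mem_univ]
    have hsp := hsplit (fun ψ : Cfsg.IrrCharacter (Subgroup.centralizer ({z} : Set G)) =>
      Cfsg.classInner (fun c : Subgroup.centralizer ({z} : Set G) => (χ : G → ℂ) (z * c))
          (ψ : Subgroup.centralizer ({z} : Set G) → ℂ)
          * (ψ : Subgroup.centralizer ({z} : Set G) → ℂ) s)
    rw [hcompl, add_zero, finsum_eq_sum_of_fintype, ← hexp] at hsp
    exact hsp.symm
  have hout : ∀ χ : Cfsg.IrrCharacter G, χ ∉ B' →
      Cfsg.blockPart (krSec M B' (Subgroup.centralizer ({z} : Set G)))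
      (fun c : Subgroup.centralizer ({z} : Set G) => (χ : G → ℂ) (z * c)) s = 0 := by
    intro χ hχ
    show ∑ᶠ ψ ∈ krSec M B' (Subgroup.centralizer ({z} : Set G)),
      Cfsg.classInner (fun c : Subgroup.centralizer ({z} : Set G) => (χ : G → ℂ) (z * c))
          (ψ : Subgroup.centralizer ({z} : Set G) → ℂ)
          * (ψ : Subgroup.centralizer ({z} : Set G) → ℂ) s = 0
    refine kr_sum_eq_zero hMm hSc _ fun ψ hψ => ?_
    obtain ⟨e, β, hψe, hind, hβ⟩ := hψ
    refine Helper16.finsum_classInner_centralizer_eq_zero hM z hz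
      (B := Cfsg.blockOf M (χ : G → ℂ)) ⟨χ, rfl⟩ χ (Helper16.sameBlock_refl hMm _)
      (b := Cfsg.blockOf M (ψ : Subgroup.centralizer ({z} : Set G) → ℂ)) ⟨ψ, rfl⟩ ?_ s hs
    intro hi
    rw [← Helper16.eq_blockOf_of_mem hMm hind.1 hψe] at hi
    have h1 := Helper78.isInducedBlock_unique hMm hind hi
    exact hχ (hβ (h1 ▸ Helper16.sameBlock_refl hMm _))
  have hconj : ∀ χ : Cfsg.IrrCharacter G,
      Cfsg.blockPart (krSec M B' (Subgroup.centralizer ({z} : Set G)))
        (fun c : Subgroup.centralizer ({z} : Set G) => (χ : G → ℂ) (z⁻¹ * c)) s⁻¹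
      = conj (Cfsg.blockPart (krSec M B' (Subgroup.centralizer ({z} : Set G)))
        (fun c : Subgroup.centralizer ({z} : Set G) => (χ : G → ℂ) (z * c)) s) := by
    intro χ
    apply kr_blockPart_conj
    intro c
    rw [← Helper77.irr_inv]
    refine congrArg (χ : G → ℂ) ?_
    rw [Subgroup.coe_inv, mul_inv_rev, inv_inv]
    have h3 := hcomm c
    calc z⁻¹ * (c : G) = z⁻¹ * ((c : G) * z) * z⁻¹ := by group
      _ = z⁻¹ * (z * (c : G)) * z⁻¹ := by rw [h3]
      _ = (c : G) * z⁻¹ := by group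
  rw [finsum_mem_def]
  refine finsum_congr fun χ => ?_
  by_cases hχ : χ ∈ B'
  · rw [Set.indicator_of_mem hχ, hconj, hin χ hχ]
  · rw [Set.indicator_of_notMem hχ, hout χ hχ, zero_mul]

/-- `∑_{y p-regular} ∑_{ζ ∈ B} |ζ(y)|² = |G| · l(B)` for a union of blocks. -/
theorem kr_sum_pRegular {p : ℕ} [Fact p.Prime] {M : Ideal Cfsg.AlgInt}
    (hM : Cfsg.IsPModular p M) {B : Set (Cfsg.IrrCharacter G)} (hB : KrClosed M B) :
    ∑ y ∈ Finset.univ.filter (fun y : G => ¬ p ∣ orderOf y),
        ∑ᶠ ζ ∈ B, (ζ : G → ℂ) y * conj ((ζ : G → ℂ) y)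
      = (Nat.card G : ℂ) * (Cfsg.blockRank p B : ℂ) := by
  classical
  have := Fintype.ofFinite (Cfsg.IrrCharacter G)
  rw [kr_card_mul_blockRank hM hB]
  simp only [Helper81.finsum_mem_eq_sum_filter_univ]
  rw [Finset.sum_comm]
  refine Finset.sum_congr rfl fun ζ _ => ?_
  rw [Helper77.pregInner, Finset.sum_filter]

/-- `|G| · k(B) = |G| · l(B) + ∑_{g p-singular} ∑_{ζ ∈ B} |ζ(g)|²` for a union of blocks. -/
theorem kr_card_mul_card {p : ℕ} [Fact p.Prime] {M : Ideal Cfsg.AlgInt}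
    (hM : Cfsg.IsPModular p M) {B : Set (Cfsg.IrrCharacter G)} (hB : KrClosed M B) :
    (Nat.card G : ℂ) * (Nat.card B : ℂ)
      = (Nat.card G : ℂ) * (Cfsg.blockRank p B : ℂ)
        + ∑ g ∈ Finset.univ.filter (fun g : G => p ∣ orderOf g),
            ∑ᶠ ζ ∈ B, (ζ : G → ℂ) g * conj ((ζ : G → ℂ) g) := by
  classical
  have := Fintype.ofFinite (Cfsg.IrrCharacter G)
  rw [← kr_sum_pRegular hM hB]
  have hsplit : ∀ F : G → ℂ, ∑ g : G, F g
      = ∑ g ∈ Finset.univ.filter (fun g : G => ¬ p ∣ orderOf g), F g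
        + ∑ g ∈ Finset.univ.filter (fun g : G => p ∣ orderOf g), F g := by
    intro F
    rw [add_comm]
    exact (Finset.sum_filter_add_sum_filter_not Finset.univ (fun g : G => p ∣ orderOf g) F).symm
  rw [← hsplit]
  simp only [Helper81.finsum_mem_eq_sum_filter_univ]
  rw [Finset.sum_comm]
  have hrow : ∀ ζ : Cfsg.IrrCharacter G,
      ∑ g : G, (ζ : G → ℂ) g * conj ((ζ : G → ℂ) g) = (Nat.card G : ℂ) := by
    intro ζ
    have h := Helper81.irr_orthonormal ζ ζ
    rw [if_pos rfl] at h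
    have hcard : (Nat.card G : ℂ) ≠ 0 := by
      have : 0 < Nat.card G := Nat.card_pos
      exact_mod_cast this.ne'
    have h2 : ∑ g : G, (ζ : G → ℂ) g * (ζ : G → ℂ) g⁻¹ = (Nat.card G : ℂ) := by
      field_simp at h
      linear_combination h
    rw [← h2]
    refine Finset.sum_congr rfl fun g _ => ?_
    rw [Helper77.irr_inv]
  rw [Finset.sum_congr rfl fun ζ _ => hrow ζ, Finset.sum_const, nsmul_eq_mul, mul_comm]
  congr 1
  rw [Nat.card_eq_fintype_card, Fintype.card_subtype]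

/-- **The section formula** for a union `B'` of blocks. -/
theorem kr_section_formula {p : ℕ} [Fact p.Prime] {M : Ideal Cfsg.AlgInt}
    (hM : Cfsg.IsPModular p M) (B' : Set (Cfsg.IrrCharacter G)) (hB' : KrClosed M B') :
    (Nat.card G : ℂ) * ((Nat.card B' : ℂ) - (Cfsg.blockRank p B' : ℂ))
      = ∑ᶠ z ∈ {z : G | z ≠ 1 ∧ ∃ k : ℕ, orderOf z = p ^ k},
          (Nat.card (Subgroup.centralizer ({z} : Set G)) : ℂ)
            * (Cfsg.blockRank p (krSec M B' (Subgroup.centralizer ({z} : Set G))) : ℂ) := by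
  classical
  have hMm := hM.2.1
  rw [mul_sub, kr_card_mul_card hM hB', add_sub_cancel_left,
    Helper81.sum_pSingular_eq_sum_sections p, Helper81.finsum_mem_eq_sum_filter_univ]
  refine Finset.sum_congr ?_ fun z hz => ?_
  · ext z
    simp only [Finset.mem_filter, Finset.mem_univ, true_and, Set.mem_ofPred_eq]
  rw [Finset.mem_filter] at hz
  obtain ⟨-, -, hzp⟩ := hz
  let _ : Fintype (Subgroup.centralizer ({z} : Set G)) := Fintype.ofFinite _
  rw [← kr_sum_pRegular hM (kr_sec_closed hMm B' (Subgroup.centralizer ({z} : Set G)))]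
  symm
  apply Finset.sum_bij (fun (s : Subgroup.centralizer ({z} : Set G)) _ => (s : G))
  · intro s hs
    rw [Finset.mem_filter] at hs ⊢
    refine ⟨Finset.mem_univ _, Subgroup.mem_centralizer_iff.mp s.2 z rfl, ?_⟩
    rw [Subgroup.orderOf_coe]
    exact hs.2
  · intro a _ b _ h
    exact Subtype.ext h
  · intro y hy
    rw [Finset.mem_filter] at hy
    obtain ⟨-, hcomm, hyreg⟩ := hy
    have hyH : y ∈ Subgroup.centralizer ({z} : Set G) := by
      rw [Subgroup.mem_centralizer_iff]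
      intro s hs
      rw [Set.mem_singleton_iff] at hs
      rw [hs]
      exact hcomm.eq
    refine ⟨⟨y, hyH⟩, ?_, rfl⟩
    rw [Finset.mem_filter]
    refine ⟨Finset.mem_univ _, ?_⟩
    rw [← Subgroup.orderOf_coe]
    exact hyreg
  · intro s hs
    rw [Finset.mem_filter] at hs
    exact (kr_section_sum hM z hzp B' hB' s hs.2).symm

end kr3

end Cfsg.Agent.Helper79
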