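import Cfsg.Agent.Helper79.KR3
import Cfsg.Agent.Helper75.BlockTransport
import Cfsg.Agent.Helper16.ExtFMT

/-!
# The section formula relative to a block of an overgroup

Let `b` be a block of `G`.  For a subgroup `H` of `G`, `krInd M b H` is the set of irreducible
characters of `H` lying in blocks of `H` which induce `b`.

* `kr_blockRank_irrComp`: the `p`-regular rank is invariant under isomorphisms.
* `kr_sec_eq`: the sections of `krInd M b H` are the sets `krInd M b K`.
* `kr_rel_formula`: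
  `|H| (k(krInd H) - l(krInd H)) = Σ_{z ∈ H a p-element ≠ 1} |C_H(z)| l(krInd (C_G(z) ∩ H))`.
* `kr_abs_formula`: the same for `G` itself.
-/

set_option autoImplicit false
set_option linter.unusedSectionVars false
open Cfsg
open scoped ComplexConjugate

namespace Cfsg.Agent.Helper79

universe u

section kr4

/-- The `p`-regular rank is invariant under group isomorphisms. -/
theorem kr_blockRank_irrComp {H K : Type u} [Group H] [Group K] (p : ℕ) (σ : H ≃* K)
    (S : Set (Cfsg.IrrCharacter K)) :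
    Cfsg.blockRank p (Helper75.irrComp σ '' S) = Cfsg.blockRank p S := by
  unfold Cfsg.blockRank
  have hpre : ∀ χ : Cfsg.IrrCharacter K,
      Cfsg.pRegularPart p (Helper75.irrComp σ χ : H → ℂ)
        = LinearEquiv.funCongrLeft ℂ ℂ σ.toEquiv (Cfsg.pRegularPart p (χ : K → ℂ)) := by
    intro χ
    funext h
    show Cfsg.pRegularPart p (Helper75.irrComp σ χ : H → ℂ) h
      = Cfsg.pRegularPart p (χ : K → ℂ) (σ h)
    rw [Helper77.pRegularPart_apply, Helper77.pRegularPart_apply, Helper75.irrComp_apply,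
      MulEquiv.orderOf_eq]
  have hset : (fun χ : Cfsg.IrrCharacter H => Cfsg.pRegularPart p (χ : H → ℂ))
        '' (Helper75.irrComp σ '' S)
      = (LinearEquiv.funCongrLeft ℂ ℂ σ.toEquiv) ''
        ((fun χ : Cfsg.IrrCharacter K => Cfsg.pRegularPart p (χ : K → ℂ)) '' S) := by
    rw [Set.image_image, Set.image_image]
    exact Set.image_congr fun χ _ => hpre χ
  rw [hset]
  have h2 := Submodule.map_span (LinearEquiv.funCongrLeft ℂ ℂ σ.toEquiv).toLinearMap
    ((fun χ : Cfsg.IrrCharacter K => Cfsg.pRegularPart p (χ : K → ℂ)) '' S)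
  have h3 := LinearEquiv.finrank_map_eq (LinearEquiv.funCongrLeft ℂ ℂ σ.toEquiv)
    (Submodule.span ℂ ((fun χ : Cfsg.IrrCharacter K => Cfsg.pRegularPart p (χ : K → ℂ)) '' S))
  rw [← h3]
  exact congrArg (fun W : Submodule ℂ (H → ℂ) => Module.finrank ℂ ↥W) h2.symm

variable {G : Type u} [Group G] [Fintype G]

/-- The irreducible characters of `H` lying in blocks of `H` which induce `b`. -/
def krInd (M : Ideal Cfsg.AlgInt) (b : Set (Cfsg.IrrCharacter G)) (H : Subgroup G) :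
    Set (Cfsg.IrrCharacter H) :=
  {ψ | ∃ β : Set (Cfsg.IrrCharacter H), ψ ∈ β ∧ Cfsg.IsInducedBlock M H β b}

theorem kr_ind_closed {M : Ideal Cfsg.AlgInt} (hM : M.IsMaximal)
    (b : Set (Cfsg.IrrCharacter G)) (H : Subgroup G) [Fintype H] : KrClosed M (krInd M b H) := by
  rintro ψ ⟨β, hψ, hind⟩ ψ' h
  exact ⟨β, kr_closed_block hM hind.1 ψ hψ ψ' h, hind⟩

/-- For a block `b`, the section of `b` at a subgroup `C` is `krInd M b C`. -/
theorem kr_sec_block {M : Ideal Cfsg.AlgInt} (hM : M.IsMaximal)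
    {b : Set (Cfsg.IrrCharacter G)} (hb : Cfsg.IsPBlock M b) (C : Subgroup G) [Fintype C] :
    krSec M b C = krInd M b C := by
  ext ψ
  constructor
  · rintro ⟨e, β, hψ, hind, hβ⟩
    obtain ⟨ξ, hξ⟩ := Helper16.exists_mem_of_isPBlock hM hind.2.1
    have h1 : β = b := Helper77.block_eq_of_mem hM hind.2.1 hb hξ (hβ hξ)
    rw [h1] at hind
    exact ⟨e, hψ, hind⟩
  · rintro ⟨e, hψ, hind⟩
    exact ⟨e, b, hψ, hind, subset_rfl⟩

/-- The sections of `krInd M b H` in terms of `krInd M b K`. -/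
theorem kr_sec_eq {M : Ideal Cfsg.AlgInt} (hM : M.IsMaximal) (b : Set (Cfsg.IrrCharacter G))
    (H K : Subgroup G) (hKH : K ≤ H)
    (hex : ∀ e : Set (Cfsg.IrrCharacter (K.subgroupOf H)), Cfsg.IsPBlock M e →
      ∃ β : Set (Cfsg.IrrCharacter H), Cfsg.IsInducedBlock M (K.subgroupOf H) e β) :
    krSec M (krInd M b H) (K.subgroupOf H)
      = Helper75.irrComp (Subgroup.subgroupOfEquivOfLe hKH) '' krInd M b K := by
  classical
  let _ : Fintype H := Fintype.ofFinite _
  let _ : Fintype K := Fintype.ofFinite _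
  let _ : Fintype (K.subgroupOf H) := Fintype.ofFinite _
  -- the key congruence
  have key : ∀ (e : Set (Cfsg.IrrCharacter (K.subgroupOf H))) (β : Set (Cfsg.IrrCharacter H)),
      Cfsg.IsInducedBlock M (K.subgroupOf H) e β → ∀ θ : Cfsg.IrrCharacter K,
      Helper75.irrComp (Subgroup.subgroupOfEquivOfLe hKH) θ ∈ e → ∀ ξ ∈ β, ∀ g : G,
      Cfsg.MemLocalIdeal M (Cfsg.inducedCentralChar K (θ : K → ℂ) g
        - Cfsg.inducedCentralChar H (ξ : H → ℂ) g) := by
    intro e β hind θ hθ ξ hξ g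
    exact Helper16.inducedCentralChar_trans hM hKH (θ : K → ℂ) ξ
      (fun n => hind.2.2 _ hθ ξ hξ n) g
  ext ψ
  constructor
  · rintro ⟨e, β, hψ, hind, hβ⟩
    refine ⟨Helper75.irrComp (Subgroup.subgroupOfEquivOfLe hKH).symm ψ, ?_,
      Helper75.irrComp_irrComp_symm_gen _ ψ⟩
    obtain ⟨ξ, hξ⟩ := Helper16.exists_mem_of_isPBlock hM hind.2.1
    obtain ⟨β', hξ', hβ'⟩ := hβ hξ
    have h1 : β' = β := Helper77.block_eq_of_mem hM hβ'.1 hind.2.1 hξ' hξ
    rw [h1] at hβ'
    refine ⟨Cfsg.blockOf M ((Helper75.irrComp (Subgroup.subgroupOfEquivOfLe hKH).symm ψ : K → ℂ)),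
      Helper16.sameBlock_refl hM _, ⟨_, rfl⟩, hβ'.2.1, fun θ' hθ' χ hχ g => ?_⟩
    have hθ'e : Helper75.irrComp (Subgroup.subgroupOfEquivOfLe hKH) θ' ∈ e := by
      have h2 : Cfsg.SameBlock M
          ((Helper75.irrComp (Subgroup.subgroupOfEquivOfLe hKH)
            (Helper75.irrComp (Subgroup.subgroupOfEquivOfLe hKH).symm ψ) :
              ↥(K.subgroupOf H) → ℂ))
          ((Helper75.irrComp (Subgroup.subgroupOfEquivOfLe hKH) θ' : ↥(K.subgroupOf H) → ℂ)) :=
        Helper75.sameBlock_comp_mulEquiv (Subgroup.subgroupOfEquivOfLe hKH) hθ'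
      rw [Helper75.irrComp_irrComp_symm_gen] at h2
      exact kr_closed_block hM hind.1 ψ hψ _ h2
    have h3 := key e β hind θ' hθ'e ξ hξ g
    have h4 := hβ'.2.2 ξ hξ χ hχ g
    have h5 := Helper77.memLocalIdeal_add hM h3 h4
    rwa [sub_add_sub_cancel] at h5
  · rintro ⟨θ, ⟨ê, hθ, hind⟩, rfl⟩
    have he : Cfsg.IsPBlock M (Helper75.irrComp (Subgroup.subgroupOfEquivOfLe hKH) '' ê) :=
      Helper75.isPBlock_image_irrComp _ hind.1
    obtain ⟨β, hβ⟩ := hex _ he
    have hβb : Cfsg.IsInducedBlock M H β b := by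
      refine ⟨hβ.2.1, hind.2.1, fun ξ hξ χ hχ g => ?_⟩
      have h3 := key _ β hβ θ ⟨θ, hθ, rfl⟩ ξ hξ g
      have h4 := hind.2.2 θ hθ χ hχ g
      have h5 := Helper77.memLocalIdeal_sub hM h4 h3
      rwa [sub_sub_sub_cancel_left] at h5
    exact ⟨Helper75.irrComp (Subgroup.subgroupOfEquivOfLe hKH) '' ê, β, ⟨θ, hθ, rfl⟩, hβ,
      fun ξ hξ => ⟨β, hξ, hβb⟩⟩

/-- Congruence of the section term in the subgroup. -/
theorem kr_sec_congr (p : ℕ) (M : Ideal Cfsg.AlgInt) (B' : Set (Cfsg.IrrCharacter G))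
    {C₁ C₂ : Subgroup G} (h : C₁ = C₂) :
    (Nat.card C₁ : ℂ) * (Cfsg.blockRank p (krSec M B' C₁) : ℂ)
      = (Nat.card C₂ : ℂ) * (Cfsg.blockRank p (krSec M B' C₂) : ℂ) := by
  subst h
  rfl

/-- **The section formula relative to the block `b` of `G`**, for a subgroup `H`. -/
theorem kr_rel_formula {p : ℕ} [Fact p.Prime] {M : Ideal Cfsg.AlgInt}
    (hM : Cfsg.IsPModular p M) (b : Set (Cfsg.IrrCharacter G)) (H : Subgroup G) :
    (Nat.card H : ℂ) * ((Nat.card (krInd M b H) : ℂ) - (Cfsg.blockRank p (krInd M b H) : ℂ))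
      = ∑ᶠ z ∈ {z : G | z ∈ H ∧ z ≠ 1 ∧ ∃ k : ℕ, orderOf z = p ^ k},
          (Nat.card ↥(Subgroup.centralizer ({z} : Set G) ⊓ H) : ℂ)
            * (Cfsg.blockRank p (krInd M b (Subgroup.centralizer ({z} : Set G) ⊓ H)) : ℂ) := by
  classical
  have hMm := hM.2.1
  let _ : Fintype H := Fintype.ofFinite _
  rw [kr_section_formula hM (krInd M b H) (kr_ind_closed hMm b H)]
  have himg : {z : G | z ∈ H ∧ z ≠ 1 ∧ ∃ k : ℕ, orderOf z = p ^ k}
      = (Subtype.val : H → G) '' {z' : H | z' ≠ 1 ∧ ∃ k : ℕ, orderOf z' = p ^ k} := by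
    ext z
    constructor
    · rintro ⟨hzH, hz1, hzp⟩
      refine ⟨⟨z, hzH⟩, ⟨fun h => hz1 (congrArg Subtype.val h), ?_⟩, rfl⟩
      rw [← Subgroup.orderOf_coe]
      exact hzp
    · rintro ⟨z', ⟨h1, hp⟩, rfl⟩
      refine ⟨z'.2, fun h => h1 (Subtype.ext h), ?_⟩
      rw [Subgroup.orderOf_coe]
      exact hp
  rw [himg, finsum_mem_image Subtype.val_injective.injOn]
  refine finsum_mem_congr rfl fun z' hz' => ?_
  obtain ⟨-, hzp⟩ := hz'
  have hKH : Subgroup.centralizer ({(z' : G)} : Set G) ⊓ H ≤ H := inf_le_right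
  have hC : Subgroup.centralizer ({z'} : Set H)
      = (Subgroup.centralizer ({(z' : G)} : Set G) ⊓ H).subgroupOf H := by
    ext x
    rw [Subgroup.mem_subgroupOf, Subgroup.mem_inf, Subgroup.mem_centralizer_singleton_iff,
      Subgroup.mem_centralizer_singleton_iff]
    constructor
    · intro h
      exact ⟨congrArg Subtype.val h, x.2⟩
    · intro h
      exact Subtype.ext h.1
  rw [kr_sec_congr p M (krInd M b H) hC]
  have hPp : IsPGroup p (Subgroup.zpowers z') := by
    obtain ⟨k, hk⟩ := hzp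
    exact IsPGroup.of_card (n := k) (by rw [Nat.card_zpowers, hk])
  have hex : ∀ e : Set (Cfsg.IrrCharacter
      ((Subgroup.centralizer ({(z' : G)} : Set G) ⊓ H).subgroupOf H)), Cfsg.IsPBlock M e →
      ∃ β : Set (Cfsg.IrrCharacter H), Cfsg.IsInducedBlock M
        ((Subgroup.centralizer ({(z' : G)} : Set G) ⊓ H).subgroupOf H) e β := by
    intro e he
    let _ : Fintype ((Subgroup.centralizer ({(z' : G)} : Set G) ⊓ H).subgroupOf H) :=
      Fintype.ofFinite _
    refine Helper16.exists_isInducedBlock hM (Subgroup.zpowers z') _ hPp ?_ ?_ ?_ he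
    · rw [← hC, ← Helper78.centralizer_zpowers_eq]
      exact Helper78.zpowers_le_centralizer_zpowers z'
    · rw [← hC, Helper78.centralizer_zpowers_eq]
    · rw [← hC, ← Helper78.centralizer_zpowers_eq]
      exact Subgroup.centralizer_le_normalizer _
  rw [kr_sec_eq hMm b H _ hKH hex, kr_blockRank_irrComp,
    Nat.card_congr (Subgroup.subgroupOfEquivOfLe hKH).toEquiv]

/-- **The section formula for a block `b` of `G`.** -/
theorem kr_abs_formula {p : ℕ} [Fact p.Prime] {M : Ideal Cfsg.AlgInt}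
    (hM : Cfsg.IsPModular p M) {b : Set (Cfsg.IrrCharacter G)} (hb : Cfsg.IsPBlock M b) :
    (Nat.card G : ℂ) * ((Nat.card b : ℂ) - (Cfsg.blockRank p b : ℂ))
      = ∑ᶠ z ∈ {z : G | z ≠ 1 ∧ ∃ k : ℕ, orderOf z = p ^ k},
          (Nat.card (Subgroup.centralizer ({z} : Set G)) : ℂ)
            * (Cfsg.blockRank p (krInd M b (Subgroup.centralizer ({z} : Set G))) : ℂ) := by
  classical
  have hMm := hM.2.1
  rw [kr_section_formula hM b (kr_closed_block hMm hb)]
  refine finsum_mem_congr rfl fun z _ => ?_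
  let _ : Fintype (Subgroup.centralizer ({z} : Set G)) := Fintype.ofFinite _
  rw [kr_sec_block hMm hb]

end kr4

end Cfsg.Agent.Helper79
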