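import Mathlib

/-!
# Group-theoretic lemmas for the chain involution

* `KrNorm c H`: conjugation by `c` maps `H` into itself.
* `kr_pgroup_gen`: a `p`-group generated by a subgroup `N` and the conjugates of `z` is generated
  by `N` and `z`.
-/

set_option autoImplicit false
set_option linter.unusedSectionVars false

namespace Cfsg.Agent.Helper79

universe u

section kr5

variable {G : Type u} [Group G]

/-- Conjugation by `c` maps `H` into itself. -/
def KrNorm (c : G) (H : Subgroup G) : Prop := ∀ h ∈ H, c * h * c⁻¹ ∈ H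

theorem kr_norm_of_mem {c : G} {H : Subgroup G} (hc : c ∈ Subgroup.normalizer (H : Set G)) :
    KrNorm c H := fun h hh => (Subgroup.mem_normalizer_iff.mp hc h).mp hh

theorem kr_norm_mem [Finite G] {c : G} {H : Subgroup G} (h : KrNorm c H) :
    c ∈ Subgroup.normalizer (H : Set G) := by
  rw [Subgroup.mem_normalizer_iff]
  intro x
  refine ⟨h x, fun hx => ?_⟩
  have hinj : Function.Injective (fun y : H => (⟨c * y * c⁻¹, h y y.2⟩ : H)) := by
    intro a b hab
    have h1 : c * (a : G) * c⁻¹ = c * (b : G) * c⁻¹ := congrArg Subtype.val hab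
    apply Subtype.ext
    have h2 : (a : G) = c⁻¹ * (c * (a : G) * c⁻¹) * c := by group
    rw [h2, h1]
    group
  obtain ⟨y, hy⟩ := (Finite.injective_iff_surjective.mp hinj) ⟨c * x * c⁻¹, hx⟩
  have h1 : c * (y : G) * c⁻¹ = c * x * c⁻¹ := congrArg Subtype.val hy
  have h2 : (y : G) = x := by
    have h3 : (y : G) = c⁻¹ * (c * (y : G) * c⁻¹) * c := by group
    rw [h3, h1]
    group
  rw [← h2]
  exact y.2

theorem kr_norm_iff_le_comap (c : G) (H : Subgroup G) :
    KrNorm c H ↔ H ≤ H.comap (MulAut.conj c).toMonoidHom := by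
  constructor
  · intro h x hx
    rw [Subgroup.mem_comap]
    simp only [MulEquiv.coe_toMonoidHom, MulAut.conj_apply]
    exact h x hx
  · intro h x hx
    have := h hx
    rw [Subgroup.mem_comap] at this
    simpa only [MulEquiv.coe_toMonoidHom, MulAut.conj_apply] using this

theorem kr_norm_sup {c : G} {A B : Subgroup G} (hA : KrNorm c A) (hB : KrNorm c B) :
    KrNorm c (A ⊔ B) := by
  rw [kr_norm_iff_le_comap] at hA hB ⊢
  exact sup_le (hA.trans (Subgroup.comap_mono le_sup_left))
    (hB.trans (Subgroup.comap_mono le_sup_right))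

theorem kr_norm_finset_sup {c : G} (t : Finset (Subgroup G)) (h : ∀ Q ∈ t, KrNorm c Q) :
    KrNorm c (t.sup id) := by
  rw [kr_norm_iff_le_comap]
  refine Finset.sup_le fun Q hQ => ?_
  exact ((kr_norm_iff_le_comap c Q).mp (h Q hQ)).trans
    (Subgroup.comap_mono (Finset.le_sup (f := id) hQ))

theorem kr_norm_closure {c : G} {S : Set G}
    (h : ∀ x ∈ S, c * x * c⁻¹ ∈ Subgroup.closure S) : KrNorm c (Subgroup.closure S) := by
  rw [kr_norm_iff_le_comap, Subgroup.closure_le]
  intro x hx
  show x ∈ (Subgroup.closure S).comap (MulAut.conj c).toMonoidHom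
  rw [Subgroup.mem_comap]
  simpa only [MulEquiv.coe_toMonoidHom, MulAut.conj_apply] using h x hx

theorem kr_norm_zpowers {c z : G} (h : c * z * c⁻¹ ∈ Subgroup.zpowers z) :
    KrNorm c (Subgroup.zpowers z) := by
  rw [Subgroup.zpowers_eq_closure]
  apply kr_norm_closure
  intro x hx
  rw [Set.mem_singleton_iff] at hx
  rw [hx, ← Subgroup.zpowers_eq_closure]
  exact h

/-- A `p`-group generated by a subgroup `N` and the conjugates of an element `z` is generated by
`N` and `z`. -/
theorem kr_pgroup_gen [Finite G] {p : ℕ} [Fact p.Prime] {R N : Subgroup G} (hR : IsPGroup p R)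
    (hNR : N ≤ R) {z : G} (hz : z ∈ R)
    (hgen : R ≤ N ⊔ Subgroup.closure {x | ∃ t ∈ R, x = t * z * t⁻¹}) :
    R ≤ N ⊔ Subgroup.zpowers z := by
  by_contra hcon
  have hA : (N ⊔ Subgroup.zpowers z).subgroupOf R ≠ ⊤ := by
    intro h
    apply hcon
    rwa [Subgroup.subgroupOf_eq_top] at h
  have hnil : Group.IsNilpotent R := hR.isNilpotent
  obtain ⟨M', hM', hle⟩ :=
    (eq_top_or_exists_le_coatom ((N ⊔ Subgroup.zpowers z).subgroupOf R)).resolve_left hA
  have hMn : M'.Normal :=
    Subgroup.NormalizerCondition.normal_of_coatom M'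
      (Group.normalizerCondition_of_isNilpotent (G := R)) hM'
  have hz' : (⟨z, hz⟩ : R) ∈ M' :=
    hle (Subgroup.mem_subgroupOf.mpr (Subgroup.mem_sup_right (Subgroup.mem_zpowers z)))
  have key : N ⊔ Subgroup.closure {x | ∃ t ∈ R, x = t * z * t⁻¹} ≤ M'.map R.subtype := by
    apply sup_le
    · intro n hn
      exact ⟨⟨n, hNR hn⟩, hle (Subgroup.mem_subgroupOf.mpr (Subgroup.mem_sup_left hn)), rfl⟩
    · rw [Subgroup.closure_le]
      rintro _ ⟨t, ht, rfl⟩
      exact ⟨⟨t, ht⟩ * ⟨z, hz⟩ * ⟨t, ht⟩⁻¹, hMn.conj_mem _ hz' _, rfl⟩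
  have htop : M' = ⊤ := by
    rw [eq_top_iff]
    intro x _
    obtain ⟨y, hy, hyx⟩ := key (hgen x.2)
    have : y = x := Subtype.ext hyx
    rwa [← this]
  exact hM'.1 htop

end kr5

end Cfsg.Agent.Helper79
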