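import Cfsg.Agent.Helper79.KR5

/-!
# The chain involution of Knörr–Robinson

For a nontrivial `p`-element `z`, the chains of nontrivial `p`-subgroups (each member normal in the
largest one) whose stabilizer contains `z`, together with the empty chain, carry a fixed-point-free
involution which changes the length by one and preserves `C(z) ∩ N(s)`.
-/

set_option autoImplicit false
set_option linter.unusedSectionVars false
set_option linter.style.openClassical false

namespace Cfsg.Agent.Helper79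

universe u

section kr6

open Classical

variable {G : Type u} [Group G]

/-- The stabilizer of a chain. -/
def krN (s : Finset (Subgroup G)) : Subgroup G :=
  ⨅ Q ∈ s, Subgroup.normalizer ((Q : Subgroup G) : Set G)

theorem kr_mem_N {s : Finset (Subgroup G)} {c : G} :
    c ∈ krN s ↔ ∀ Q ∈ s, c ∈ Subgroup.normalizer ((Q : Subgroup G) : Set G) := by
  simp only [krN, Subgroup.mem_iInf]

/-- The chains (possibly empty) whose stabilizer contains `z`. -/
def krDom (p : ℕ) (z : G) : Set (Finset (Subgroup G)) :=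
  {s | (∀ Q ∈ s, ∀ R ∈ s, Q ≤ R ∨ R ≤ Q) ∧ (∀ Q ∈ s, Q ≠ ⊥ ∧ IsPGroup p Q) ∧
    (∀ Q ∈ s, s.sup id ≤ Subgroup.normalizer ((Q : Subgroup G) : Set G)) ∧
    (∀ Q ∈ s, z ∈ Subgroup.normalizer ((Q : Subgroup G) : Set G))}

/-- The nonempty normal chains of nontrivial `p`-subgroups. -/
def krChains (p : ℕ) : Set (Finset (Subgroup G)) :=
  {s | s.Nonempty ∧ (∀ Q ∈ s, ∀ R ∈ s, Q ≤ R ∨ R ≤ Q) ∧ (∀ Q ∈ s, Q ≠ ⊥ ∧ IsPGroup p Q) ∧
    ∃ T ∈ s, ∀ Q ∈ s, Q ≤ T ∧ T ≤ Subgroup.normalizer ((Q : Subgroup G) : Set G)}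

theorem kr_sup_mem (s : Finset (Subgroup G)) (hch : ∀ Q ∈ s, ∀ R ∈ s, Q ≤ R ∨ R ≤ Q)
    (hne : s.Nonempty) : s.sup id ∈ s := by
  induction s using Finset.induction_on with
  | empty => exact absurd hne Finset.not_nonempty_empty
  | insert a t hat ih =>
    rw [Finset.sup_insert]
    by_cases ht : t.Nonempty
    · have h1 := ih (fun Q hQ R hR =>
        hch Q (Finset.mem_insert_of_mem hQ) R (Finset.mem_insert_of_mem hR)) ht
      rcases hch a (Finset.mem_insert_self a t) _ (Finset.mem_insert_of_mem h1) with h | h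
      · rw [id, sup_eq_right.mpr h]
        exact Finset.mem_insert_of_mem h1
      · rw [id, sup_eq_left.mpr h]
        exact Finset.mem_insert_self a t
    · rw [Finset.not_nonempty_iff_eq_empty] at ht
      subst ht
      simp

noncomputable def krT (z : G) (s : Finset (Subgroup G)) : Subgroup G :=
  s.sup id ⊔ Subgroup.zpowers z

noncomputable def krX (z : G) (s : Finset (Subgroup G)) : Subgroup G :=
  Subgroup.closure {x | ∃ t ∈ krT z s, x = t * z * t⁻¹}

noncomputable def krL (z : G) (s : Finset (Subgroup G)) : Subgroup G :=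
  (s.filter (fun Q => z ∉ Q)).sup id

noncomputable def krR (z : G) (s : Finset (Subgroup G)) : Subgroup G := krL z s ⊔ krX z s

noncomputable def krIota (z : G) (s : Finset (Subgroup G)) : Finset (Subgroup G) :=
  if krR z s ∈ s then s.erase (krR z s) else insert (krR z s) s

theorem kr_z_mem_T (z : G) (s : Finset (Subgroup G)) : z ∈ krT z s :=
  Subgroup.mem_sup_right (Subgroup.mem_zpowers z)

theorem kr_z_mem_X (z : G) (s : Finset (Subgroup G)) : z ∈ krX z s :=
  Subgroup.subset_closure ⟨1, one_mem _, by simp⟩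

theorem kr_X_le_T (z : G) (s : Finset (Subgroup G)) : krX z s ≤ krT z s := by
  unfold krX
  rw [Subgroup.closure_le]
  rintro _ ⟨t, ht, rfl⟩
  exact mul_mem (mul_mem ht (kr_z_mem_T z s)) (inv_mem ht)

theorem kr_L_le_sup (z : G) (s : Finset (Subgroup G)) : krL z s ≤ s.sup id :=
  Finset.sup_mono (Finset.filter_subset _ _)

theorem kr_R_le_T (z : G) (s : Finset (Subgroup G)) : krR z s ≤ krT z s :=
  sup_le ((kr_L_le_sup z s).trans le_sup_left) (kr_X_le_T z s)

theorem kr_z_mem_R (z : G) (s : Finset (Subgroup G)) : z ∈ krR z s :=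
  Subgroup.mem_sup_right (kr_z_mem_X z s)

theorem kr_T_le_normalizer {p : ℕ} {z : G} {s : Finset (Subgroup G)} (hs : s ∈ krDom p z)
    {Q : Subgroup G} (hQ : Q ∈ s) : krT z s ≤ Subgroup.normalizer ((Q : Subgroup G) : Set G) :=
  sup_le (hs.2.2.1 Q hQ) ((Subgroup.zpowers_le).mpr (hs.2.2.2 Q hQ))

theorem kr_R_le_of_mem {p : ℕ} {z : G} {s : Finset (Subgroup G)} (hs : s ∈ krDom p z)
    {Q : Subgroup G} (hQ : Q ∈ s) (hz : z ∈ Q) : krR z s ≤ Q := by
  apply sup_le
  · refine Finset.sup_le fun Q' hQ' => ?_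
    obtain ⟨hQ's, hzQ'⟩ := Finset.mem_filter.mp hQ'
    rcases hs.1 Q' hQ's Q hQ with h | h
    · exact h
    · exact absurd (h hz) hzQ'
  · unfold krX
    rw [Subgroup.closure_le]
    rintro _ ⟨t, ht, rfl⟩
    exact (Subgroup.mem_normalizer_iff.mp (kr_T_le_normalizer hs hQ ht) z).mp hz

theorem kr_le_R_of_not_mem {z : G} {s : Finset (Subgroup G)}
    {Q : Subgroup G} (hQ : Q ∈ s) (hz : z ∉ Q) : Q ≤ krR z s :=
  (Finset.le_sup (f := id) (Finset.mem_filter.mpr ⟨hQ, hz⟩)).trans le_sup_left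

theorem kr_R_comparable {p : ℕ} {z : G} {s : Finset (Subgroup G)} (hs : s ∈ krDom p z)
    {Q : Subgroup G} (hQ : Q ∈ s) : Q ≤ krR z s ∨ krR z s ≤ Q := by
  by_cases hz : z ∈ Q
  · exact Or.inr (kr_R_le_of_mem hs hQ hz)
  · exact Or.inl (kr_le_R_of_not_mem hQ hz)

theorem kr_sup_pgroup {p : ℕ} [Fact p.Prime] {z : G} {s : Finset (Subgroup G)}
    (hs : s ∈ krDom p z) : IsPGroup p (s.sup id : Subgroup G) := by
  by_cases hne : s.Nonempty
  · exact (hs.2.1 _ (kr_sup_mem s hs.1 hne)).2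
  · rw [Finset.not_nonempty_iff_eq_empty] at hne
    subst hne
    rw [Finset.sup_empty]
    exact IsPGroup.of_bot

theorem kr_T_pgroup [Finite G] {p : ℕ} [Fact p.Prime] {z : G} {s : Finset (Subgroup G)}
    (hs : s ∈ krDom p z) (hzp : ∃ k : ℕ, orderOf z = p ^ k) : IsPGroup p (krT z s) := by
  have h1 : IsPGroup p (Subgroup.zpowers z) := by
    obtain ⟨k, hk⟩ := hzp
    apply IsPGroup.of_card (n := k)
    rw [Nat.card_zpowers, hk]
  have h2 : Subgroup.zpowers z ≤ Subgroup.normalizer ((s.sup id : Subgroup G) : Set G) := by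
    rw [Subgroup.zpowers_le]
    exact kr_norm_mem (kr_norm_finset_sup s fun Q hQ => kr_norm_of_mem (hs.2.2.2 Q hQ))
  exact IsPGroup.to_sup_of_normal_left' (kr_sup_pgroup hs) h1 h2

theorem kr_R_pgroup [Finite G] {p : ℕ} [Fact p.Prime] {z : G} {s : Finset (Subgroup G)}
    (hs : s ∈ krDom p z) (hzp : ∃ k : ℕ, orderOf z = p ^ k) : IsPGroup p (krR z s) :=
  (kr_T_pgroup hs hzp).to_le (kr_R_le_T z s)

theorem kr_R_ne_bot {z : G} (hz1 : z ≠ 1) (s : Finset (Subgroup G)) : krR z s ≠ ⊥ := by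
  intro h
  have := kr_z_mem_R z s
  rw [h, Subgroup.mem_bot] at this
  exact hz1 this

theorem kr_norm_R {z : G} {s : Finset (Subgroup G)} {c : G} (h1 : ∀ Q ∈ s, KrNorm c Q)
    (h2 : ∀ t ∈ krT z s, ∃ t' ∈ krT z s, c * (t * z * t⁻¹) * c⁻¹ = t' * z * t'⁻¹) :
    KrNorm c (krR z s) := by
  refine kr_norm_sup (kr_norm_finset_sup _ fun Q hQ => h1 Q (Finset.mem_filter.mp hQ).1) ?_
  unfold krX
  apply kr_norm_closure
  rintro _ ⟨t, ht, rfl⟩
  obtain ⟨t', ht', e⟩ := h2 t ht
  rw [e]
  exact Subgroup.subset_closure ⟨t', ht', rfl⟩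

theorem kr_T_le_normalizer_R [Finite G] {p : ℕ} {z : G} {s : Finset (Subgroup G)}
    (hs : s ∈ krDom p z) : krT z s ≤ Subgroup.normalizer ((krR z s : Subgroup G) : Set G) := by
  intro c hc
  refine kr_norm_mem (kr_norm_R (fun Q hQ => kr_norm_of_mem (kr_T_le_normalizer hs hQ hc))
    fun t ht => ⟨c * t, mul_mem hc ht, by group⟩)

theorem kr_cent_le_normalizer_R [Finite G] {z : G} {s : Finset (Subgroup G)}
    {c : G} (hc : c ∈ Subgroup.centralizer ({z} : Set G)) (hcN : c ∈ krN s) :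
    c ∈ Subgroup.normalizer ((krR z s : Subgroup G) : Set G) := by
  have hcz : z * c = c * z := Subgroup.mem_centralizer_iff.mp hc z rfl
  have hz'' : c * z * c⁻¹ = z := by rw [← hcz, mul_inv_cancel_right]
  have h1 : ∀ Q ∈ s, KrNorm c Q := fun Q hQ => kr_norm_of_mem (kr_mem_N.mp hcN Q hQ)
  have hT : KrNorm c (krT z s) :=
    kr_norm_sup (kr_norm_finset_sup s h1)
      (kr_norm_zpowers (by rw [hz'']; exact Subgroup.mem_zpowers z))
  refine kr_norm_mem (kr_norm_R h1 fun t ht => ⟨c * t * c⁻¹, hT t ht, ?_⟩)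
  have e : c * (t * z * t⁻¹) * c⁻¹ = (c * t * c⁻¹) * (c * z * c⁻¹) * (c * t * c⁻¹)⁻¹ := by group
  rw [e, hz'']

theorem kr_iota_mem_dom [Finite G] {p : ℕ} [Fact p.Prime] {z : G} (hz1 : z ≠ 1)
    (hzp : ∃ k : ℕ, orderOf z = p ^ k) {s : Finset (Subgroup G)} (hs : s ∈ krDom p z) :
    krIota z s ∈ krDom p z := by
  unfold krIota
  split_ifs with hR
  · refine ⟨fun Q hQ R hR' => hs.1 Q (Finset.mem_of_mem_erase hQ) R (Finset.mem_of_mem_erase hR'),
      fun Q hQ => hs.2.1 Q (Finset.mem_of_mem_erase hQ), fun Q hQ => ?_,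
      fun Q hQ => hs.2.2.2 Q (Finset.mem_of_mem_erase hQ)⟩
    exact (Finset.sup_mono (Finset.erase_subset _ _)).trans
      (hs.2.2.1 Q (Finset.mem_of_mem_erase hQ))
  · have hsup : (insert (krR z s) s).sup id ≤ krT z s := by
      rw [Finset.sup_insert]
      exact sup_le (kr_R_le_T z s) le_sup_left
    refine ⟨fun Q hQ R hR' => ?_, fun Q hQ => ?_, fun Q hQ => ?_, fun Q hQ => ?_⟩
    · rcases Finset.mem_insert.mp hQ with rfl | hQ
      · rcases Finset.mem_insert.mp hR' with rfl | hR'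
        · exact Or.inl le_rfl
        · exact (kr_R_comparable hs hR').symm
      · rcases Finset.mem_insert.mp hR' with rfl | hR'
        · exact kr_R_comparable hs hQ
        · exact hs.1 Q hQ R hR'
    · rcases Finset.mem_insert.mp hQ with rfl | hQ
      · exact ⟨kr_R_ne_bot hz1 s, kr_R_pgroup hs hzp⟩
      · exact hs.2.1 Q hQ
    · rcases Finset.mem_insert.mp hQ with rfl | hQ
      · exact hsup.trans (kr_T_le_normalizer_R hs)
      · exact hsup.trans (kr_T_le_normalizer hs hQ)
    · rcases Finset.mem_insert.mp hQ with rfl | hQ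
      · exact kr_T_le_normalizer_R hs (kr_z_mem_T z s)
      · exact hs.2.2.2 Q hQ

theorem kr_L_iota (z : G) (s : Finset (Subgroup G)) : krL z (krIota z s) = krL z s := by
  have hzR := kr_z_mem_R z s
  unfold krL krIota
  congr 1
  ext Q
  split_ifs with hR
  · simp only [Finset.mem_filter, Finset.mem_erase]
    constructor
    · rintro ⟨⟨-, h1⟩, h2⟩
      exact ⟨h1, h2⟩
    · rintro ⟨h1, h2⟩
      refine ⟨⟨?_, h1⟩, h2⟩
      rintro rfl
      exact h2 hzR
  · simp only [Finset.mem_filter, Finset.mem_insert]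
    constructor
    · rintro ⟨h1 | h1, h2⟩
      · rw [h1] at h2
        exact absurd hzR h2
      · exact ⟨h1, h2⟩
    · rintro ⟨h1, h2⟩
      exact ⟨Or.inr h1, h2⟩

theorem kr_T_iota [Finite G] {p : ℕ} [Fact p.Prime] {z : G}
    {s : Finset (Subgroup G)} (hs : s ∈ krDom p z) :
    krT z (krIota z s) = krT z s := by
  unfold krIota
  split_ifs with hR
  · apply le_antisymm
    · exact sup_le_sup_right (Finset.sup_mono (Finset.erase_subset _ _)) _
    · refine sup_le ?_ le_sup_right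
      by_cases hTR : s.sup id = krR z s
      · have hzT : z ∈ s.sup id := by rw [hTR]; exact kr_z_mem_R z s
        have hT : krT z s = s.sup id := sup_eq_left.mpr ((Subgroup.zpowers_le).mpr hzT)
        have hgen : s.sup id ≤ krL z s ⊔ Subgroup.closure {x | ∃ t ∈ s.sup id, x = t * z * t⁻¹} := by
          have h1 : krR z s = krL z s ⊔ Subgroup.closure {x | ∃ t ∈ krT z s, x = t * z * t⁻¹} := rfl
          rw [hT] at h1
          rw [← h1, hTR]
        have h2 := kr_pgroup_gen (kr_sup_pgroup hs) (kr_L_le_sup z s) hzT hgen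
        refine h2.trans (sup_le_sup_right ?_ _)
        refine Finset.sup_mono fun Q hQ => ?_
        obtain ⟨hQs, hzQ⟩ := Finset.mem_filter.mp hQ
        refine Finset.mem_erase.mpr ⟨?_, hQs⟩
        rintro rfl
        exact hzQ (kr_z_mem_R z s)
      · have hmem : s.sup id ∈ s := kr_sup_mem s hs.1 ⟨_, hR⟩
        exact (Finset.le_sup (f := id) (Finset.mem_erase.mpr ⟨hTR, hmem⟩)).trans le_sup_left
  · unfold krT
    rw [Finset.sup_insert]
    apply le_antisymm
    · exact sup_le (sup_le (kr_R_le_T z s) le_sup_left) le_sup_right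
    · exact sup_le (le_sup_right.trans le_sup_left) le_sup_right

theorem kr_R_iota [Finite G] {p : ℕ} [Fact p.Prime] {z : G}
    {s : Finset (Subgroup G)} (hs : s ∈ krDom p z) :
    krR z (krIota z s) = krR z s := by
  unfold krR krX
  rw [kr_T_iota hs, kr_L_iota]

theorem kr_iota_iota [Finite G] {p : ℕ} [Fact p.Prime] {z : G}
    {s : Finset (Subgroup G)} (hs : s ∈ krDom p z) :
    krIota z (krIota z s) = s := by
  have hR := kr_R_iota hs
  by_cases h : krR z s ∈ s
  · have e1 : krIota z s = s.erase (krR z s) := if_pos h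
    have e2 : krR z (s.erase (krR z s)) = krR z s := by rw [← e1]; exact hR
    rw [e1]
    unfold krIota
    rw [e2, if_neg (Finset.notMem_erase _ _), Finset.insert_erase h]
  · have e1 : krIota z s = insert (krR z s) s := if_neg h
    have e2 : krR z (insert (krR z s) s) = krR z s := by rw [← e1]; exact hR
    rw [e1]
    unfold krIota
    rw [e2, if_pos (Finset.mem_insert_self _ _), Finset.erase_insert h]

theorem kr_iota_card (z : G) (s : Finset (Subgroup G)) :
    (-1 : ℂ) ^ (krIota z s).card = -(-1 : ℂ) ^ s.card := by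
  unfold krIota
  split_ifs with h
  · have h1 : (s.erase (krR z s)).card + 1 = s.card := Finset.card_erase_add_one h
    rw [← h1, pow_succ]
    ring
  · rw [Finset.card_insert_of_notMem h, pow_succ]
    ring

theorem kr_cent_insert [Finite G] {z : G} {s : Finset (Subgroup G)} :
    Subgroup.centralizer ({z} : Set G) ⊓ krN (insert (krR z s) s)
      = Subgroup.centralizer ({z} : Set G) ⊓ krN s := by
  have hins : krN (insert (krR z s) s)
      = Subgroup.normalizer ((krR z s : Subgroup G) : Set G) ⊓ krN s := by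
    unfold krN
    rw [Finset.iInf_insert]
  rw [hins]
  apply le_antisymm
  · exact inf_le_inf_left _ inf_le_right
  · intro c hc
    rw [Subgroup.mem_inf] at hc
    exact Subgroup.mem_inf.mpr ⟨hc.1, Subgroup.mem_inf.mpr
      ⟨kr_cent_le_normalizer_R hc.1 hc.2, hc.2⟩⟩

theorem kr_cent_iota [Finite G] {p : ℕ} [Fact p.Prime] {z : G}
    {s : Finset (Subgroup G)} (hs : s ∈ krDom p z) :
    Subgroup.centralizer ({z} : Set G) ⊓ krN (krIota z s)
      = Subgroup.centralizer ({z} : Set G) ⊓ krN s := by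
  have hR := kr_R_iota hs
  by_cases h : krR z s ∈ s
  · have e1 : krIota z s = s.erase (krR z s) := if_pos h
    have e2 : krR z (s.erase (krR z s)) = krR z s := by rw [← e1]; exact hR
    have h3 := kr_cent_insert (z := z) (s := s.erase (krR z s))
    rw [e2, Finset.insert_erase h] at h3
    rw [e1, h3]
  · have e1 : krIota z s = insert (krR z s) s := if_neg h
    rw [e1]
    exact kr_cent_insert

/-- The alternating sum over all chains (including the empty one) stabilized by `z` vanishes. -/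
theorem kr_chain_sum_zero [Finite G] {p : ℕ} [Fact p.Prime] {z : G} (hz1 : z ≠ 1)
    (hzp : ∃ k : ℕ, orderOf z = p ^ k) (Ψ : Subgroup G → ℂ) :
    ∑ᶠ s ∈ krDom p z, (-1 : ℂ) ^ s.card * Ψ (Subgroup.centralizer ({z} : Set G) ⊓ krN s) = 0 := by
  rw [finsum_mem_eq_finite_toFinset_sum _ (Set.toFinite (krDom p z))]
  refine Finset.sum_involution (fun s _ => krIota z s) ?_ ?_ ?_ ?_
  · intro s hs
    rw [Set.Finite.mem_toFinset] at hs
    rw [kr_cent_iota hs, kr_iota_card]
    ring
  · intro s hs _ heq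
    have h1 := kr_iota_card z s
    rw [heq] at h1
    have h2 : (-1 : ℂ) ^ s.card ≠ 0 := pow_ne_zero _ (by norm_num)
    have h3 : (2 : ℂ) * (-1 : ℂ) ^ s.card = 0 := by linear_combination h1
    rcases mul_eq_zero.mp h3 with h | h
    · norm_num at h
    · exact h2 h
  · intro s hs
    rw [Set.Finite.mem_toFinset] at hs ⊢
    exact kr_iota_mem_dom hz1 hzp hs
  · intro s hs
    rw [Set.Finite.mem_toFinset] at hs
    exact kr_iota_iota hs

theorem kr_dom_eq [Finite G] (p : ℕ) (z : G) :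
    krDom p z = insert ∅ {s : Finset (Subgroup G) | z ∈ krN s ∧ s ∈ krChains p} := by
  ext s
  simp only [Set.mem_insert_iff, Set.mem_ofPred_eq]
  constructor
  · intro hs
    by_cases hne : s = ∅
    · exact Or.inl hne
    · right
      have hne' : s.Nonempty := Finset.nonempty_iff_ne_empty.mpr hne
      refine ⟨kr_mem_N.mpr hs.2.2.2, hne', hs.1, hs.2.1, s.sup id, kr_sup_mem s hs.1 hne',
        fun Q hQ => ⟨Finset.le_sup (f := id) hQ, hs.2.2.1 Q hQ⟩⟩
  · rintro (rfl | ⟨hz, -, hch, hp, T, hT, hTn⟩)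
    · refine ⟨?_, ?_, ?_, ?_⟩ <;> intro Q hQ <;> exact absurd hQ (Finset.notMem_empty _)
    · refine ⟨hch, hp, fun Q hQ => ?_, kr_mem_N.mp hz⟩
      exact (Finset.sup_le fun Q' hQ' => (hTn Q' hQ').1).trans (hTn Q hQ).2

/-- The alternating sum over the nonempty chains stabilized by `z`. -/
theorem kr_chain_sum [Finite G] {p : ℕ} [Fact p.Prime] {z : G} (hz1 : z ≠ 1)
    (hzp : ∃ k : ℕ, orderOf z = p ^ k) (Ψ : Subgroup G → ℂ) :
    ∑ᶠ s ∈ {s : Finset (Subgroup G) | z ∈ krN s ∧ s ∈ krChains p},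
        (-1 : ℂ) ^ (s.card - 1) * Ψ (Subgroup.centralizer ({z} : Set G) ⊓ krN s)
      = Ψ (Subgroup.centralizer ({z} : Set G)) := by
  have h0 := kr_chain_sum_zero hz1 hzp Ψ
  have hnot : (∅ : Finset (Subgroup G)) ∉
      {s : Finset (Subgroup G) | z ∈ krN s ∧ s ∈ krChains p} := by
    rintro ⟨-, h, -⟩
    exact Finset.not_nonempty_empty h
  rw [kr_dom_eq, finsum_mem_insert _ hnot (Set.toFinite _)] at h0
  have hN : krN (∅ : Finset (Subgroup G)) = ⊤ := by
    unfold krN
    simp
  rw [hN, inf_top_eq, Finset.card_empty, pow_zero, one_mul] at h0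
  have h1 : ∑ᶠ s ∈ {s : Finset (Subgroup G) | z ∈ krN s ∧ s ∈ krChains p},
        (-1 : ℂ) ^ s.card * Ψ (Subgroup.centralizer ({z} : Set G) ⊓ krN s)
      = ∑ᶠ s ∈ {s : Finset (Subgroup G) | z ∈ krN s ∧ s ∈ krChains p},
        -((-1 : ℂ) ^ (s.card - 1) * Ψ (Subgroup.centralizer ({z} : Set G) ⊓ krN s)) := by
    refine finsum_mem_congr rfl fun s hs => ?_
    have hpos : 0 < s.card := Finset.card_pos.mpr hs.2.1
    have h2 : s.card = (s.card - 1) + 1 := by omega
    conv_lhs => rw [h2, pow_succ]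
    ring
  rw [h1, finsum_mem_neg_distrib _ (Set.toFinite _)] at h0
  linear_combination -h0

end kr6

end Cfsg.Agent.Helper79
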