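import Cfsg.Agent.Helper79.KR4
import Cfsg.Agent.Helper79.KR6

/-!
# The Knörr–Robinson alternating sum

`kr_main`: for a block `b` of `G`,
`|G| (k(b) - l(b)) = Σ_s (-1)^{|s|-1} |N(s)| (k(b_s) - l(b_s))`, the sum over the nonempty normal
chains `s` of nontrivial `p`-subgroups, where `b_s = krInd M b (N(s))` is the set of irreducible
characters of the stabilizer `N(s)` lying in blocks which induce `b`.
-/

set_option autoImplicit false
set_option linter.unusedSectionVars false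
open Cfsg

namespace Cfsg.Agent.Helper79

universe u

section kr7

theorem kr_finsum_mem_and {α : Type*} {R : Type*} [AddCommMonoid R] (A B : α → Prop)
    [DecidablePred A] (f : α → R) :
    ∑ᶠ i ∈ {i | A i ∧ B i}, f i = ∑ᶠ i ∈ {i | B i}, if A i then f i else 0 := by
  refine finsum_congr fun i => ?_
  by_cases hA : A i <;> by_cases hB : B i <;> simp [hA, hB]

variable {G : Type u} [Group G] [Finite G]

/-- The Knörr–Robinson alternating sum formula, over `ℂ`. -/
theorem kr_main {p : ℕ} [Fact p.Prime] {M : Ideal Cfsg.AlgInt}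
    (hM : Cfsg.IsPModular p M) {b : Set (Cfsg.IrrCharacter G)} (hb : Cfsg.IsPBlock M b) :
    (Nat.card G : ℂ) * ((Nat.card b : ℂ) - (Cfsg.blockRank p b : ℂ))
      = ∑ᶠ s ∈ (krChains p : Set (Finset (Subgroup G))),
          (-1 : ℂ) ^ (s.card - 1) * ((Nat.card (krN s) : ℂ)
            * ((Nat.card (krInd M b (krN s)) : ℂ) - (Cfsg.blockRank p (krInd M b (krN s)) : ℂ))) := by
  classical
  let _ : Fintype G := Fintype.ofFinite G
  obtain ⟨Ψ, hΨ⟩ : ∃ Ψ : Subgroup G → ℂ, Ψ = fun K : Subgroup G =>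
      (Nat.card K : ℂ) * (Cfsg.blockRank p (krInd M b K) : ℂ) := ⟨_, rfl⟩
  have habs := kr_abs_formula hM hb
  have habs' : (Nat.card G : ℂ) * ((Nat.card b : ℂ) - (Cfsg.blockRank p b : ℂ))
      = ∑ᶠ z ∈ {z : G | z ≠ 1 ∧ ∃ k : ℕ, orderOf z = p ^ k},
          Ψ (Subgroup.centralizer ({z} : Set G)) := by
    rw [habs, hΨ]
  rw [habs']
  have h1 : ∀ s ∈ (krChains p : Set (Finset (Subgroup G))),
      (-1 : ℂ) ^ (s.card - 1) * ((Nat.card (krN s) : ℂ)
            * ((Nat.card (krInd M b (krN s)) : ℂ) - (Cfsg.blockRank p (krInd M b (krN s)) : ℂ)))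
        = ∑ᶠ z ∈ {z : G | z ≠ 1 ∧ ∃ k : ℕ, orderOf z = p ^ k},
            if z ∈ krN s then
              (-1 : ℂ) ^ (s.card - 1) * Ψ (Subgroup.centralizer ({z} : Set G) ⊓ krN s) else 0 := by
    intro s _
    have h2 := kr_rel_formula hM b (krN s)
    have h3 := kr_finsum_mem_and (fun z : G => z ∈ krN s)
      (fun z : G => z ≠ 1 ∧ ∃ k : ℕ, orderOf z = p ^ k)
      (fun z : G => Ψ (Subgroup.centralizer ({z} : Set G) ⊓ krN s))
    rw [h2]
    have h4 : (∑ᶠ z ∈ {z : G | z ∈ krN s ∧ z ≠ 1 ∧ ∃ k : ℕ, orderOf z = p ^ k},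
        (Nat.card ↥(Subgroup.centralizer ({z} : Set G) ⊓ krN s) : ℂ)
          * (Cfsg.blockRank p (krInd M b (Subgroup.centralizer ({z} : Set G) ⊓ krN s)) : ℂ))
        = ∑ᶠ z ∈ {z : G | z ≠ 1 ∧ ∃ k : ℕ, orderOf z = p ^ k},
            if z ∈ krN s then Ψ (Subgroup.centralizer ({z} : Set G) ⊓ krN s) else 0 := by
      rw [← h3, hΨ]
    rw [h4, mul_finsum_mem' _ _ (Set.toFinite _)]
    refine finsum_mem_congr rfl fun z _ => ?_
    rw [mul_ite, mul_zero]
  rw [finsum_mem_congr rfl h1, finsum_mem_comm _ (Set.toFinite _) (Set.toFinite _)]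
  refine finsum_mem_congr rfl fun z hz => ?_
  rw [← kr_chain_sum hz.1 hz.2 Ψ]
  exact kr_finsum_mem_and (fun s : Finset (Subgroup G) => z ∈ krN s)
    (fun s : Finset (Subgroup G) => s ∈ krChains p)
    (fun s => (-1 : ℂ) ^ (s.card - 1) * Ψ (Subgroup.centralizer ({z} : Set G) ⊓ krN s))

end kr7

end Cfsg.Agent.Helper79
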