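import Mathlib
import Cfsg.Agent.Helper75.GaloisAMGM

/-!
# Helper79: an energy inequality on a finite abelian group (for the `k(GV)` abelian-stabilizer
criterion), part 1

For a finite abelian group `Γ`, a list `L` of subgroups and `f : Γ → ℂ` the energy
`kgvEn L f` is defined by `kgvEn [] f = ∑ |f|²` and
`kgvEn (A :: L) f = kgvEn L f + ½ ∑_{μ ∈ A} kgvEn L (D_μ f)`, `D_μ f (x) = f x - f (x μ⁻¹)`.

* `kgv_galois_lower`: for `f` with values algebraic integers of the `n`-th cyclotomic field the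
  sum of the energies of the Galois conjugates of `f` is at least `φ(n)` times the number of
  points of `supp f · ⟨L⟩`.
* `kgv_card_le`: a family of nonzero such `f i` whose energies sum to the rational `q` has at
  most `q / |Γ|` members, when `L` generates `Γ`.
-/

set_option autoImplicit false
open scoped ComplexConjugate
open Classical

namespace Cfsg.Agent.Helper79

section Kgv1

set_option linter.unusedSectionVars false

variable {Γ : Type*} [CommGroup Γ] [Fintype Γ]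

/-- The difference operator `D_μ f (x) = f x - f (x μ⁻¹)`. -/
def kgvD (μ : Γ) (f : Γ → ℂ) : Γ → ℂ := fun x => f x - f (x * μ⁻¹)

/-- The energy of `f` with respect to a list of subgroups. -/
noncomputable def kgvEn : List (Subgroup Γ) → (Γ → ℂ) → ℂ
  | [], f => ∑ x, f x * conj (f x)
  | A :: L, f => kgvEn L f +
      (1 / 2 : ℂ) * ∑ μ ∈ Finset.univ.filter (fun μ : Γ => μ ∈ A), kgvEn L (kgvD μ f)

/-- The subgroup generated by a list of subgroups. -/
def kgvSpan : List (Subgroup Γ) → Subgroup Γ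
  | [] => ⊥
  | A :: L => A ⊔ kgvSpan L

/-- The points of `supp f · ⟨L⟩`. -/
noncomputable def kgvZ (L : List (Subgroup Γ)) (f : Γ → ℂ) : Finset Γ :=
  Finset.univ.filter (fun x => ∃ b ∈ kgvSpan L, f (x * b) ≠ 0)

theorem kgvEn_nil (f : Γ → ℂ) : kgvEn ([] : List (Subgroup Γ)) f = ∑ x, f x * conj (f x) := rfl

theorem kgvEn_cons (A : Subgroup Γ) (L : List (Subgroup Γ)) (f : Γ → ℂ) :
    kgvEn (A :: L) f = kgvEn L f +
      (1 / 2 : ℂ) * ∑ μ ∈ Finset.univ.filter (fun μ : Γ => μ ∈ A), kgvEn L (kgvD μ f) := rfl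

/-- The combinatorial inequality `|Z A| ≤ |Z| + ½ #{(x, μ) : x ∈ Z xor x μ⁻¹ ∈ Z}`. -/
theorem kgv_card_mul_le (A : Subgroup Γ) (Z : Finset Γ) :
    ((Finset.univ.filter (fun x : Γ => ∃ a ∈ A, x * a ∈ Z)).card : ℝ) ≤
      (Z.card : ℝ) + (1 / 2 : ℝ) * ∑ μ ∈ Finset.univ.filter (fun μ : Γ => μ ∈ A),
        ((Finset.univ.filter
          (fun x : Γ => (x ∈ Z ∧ x * μ⁻¹ ∉ Z) ∨ (x ∉ Z ∧ x * μ⁻¹ ∈ Z))).card : ℝ) := by
  set T : Γ → Finset Γ := fun μ => Finset.univ.filter (fun x : Γ => x ∉ Z ∧ x * μ⁻¹ ∈ Z) with hT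
  set S : Γ → Finset Γ := fun μ => Finset.univ.filter (fun x : Γ => x ∈ Z ∧ x * μ⁻¹ ∉ Z) with hS
  have h1 : ∀ μ : Γ, (Finset.univ.filter
      (fun x : Γ => (x ∈ Z ∧ x * μ⁻¹ ∉ Z) ∨ (x ∉ Z ∧ x * μ⁻¹ ∈ Z))).card
        = (S μ).card + (T μ).card := by
    intro μ
    rw [Finset.filter_or, Finset.card_union_of_disjoint]
    rw [Finset.disjoint_filter]
    intro x _ hx hx'
    exact hx'.1 hx.1
  have h2 : ∀ μ : Γ, (S μ).card = (T μ⁻¹).card := by
    intro μ
    refine Finset.card_bij (fun x _ => x * μ⁻¹) ?_ ?_ ?_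
    · intro x hx
      simp only [hS, hT, Finset.mem_filter, Finset.mem_univ, true_and] at hx ⊢
      refine ⟨hx.2, ?_⟩
      rw [inv_inv, inv_mul_cancel_right]
      exact hx.1
    · intro x _ y _ hxy
      exact mul_right_cancel hxy
    · intro y hy
      simp only [hT, Finset.mem_filter, Finset.mem_univ, true_and, inv_inv] at hy
      refine ⟨y * μ, ?_, ?_⟩
      · simp only [hS, Finset.mem_filter, Finset.mem_univ, true_and]
        refine ⟨hy.2, ?_⟩
        rw [mul_inv_cancel_right]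
        exact hy.1
      · rw [mul_inv_cancel_right]
  have h3 : ∑ μ ∈ Finset.univ.filter (fun μ : Γ => μ ∈ A), (T μ⁻¹).card
      = ∑ μ ∈ Finset.univ.filter (fun μ : Γ => μ ∈ A), (T μ).card := by
    refine Finset.sum_equiv (Equiv.inv Γ) ?_ ?_
    · intro μ
      simp only [Finset.mem_filter, Finset.mem_univ, true_and, Equiv.inv_apply, inv_mem_iff]
    · intro μ _
      rfl
  have h4 : (Finset.univ.filter (fun x : Γ => ∃ a ∈ A, x * a ∈ Z)) \ Z
      ⊆ (Finset.univ.filter (fun μ : Γ => μ ∈ A)).biUnion T := by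
    intro x hx
    rw [Finset.mem_sdiff, Finset.mem_filter] at hx
    obtain ⟨⟨_, a, ha, hxa⟩, hxZ⟩ := hx
    rw [Finset.mem_biUnion]
    refine ⟨a⁻¹, ?_, ?_⟩
    · simp only [Finset.mem_filter, Finset.mem_univ, true_and, inv_mem_iff]
      exact ha
    · simp only [hT, Finset.mem_filter, Finset.mem_univ, true_and, inv_inv]
      exact ⟨hxZ, hxa⟩
  have h5 : (Finset.univ.filter (fun x : Γ => ∃ a ∈ A, x * a ∈ Z)).card
      ≤ Z.card + ∑ μ ∈ Finset.univ.filter (fun μ : Γ => μ ∈ A), (T μ).card := by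
    calc (Finset.univ.filter (fun x : Γ => ∃ a ∈ A, x * a ∈ Z)).card
        ≤ ((Finset.univ.filter (fun x : Γ => ∃ a ∈ A, x * a ∈ Z)) \ Z).card + Z.card :=
          Finset.card_le_card_sdiff_add_card
      _ ≤ ((Finset.univ.filter (fun μ : Γ => μ ∈ A)).biUnion T).card + Z.card :=
          Nat.add_le_add_right (Finset.card_le_card h4) _
      _ ≤ (∑ μ ∈ Finset.univ.filter (fun μ : Γ => μ ∈ A), (T μ).card) + Z.card :=
          Nat.add_le_add_right Finset.card_biUnion_le _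
      _ = _ := Nat.add_comm _ _
  have h6 : ∑ μ ∈ Finset.univ.filter (fun μ : Γ => μ ∈ A),
        ((Finset.univ.filter
          (fun x : Γ => (x ∈ Z ∧ x * μ⁻¹ ∉ Z) ∨ (x ∉ Z ∧ x * μ⁻¹ ∈ Z))).card : ℝ)
      = 2 * ((∑ μ ∈ Finset.univ.filter (fun μ : Γ => μ ∈ A), (T μ).card : ℕ) : ℝ) := by
    rw [Finset.sum_congr rfl (fun μ _ => by rw [h1 μ, h2 μ])]
    push_cast
    rw [Finset.sum_add_distrib]
    have h3' : ∑ μ ∈ Finset.univ.filter (fun μ : Γ => μ ∈ A), ((T μ⁻¹).card : ℝ)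
        = ∑ μ ∈ Finset.univ.filter (fun μ : Γ => μ ∈ A), ((T μ).card : ℝ) := by
      exact_mod_cast h3
    rw [h3']
    ring
  rw [h6]
  have h7 : ((Finset.univ.filter (fun x : Γ => ∃ a ∈ A, x * a ∈ Z)).card : ℝ)
      ≤ (Z.card : ℝ) +
        ((∑ μ ∈ Finset.univ.filter (fun μ : Γ => μ ∈ A), (T μ).card : ℕ) : ℝ) := by
    exact_mod_cast h5
  linarith

theorem kgvD_map (σ : ℂ ≃+* ℂ) (μ : Γ) (f : Γ → ℂ) :
    kgvD μ (fun x => σ (f x)) = fun x => σ (kgvD μ f x) := by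
  funext x
  simp only [kgvD, map_sub]

theorem kgvD_mem (n : ℕ) (μ : Γ) (f : Γ → ℂ) (hf : ∀ x, f x ∈ Helper75.cycField n) (x : Γ) :
    kgvD μ f x ∈ Helper75.cycField n :=
  sub_mem (hf x) (hf _)

theorem kgvD_isIntegral (μ : Γ) (f : Γ → ℂ) (hf : ∀ x, IsIntegral ℤ (f x)) (x : Γ) :
    IsIntegral ℤ (kgvD μ f x) :=
  (hf x).sub (hf _)

/-- Galois equivariance of the energy. -/
theorem kgvEn_map (σ : ℂ ≃+* ℂ) (n : ℕ) (hn : n ≠ 0) (L : List (Subgroup Γ)) :
    ∀ f : Γ → ℂ, (∀ x, f x ∈ Helper75.cycField n) →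
      σ (kgvEn L f) = kgvEn L (fun x => σ (f x)) := by
  induction L with
  | nil =>
    intro f hf
    rw [kgvEn_nil, kgvEn_nil, map_sum]
    refine Finset.sum_congr rfl fun x _ => ?_
    rw [map_mul, Helper75.ringEquiv_conj_comm σ n hn (hf x)]
  | cons A L ih =>
    intro f hf
    rw [kgvEn_cons, kgvEn_cons, map_add, map_mul, map_sum, ih f hf]
    have h2 : σ (1 / 2 : ℂ) = 1 / 2 := by
      rw [map_div₀, map_one, map_ofNat]
    rw [h2]
    congr 2
    refine Finset.sum_congr rfl fun μ _ => ?_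
    rw [ih (kgvD μ f) (kgvD_mem n μ f hf), kgvD_map]

theorem mem_kgvZ (L : List (Subgroup Γ)) (f : Γ → ℂ) (x : Γ) :
    x ∈ kgvZ L f ↔ ∃ b ∈ kgvSpan L, f (x * b) ≠ 0 := by
  unfold kgvZ
  rw [Finset.mem_filter]
  exact ⟨fun h => h.2, fun h => ⟨Finset.mem_univ _, h⟩⟩

theorem kgvZ_cons_subset (A : Subgroup Γ) (L : List (Subgroup Γ)) (f : Γ → ℂ) :
    kgvZ (A :: L) f ⊆ Finset.univ.filter (fun x : Γ => ∃ a ∈ A, x * a ∈ kgvZ L f) := by
  intro x hx
  obtain ⟨b, hb, hfb⟩ := (mem_kgvZ (A :: L) f x).1 hx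
  have hb' : b ∈ A ⊔ kgvSpan L := hb
  obtain ⟨a, ha, c, hc, rfl⟩ := Subgroup.mem_sup.1 hb'
  refine Finset.mem_filter.2 ⟨Finset.mem_univ _, a, ha, ?_⟩
  refine (mem_kgvZ L f (x * a)).2 ⟨c, hc, ?_⟩
  rwa [mul_assoc]

theorem kgvZ_D_superset (L : List (Subgroup Γ)) (f : Γ → ℂ) (μ : Γ) :
    Finset.univ.filter (fun x : Γ => (x ∈ kgvZ L f ∧ x * μ⁻¹ ∉ kgvZ L f) ∨
      (x ∉ kgvZ L f ∧ x * μ⁻¹ ∈ kgvZ L f)) ⊆ kgvZ L (kgvD μ f) := by
  intro x hx
  rw [Finset.mem_filter] at hx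
  rw [mem_kgvZ]
  rcases hx.2 with ⟨h1, h0⟩ | ⟨h0, h1⟩
  · obtain ⟨b, hb, hfb⟩ := (mem_kgvZ L f x).1 h1
    refine ⟨b, hb, ?_⟩
    have h2 : f (x * b * μ⁻¹) = 0 := by
      by_contra h3
      refine h0 ((mem_kgvZ L f _).2 ⟨b, hb, ?_⟩)
      rwa [mul_right_comm]
    simp only [kgvD, h2, sub_zero]
    exact hfb
  · obtain ⟨b, hb, hfb⟩ := (mem_kgvZ L f _).1 h1
    refine ⟨b, hb, ?_⟩
    have h2 : f (x * b) = 0 := by
      by_contra h3
      exact h0 ((mem_kgvZ L f _).2 ⟨b, hb, h3⟩)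
    have h3 : f (x * b * μ⁻¹) ≠ 0 := by
      rwa [mul_right_comm]
    simp only [kgvD, h2, zero_sub, ne_eq, neg_eq_zero]
    exact h3

/-- The Galois-averaged lower bound for the energy. -/
theorem kgv_galois_lower (n : ℕ) [NeZero n] (σ : (ZMod n)ˣ → (ℂ ≃+* ℂ))
    (hσ : ∀ (u : (ZMod n)ˣ) (z : ℂ), z ^ n = 1 → σ u z = z ^ (u : ZMod n).val)
    (L : List (Subgroup Γ)) :
    ∀ f : Γ → ℂ, (∀ x, f x ∈ Helper75.cycField n) → (∀ x, IsIntegral ℤ (f x)) →
      (Fintype.card (ZMod n)ˣ : ℝ) * ((kgvZ L f).card : ℝ)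
        ≤ ∑ u : (ZMod n)ˣ, (kgvEn L (fun x => σ u (f x))).re := by
  induction L with
  | nil =>
    intro f hmem hint
    have h1 : ∀ u : (ZMod n)ˣ, (kgvEn ([] : List (Subgroup Γ)) (fun x => σ u (f x))).re
        = ∑ x, ‖σ u (f x)‖ ^ 2 := by
      intro u
      rw [kgvEn_nil, Complex.re_sum]
      refine Finset.sum_congr rfl fun x _ => ?_
      rw [Complex.mul_conj, Complex.ofReal_re, Complex.normSq_eq_norm_sq]
    rw [Finset.sum_congr rfl (fun u _ => h1 u), Finset.sum_comm]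
    have h2 : kgvZ ([] : List (Subgroup Γ)) f = Finset.univ.filter (fun x => f x ≠ 0) := by
      ext x
      rw [mem_kgvZ, Finset.mem_filter]
      constructor
      · rintro ⟨b, hb, hfb⟩
        have hb1 : b = 1 := Subgroup.mem_bot.1 hb
        rw [hb1, mul_one] at hfb
        exact ⟨Finset.mem_univ _, hfb⟩
      · intro h
        exact ⟨1, Subgroup.one_mem _, by rw [mul_one]; exact h.2⟩
    rw [h2]
    have h3 : ∀ x ∈ Finset.univ.filter (fun x : Γ => f x ≠ 0),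
        (Fintype.card (ZMod n)ˣ : ℝ) ≤ ∑ u : (ZMod n)ˣ, ‖σ u (f x)‖ ^ 2 := by
      intro x hx
      rw [Finset.mem_filter] at hx
      have hp : (1 : ℝ) ≤ ∏ u : (ZMod n)ˣ, ‖σ u (f x)‖ ^ 2 := by
        rw [Finset.prod_pow, ← norm_prod]
        have := Helper75.one_le_norm_prod_galois n σ hσ (f x) (hmem x) (hint x) hx.2
        nlinarith
      have := Helper75.card_le_sum_of_one_le_prod (Finset.univ : Finset (ZMod n)ˣ)
        (fun u => ‖σ u (f x)‖ ^ 2) (fun u _ => by positivity) hp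
      rwa [Finset.card_univ] at this
    calc (Fintype.card (ZMod n)ˣ : ℝ) * ((Finset.univ.filter (fun x : Γ => f x ≠ 0)).card : ℝ)
        = ∑ _x ∈ Finset.univ.filter (fun x : Γ => f x ≠ 0), (Fintype.card (ZMod n)ˣ : ℝ) := by
          rw [Finset.sum_const, nsmul_eq_mul, mul_comm]
      _ ≤ ∑ x ∈ Finset.univ.filter (fun x : Γ => f x ≠ 0),
            ∑ u : (ZMod n)ˣ, ‖σ u (f x)‖ ^ 2 := Finset.sum_le_sum h3
      _ ≤ ∑ x : Γ, ∑ u : (ZMod n)ˣ, ‖σ u (f x)‖ ^ 2 :=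
          Finset.sum_le_sum_of_subset_of_nonneg (Finset.filter_subset _ _)
            (fun x _ _ => Finset.sum_nonneg fun u _ => by positivity)
  | cons A L ih =>
    intro f hmem hint
    have h1 : ∀ u : (ZMod n)ˣ, (kgvEn (A :: L) (fun x => σ u (f x))).re
        = (kgvEn L (fun x => σ u (f x))).re + (1 / 2 : ℝ) *
          ∑ μ ∈ Finset.univ.filter (fun μ : Γ => μ ∈ A),
            (kgvEn L (fun x => σ u (kgvD μ f x))).re := by
      intro u
      rw [kgvEn_cons, Complex.add_re]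
      congr 1
      have h12 : (1 / 2 : ℂ) = ((1 / 2 : ℝ) : ℂ) := by push_cast; rfl
      rw [h12, Complex.re_ofReal_mul, Complex.re_sum]
      congr 1
      refine Finset.sum_congr rfl fun μ _ => ?_
      rw [kgvD_map]
    rw [Finset.sum_congr rfl (fun u _ => h1 u), Finset.sum_add_distrib, ← Finset.mul_sum,
      Finset.sum_comm]
    have hA := ih f hmem hint
    have hB : ∀ μ ∈ Finset.univ.filter (fun μ : Γ => μ ∈ A),
        (Fintype.card (ZMod n)ˣ : ℝ) * ((Finset.univ.filter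
          (fun x : Γ => (x ∈ kgvZ L f ∧ x * μ⁻¹ ∉ kgvZ L f) ∨
            (x ∉ kgvZ L f ∧ x * μ⁻¹ ∈ kgvZ L f))).card : ℝ)
          ≤ ∑ u : (ZMod n)ˣ, (kgvEn L (fun x => σ u (kgvD μ f x))).re := by
      intro μ _
      refine le_trans ?_ (ih (kgvD μ f) (kgvD_mem n μ f hmem) (kgvD_isIntegral μ f hint))
      refine mul_le_mul_of_nonneg_left ?_ (Nat.cast_nonneg _)
      exact_mod_cast Finset.card_le_card (kgvZ_D_superset L f μ)
    have hC := Finset.sum_le_sum hB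
    rw [← Finset.mul_sum] at hC
    have hD := kgv_card_mul_le A (kgvZ L f)
    have hE : ((kgvZ (A :: L) f).card : ℝ)
        ≤ ((Finset.univ.filter (fun x : Γ => ∃ a ∈ A, x * a ∈ kgvZ L f)).card : ℝ) := by
      exact_mod_cast Finset.card_le_card (kgvZ_cons_subset A L f)
    have hφ : (0 : ℝ) ≤ (Fintype.card (ZMod n)ˣ : ℝ) := Nat.cast_nonneg _
    nlinarith [mul_le_mul_of_nonneg_left (le_trans hE hD) hφ]

theorem kgvZ_eq_univ (L : List (Subgroup Γ)) (hL : kgvSpan L = ⊤) (f : Γ → ℂ)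
    (hf : ∃ x, f x ≠ 0) : kgvZ L f = Finset.univ := by
  obtain ⟨x₀, hx₀⟩ := hf
  ext x
  simp only [Finset.mem_univ, iff_true]
  refine (mem_kgvZ L f x).2 ⟨x⁻¹ * x₀, by rw [hL]; exact Subgroup.mem_top _, ?_⟩
  rwa [mul_inv_cancel_left]

/-- A family of nonzero functions with values algebraic integers of the `n`-th cyclotomic field
whose energies (for a generating list of subgroups) sum to the rational number `q` has at most
`q / |Γ|` members. -/
theorem kgv_card_le (n : ℕ) (hn : n ≠ 0) {ι : Type*} [Fintype ι] (L : List (Subgroup Γ))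
    (hL : kgvSpan L = ⊤) (f : ι → Γ → ℂ) (hmem : ∀ i x, f i x ∈ Helper75.cycField n)
    (hint : ∀ i x, IsIntegral ℤ (f i x)) (hne : ∀ i, ∃ x, f i x ≠ 0) (q : ℚ)
    (hq : ∑ i, kgvEn L (f i) = (q : ℂ)) :
    ((Fintype.card ι * Fintype.card Γ : ℕ) : ℝ) ≤ (q : ℝ) := by
  have : NeZero n := ⟨hn⟩
  choose σ hσ using fun u : (ZMod n)ˣ =>
    Helper75.exists_ringEquiv_pow n hn (u : ZMod n).val (ZMod.val_coe_unit_coprime u)
  have h1 : ∀ u : (ZMod n)ˣ, ∑ i, (kgvEn L (fun x => σ u (f i x))).re = (q : ℝ) := by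
    intro u
    have h2 := congrArg (σ u) hq
    rw [map_sum, map_ratCast] at h2
    rw [Finset.sum_congr rfl (fun i _ => kgvEn_map (σ u) n hn L (f i) (hmem i))] at h2
    have h3 := congrArg Complex.re h2
    rw [Complex.re_sum] at h3
    rw [h3]
    exact Complex.ratCast_re q
  have h4 : ∀ i, (Fintype.card (ZMod n)ˣ : ℝ) * (Fintype.card Γ : ℝ)
      ≤ ∑ u : (ZMod n)ˣ, (kgvEn L (fun x => σ u (f i x))).re := by
    intro i
    have := kgv_galois_lower n σ hσ L (f i) (hmem i) (hint i)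
    rwa [kgvZ_eq_univ L hL (f i) (hne i), Finset.card_univ] at this
  have h5 := Finset.sum_le_sum (fun i (_ : i ∈ Finset.univ) => h4 i)
  rw [Finset.sum_comm, Finset.sum_congr rfl (fun u _ => h1 u), Finset.sum_const,
    Finset.sum_const, Finset.card_univ, Finset.card_univ, nsmul_eq_mul, nsmul_eq_mul] at h5
  have hφ : (0 : ℝ) < (Fintype.card (ZMod n)ˣ : ℝ) := by exact_mod_cast Fintype.card_pos
  push_cast
  have h6 : (Fintype.card (ZMod n)ˣ : ℝ) * ((Fintype.card ι : ℝ) * (Fintype.card Γ : ℝ))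
      ≤ (Fintype.card (ZMod n)ˣ : ℝ) * (q : ℝ) := by
    calc (Fintype.card (ZMod n)ˣ : ℝ) * ((Fintype.card ι : ℝ) * (Fintype.card Γ : ℝ))
        = (Fintype.card ι : ℝ) * ((Fintype.card (ZMod n)ˣ : ℝ) * (Fintype.card Γ : ℝ)) := by ring
      _ ≤ _ := h5
  exact le_of_mul_le_mul_left h6 hφ

end Kgv1

end Cfsg.Agent.Helper79
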