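import Mathlib
import Cfsg.Agent.Helper79.Kgv1

/-!
# Helper79: the energy inequality for the `k(GV)` abelian-stabilizer criterion, part 2
(Fourier analysis on a finite abelian group `H`, dual group `H →* ℂˣ`)

* `kgvCoeff y lam`: the Fourier coefficient of `y : H → ℂ` at `lam`.
* `kgv_parseval`, `kgvEn_coeff`: the energy of the coefficient function is a weighted `L²` norm.
* `kgv_main`: a family `y i` of nonzero functions on `H` with integral cyclotomic coefficients
  and `∑ i, |y i h|² = N h` has at most `|H|⁻² ∑ h, N h ∏_K (1 + [h ∉ K] |H : K|)` members, for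
  every list of subgroups `K` with trivial intersection.
-/

set_option autoImplicit false
open scoped ComplexConjugate
open Classical

namespace Cfsg.Agent.Helper79

section Kgv2

set_option linter.unusedSectionVars false

variable {H : Type*} [CommGroup H] [Fintype H] [Fintype (H →* ℂˣ)]

/-- The Fourier coefficient of `y` at the linear character `lam`. -/
noncomputable def kgvCoeff (y : H → ℂ) (lam : H →* ℂˣ) : ℂ :=
  (Fintype.card H : ℂ)⁻¹ * ∑ h, y h * conj ((lam h : ℂˣ) : ℂ)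

theorem kgv_hom_norm (lam : H →* ℂˣ) (h : H) : ‖((lam h : ℂˣ) : ℂ)‖ = 1 := by
  have h1 : ((lam h : ℂˣ) : ℂ) ^ Fintype.card H = 1 := by
    rw [← Units.val_pow_eq_pow_val, ← map_pow, pow_card_eq_one, map_one, Units.val_one]
  exact Complex.norm_eq_one_of_pow_eq_one h1 Fintype.card_ne_zero

theorem kgv_hom_conj (lam : H →* ℂˣ) (h : H) :
    conj ((lam h : ℂˣ) : ℂ) = ((lam h⁻¹ : ℂˣ) : ℂ) := by
  rw [← Complex.inv_eq_conj (kgv_hom_norm lam h), map_inv, Units.val_inv_eq_inv_val]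

theorem kgv_hom_mul_conj (lam : H →* ℂˣ) (h : H) :
    ((lam h : ℂˣ) : ℂ) * conj ((lam h : ℂˣ) : ℂ) = 1 := by
  rw [Complex.mul_conj, Complex.normSq_eq_norm_sq, kgv_hom_norm]
  simp

/-- Column orthogonality for the dual group. -/
theorem kgv_sum_hom (g : H) :
    ∑ lam : H →* ℂˣ, ((lam g : ℂˣ) : ℂ) = if g = 1 then (Fintype.card H : ℂ) else 0 := by
  by_cases hg : g = 1
  · rw [if_pos hg, hg]
    simp only [map_one, Units.val_one, Finset.sum_const, Finset.card_univ, nsmul_eq_mul, mul_one]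
    have := CommGroup.card_monoidHom_of_hasEnoughRootsOfUnity H ℂ
    rw [Nat.card_eq_fintype_card, Nat.card_eq_fintype_card] at this
    rw [this]
  · rw [if_neg hg]
    obtain ⟨φ, hφ⟩ := CommGroup.exists_apply_ne_one_of_hasEnoughRootsOfUnity H ℂ hg
    have h1 : ((φ g : ℂˣ) : ℂ) * ∑ lam : H →* ℂˣ, ((lam g : ℂˣ) : ℂ)
        = ∑ lam : H →* ℂˣ, ((lam g : ℂˣ) : ℂ) := by
      rw [Finset.mul_sum]
      rw [← Equiv.sum_comp (Equiv.mulLeft φ) (fun lam : H →* ℂˣ => ((lam g : ℂˣ) : ℂ))]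
      refine Finset.sum_congr rfl fun lam _ => ?_
      rw [Equiv.coe_mulLeft, MonoidHom.mul_apply, Units.val_mul]
    have h2 : ((φ g : ℂˣ) : ℂ) ≠ 1 := by
      intro h
      exact hφ (Units.ext h)
    have h3 : (((φ g : ℂˣ) : ℂ) - 1) * ∑ lam : H →* ℂˣ, ((lam g : ℂˣ) : ℂ) = 0 := by
      rw [sub_mul, h1, one_mul, sub_self]
    rcases mul_eq_zero.1 h3 with h4 | h4
    · exact absurd (sub_eq_zero.1 h4) h2
    · exact h4

/-- Parseval's identity. -/
theorem kgv_parseval (y : H → ℂ) :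
    ∑ lam : H →* ℂˣ, kgvCoeff y lam * conj (kgvCoeff y lam)
      = (Fintype.card H : ℂ)⁻¹ * ∑ h, y h * conj (y h) := by
  have hc : (Fintype.card H : ℂ) ≠ 0 := by exact_mod_cast Fintype.card_ne_zero
  have h1 : ∀ lam : H →* ℂˣ, kgvCoeff y lam * conj (kgvCoeff y lam)
      = (Fintype.card H : ℂ)⁻¹ * (Fintype.card H : ℂ)⁻¹ *
        ∑ h, ∑ h', y h * conj (y h') * ((lam (h⁻¹ * h') : ℂˣ) : ℂ) := by
    intro lam
    unfold kgvCoeff
    rw [map_mul, map_inv₀, Complex.conj_natCast, map_sum]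
    rw [mul_mul_mul_comm, Finset.sum_mul_sum]
    congr 1
    refine Finset.sum_congr rfl fun h _ => ?_
    refine Finset.sum_congr rfl fun h' _ => ?_
    rw [map_mul, Complex.conj_conj, map_mul, Units.val_mul, ← kgv_hom_conj lam h]
    ring
  rw [Finset.sum_congr rfl (fun lam _ => h1 lam), ← Finset.mul_sum, Finset.sum_comm]
  have h2 : ∀ h : H, ∑ lam : H →* ℂˣ, ∑ h', y h * conj (y h') * ((lam (h⁻¹ * h') : ℂˣ) : ℂ)
      = y h * conj (y h) * (Fintype.card H : ℂ) := by
    intro h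
    rw [Finset.sum_comm]
    rw [Finset.sum_eq_single h]
    · rw [← Finset.mul_sum, kgv_sum_hom, if_pos (inv_mul_cancel h)]
    · intro h' _ hne
      rw [← Finset.mul_sum, kgv_sum_hom, if_neg, mul_zero]
      intro h3
      exact hne (inv_mul_eq_one.1 h3).symm
    · intro hh
      exact absurd (Finset.mem_univ h) hh
  rw [Finset.sum_congr rfl (fun h _ => h2 h), ← Finset.sum_mul]
  field_simp

/-- Multiplication by `1 - μ` corresponds to the difference operator on coefficients. -/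
theorem kgvCoeff_mul_one_sub (y : H → ℂ) (μ : H →* ℂˣ) :
    kgvCoeff (fun h => y h * (1 - ((μ h : ℂˣ) : ℂ))) = kgvD μ (kgvCoeff y) := by
  funext lam
  unfold kgvD kgvCoeff
  rw [← mul_sub, ← Finset.sum_sub_distrib]
  congr 1
  refine Finset.sum_congr rfl fun h _ => ?_
  rw [MonoidHom.mul_apply, MonoidHom.inv_apply, Units.val_mul, map_mul,
    ← map_inv, kgv_hom_conj μ h⁻¹, inv_inv]
  ring

/-- The weight attached to a list of subgroups of the dual group. -/
noncomputable def kgvWt (L : List (Subgroup (H →* ℂˣ))) (h : H) : ℂ :=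
  (L.map (fun A : Subgroup (H →* ℂˣ) => 1 + (1 / 2 : ℂ) *
    ∑ μ ∈ Finset.univ.filter (fun μ : H →* ℂˣ => μ ∈ A),
      (1 - ((μ h : ℂˣ) : ℂ)) * conj (1 - ((μ h : ℂˣ) : ℂ)))).prod

theorem kgvWt_nil (h : H) : kgvWt ([] : List (Subgroup (H →* ℂˣ))) h = 1 := rfl

theorem kgvWt_cons (A : Subgroup (H →* ℂˣ)) (L : List (Subgroup (H →* ℂˣ))) (h : H) :
    kgvWt (A :: L) h = (1 + (1 / 2 : ℂ) *
      ∑ μ ∈ Finset.univ.filter (fun μ : H →* ℂˣ => μ ∈ A),
        (1 - ((μ h : ℂˣ) : ℂ)) * conj (1 - ((μ h : ℂˣ) : ℂ))) * kgvWt L h := by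
  unfold kgvWt
  rw [List.map_cons, List.prod_cons]

/-- The energy of the coefficient function as a weighted `L²` norm. -/
theorem kgvEn_coeff (L : List (Subgroup (H →* ℂˣ))) :
    ∀ y : H → ℂ, kgvEn L (kgvCoeff y)
      = (Fintype.card H : ℂ)⁻¹ * ∑ h, y h * conj (y h) * kgvWt L h := by
  induction L with
  | nil =>
    intro y
    rw [kgvEn_nil, kgv_parseval]
    congr 1
    refine Finset.sum_congr rfl fun h _ => ?_
    rw [kgvWt_nil, mul_one]
  | cons A L ih =>
    intro y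
    rw [kgvEn_cons, ih y]
    have h1 : ∀ μ : H →* ℂˣ, kgvEn L (kgvD μ (kgvCoeff y))
        = (Fintype.card H : ℂ)⁻¹ * ∑ h, y h * conj (y h) * kgvWt L h *
          ((1 - ((μ h : ℂˣ) : ℂ)) * conj (1 - ((μ h : ℂˣ) : ℂ))) := by
      intro μ
      rw [← kgvCoeff_mul_one_sub, ih]
      congr 1
      refine Finset.sum_congr rfl fun h _ => ?_
      rw [map_mul]
      ring
    rw [Finset.sum_congr rfl (fun μ _ => h1 μ), ← Finset.mul_sum, Finset.sum_comm]
    rw [mul_left_comm (1 / 2 : ℂ), ← mul_add, Finset.mul_sum, ← Finset.sum_add_distrib]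
    congr 1
    refine Finset.sum_congr rfl fun h _ => ?_
    rw [kgvWt_cons, ← Finset.mul_sum]
    ring

/-- The annihilator of a subgroup `K` in the dual group. -/
noncomputable def kgvAnn (K : Subgroup H) : Subgroup (H →* ℂˣ) :=
  OrderDual.ofDual (CommGroup.subgroupOrderIsoSubgroupMonoidHom H ℂ K)

theorem mem_kgvAnn (K : Subgroup H) (φ : H →* ℂˣ) : φ ∈ kgvAnn K ↔ ∀ g ∈ K, φ g = 1 :=
  CommGroup.mem_subgroupOrderIsoSubgroupMonoidHom_iff ℂ K φ

theorem card_kgvAnn (K : Subgroup H) :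
    (Finset.univ.filter (fun μ : H →* ℂˣ => μ ∈ kgvAnn K)).card = K.index := by
  have h1 := CommGroup.card_subgroupOrderIsoSubgroupMonoidHom ℂ K
  have h2 : Nat.card ↥(kgvAnn K) = (Finset.univ.filter (fun μ : H →* ℂˣ => μ ∈ kgvAnn K)).card := by
    rw [Nat.card_eq_fintype_card, Fintype.card_subtype]
  rw [← h2]
  exact h1

/-- The factor of the weight attached to the annihilator of `K`. -/
theorem kgv_factor (K : Subgroup H) (h : H) :
    1 + (1 / 2 : ℂ) * ∑ μ ∈ Finset.univ.filter (fun μ : H →* ℂˣ => μ ∈ kgvAnn K),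
        (1 - ((μ h : ℂˣ) : ℂ)) * conj (1 - ((μ h : ℂˣ) : ℂ))
      = ((1 + (if h ∈ K then 0 else K.index) : ℕ) : ℂ) := by
  by_cases hK : h ∈ K
  · rw [if_pos hK]
    have h1 : ∀ μ ∈ Finset.univ.filter (fun μ : H →* ℂˣ => μ ∈ kgvAnn K),
        (1 - ((μ h : ℂˣ) : ℂ)) * conj (1 - ((μ h : ℂˣ) : ℂ)) = 0 := by
      intro μ hμ
      rw [Finset.mem_filter] at hμ
      rw [(mem_kgvAnn K μ).1 hμ.2 h hK]
      simp
    rw [Finset.sum_eq_zero h1]
    simp
  · rw [if_neg hK]
    have h0 : ¬ ∀ φ : H →* ℂˣ, (∀ y ∈ K, φ y = 1) → φ h = 1 := by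
      intro hall
      exact hK ((CommGroup.forall_monoidHom_apply_eq_one_iff ℂ K h).1 hall)
    push Not at h0
    obtain ⟨φ, hφK, hφh⟩ := h0
    have hφA : φ ∈ kgvAnn K := (mem_kgvAnn K φ).2 hφK
    set S : ℂ := ∑ μ ∈ Finset.univ.filter (fun μ : H →* ℂˣ => μ ∈ kgvAnn K), ((μ h : ℂˣ) : ℂ)
      with hS
    have h1 : ((φ h : ℂˣ) : ℂ) * S = S := by
      rw [hS, Finset.mul_sum]
      refine Finset.sum_equiv (Equiv.mulLeft φ) ?_ ?_
      · intro μ
        simp only [Finset.mem_filter, Finset.mem_univ, true_and, Equiv.coe_mulLeft]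
        exact (Subgroup.mul_mem_cancel_left _ hφA).symm
      · intro μ _
        rw [Equiv.coe_mulLeft, MonoidHom.mul_apply, Units.val_mul]
    have h2 : ((φ h : ℂˣ) : ℂ) ≠ 1 := fun hh => hφh (Units.ext hh)
    have hS0 : S = 0 := by
      have h3 : (((φ h : ℂˣ) : ℂ) - 1) * S = 0 := by rw [sub_mul, h1, one_mul, sub_self]
      rcases mul_eq_zero.1 h3 with h4 | h4
      · exact absurd (sub_eq_zero.1 h4) h2
      · exact h4
    have h5 : ∀ μ : H →* ℂˣ, (1 - ((μ h : ℂˣ) : ℂ)) * conj (1 - ((μ h : ℂˣ) : ℂ))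
        = 2 - ((μ h : ℂˣ) : ℂ) - conj ((μ h : ℂˣ) : ℂ) := by
      intro μ
      rw [map_sub, map_one]
      have := kgv_hom_mul_conj μ h
      linear_combination this
    rw [Finset.sum_congr rfl (fun μ _ => h5 μ), Finset.sum_sub_distrib, Finset.sum_sub_distrib,
      ← map_sum, ← hS, hS0, map_zero, Finset.sum_const, card_kgvAnn]
    push_cast
    simp only [nsmul_eq_mul]
    ring

theorem kgvWt_map_ann (L : List (Subgroup H)) (h : H) :
    kgvWt (L.map kgvAnn) h
      = (((L.map (fun K : Subgroup H => 1 + (if h ∈ K then 0 else K.index))).prod : ℕ) : ℂ) := by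
  induction L with
  | nil => simp [kgvWt_nil]
  | cons K L ih =>
    rw [List.map_cons, kgvWt_cons, ih, kgv_factor, List.map_cons, List.prod_cons, Nat.cast_mul]

theorem kgvAnn_le_span (L : List (Subgroup H)) :
    ∀ K ∈ L, kgvAnn K ≤ kgvSpan (L.map kgvAnn) := by
  induction L with
  | nil => intro K hK; simp at hK
  | cons K₀ L ih =>
    intro K hK
    rw [List.map_cons]
    rcases List.mem_cons.1 hK with rfl | hK'
    · exact le_sup_left
    · exact le_trans (ih K hK') le_sup_right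

/-- Annihilators of subgroups with trivial intersection generate the dual group. -/
theorem kgvSpan_map_ann (L : List (Subgroup H)) (hL : ∀ h : H, (∀ K ∈ L, h ∈ K) → h = 1) :
    kgvSpan (L.map kgvAnn) = ⊤ := by
  set B : Subgroup (H →* ℂˣ) := kgvSpan (L.map kgvAnn) with hB
  have h1 : (CommGroup.subgroupOrderIsoSubgroupMonoidHom H ℂ).symm (OrderDual.toDual B) = ⊥ := by
    rw [eq_bot_iff]
    intro g hg
    rw [CommGroup.mem_subgroupOrderIsoSubgroupMonoidHom_symm_iff] at hg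
    rw [Subgroup.mem_bot]
    refine hL g fun K hK => ?_
    refine (CommGroup.forall_monoidHom_apply_eq_one_iff ℂ K g).1 fun φ hφ => ?_
    exact hg φ (kgvAnn_le_span L K hK ((mem_kgvAnn K φ).2 hφ))
  have h2 : OrderDual.toDual B = CommGroup.subgroupOrderIsoSubgroupMonoidHom H ℂ ⊥ := by
    rw [← h1, OrderIso.apply_symm_apply]
  have h3 : B = OrderDual.ofDual (CommGroup.subgroupOrderIsoSubgroupMonoidHom H ℂ ⊥) := by
    rw [← h2]
    rfl
  rw [h3, eq_top_iff]
  intro φ _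
  rw [CommGroup.mem_subgroupOrderIsoSubgroupMonoidHom_iff]
  intro g hg
  rw [Subgroup.mem_bot.1 hg, map_one]

/-- **The abstract `k(GV)` inequality.** -/
theorem kgv_main (n : ℕ) (hn : n ≠ 0) {ι : Type*} [Fintype ι] (y : ι → H → ℂ)
    (hmem : ∀ i lam, kgvCoeff (y i) lam ∈ Helper75.cycField n)
    (hint : ∀ i lam, IsIntegral ℤ (kgvCoeff (y i) lam))
    (hne : ∀ i, ∃ h, y i h ≠ 0)
    (L : List (Subgroup H)) (hL : ∀ h : H, (∀ K ∈ L, h ∈ K) → h = 1)
    (N : H → ℕ) (hN : ∀ h, ∑ i, y i h * conj (y i h) = (N h : ℂ)) :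
    Fintype.card ι * Fintype.card H ^ 2
      ≤ ∑ h, N h * (L.map (fun K : Subgroup H => 1 + (if h ∈ K then 0 else K.index))).prod := by
  have hc : (Fintype.card H : ℂ) ≠ 0 := by exact_mod_cast Fintype.card_ne_zero
  have hne' : ∀ i, ∃ lam, kgvCoeff (y i) lam ≠ 0 := by
    intro i
    by_contra hall
    push Not at hall
    have h1 := kgv_parseval (y i)
    rw [Finset.sum_eq_zero (fun lam _ => by rw [hall lam, zero_mul])] at h1
    have h2 : ∑ h, y i h * conj (y i h) = 0 := by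
      rcases mul_eq_zero.1 h1.symm with h3 | h3
      · exact absurd (inv_eq_zero.1 h3) hc
      · exact h3
    have h3 : ∑ h, Complex.normSq (y i h) = 0 := by
      have h4 : ∑ h, y i h * conj (y i h) = ((∑ h, Complex.normSq (y i h) : ℝ) : ℂ) := by
        rw [Complex.ofReal_sum]
        exact Finset.sum_congr rfl fun h _ => Complex.mul_conj _
      rw [h4] at h2
      exact_mod_cast h2
    obtain ⟨h, hh⟩ := hne i
    have h5 := (Finset.sum_eq_zero_iff_of_nonneg (fun h _ => Complex.normSq_nonneg (y i h))).1 h3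
      h (Finset.mem_univ h)
    exact hh (Complex.normSq_eq_zero.1 h5)
  set T : ℕ := ∑ h, N h * (L.map (fun K : Subgroup H =>
    1 + (if h ∈ K then 0 else K.index))).prod with hT
  have hsum : ∑ i, kgvEn (L.map kgvAnn) (kgvCoeff (y i))
      = (((T : ℚ) / (Fintype.card H : ℚ) : ℚ) : ℂ) := by
    rw [Finset.sum_congr rfl (fun i _ => kgvEn_coeff (L.map kgvAnn) (y i)), ← Finset.mul_sum,
      Finset.sum_comm]
    rw [Finset.sum_congr rfl (fun h _ => by rw [← Finset.sum_mul, hN h, kgvWt_map_ann])]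
    push_cast
    rw [hT]
    push_cast
    rw [div_eq_inv_mul]
  have key := kgv_card_le n hn (L.map kgvAnn) (kgvSpan_map_ann L hL)
    (fun i => kgvCoeff (y i)) hmem hint hne' _ hsum
  have hcard : Fintype.card (H →* ℂˣ) = Fintype.card H := by
    have := CommGroup.card_monoidHom_of_hasEnoughRootsOfUnity H ℂ
    rwa [Nat.card_eq_fintype_card, Nat.card_eq_fintype_card] at this
  rw [hcard] at key
  have hpos : (0 : ℝ) < (Fintype.card H : ℝ) := by exact_mod_cast Fintype.card_pos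
  push_cast at key
  rw [le_div_iff₀ hpos] at key
  have : ((Fintype.card ι * Fintype.card H ^ 2 : ℕ) : ℝ) ≤ (T : ℝ) := by
    push_cast
    nlinarith
  exact_mod_cast this

end Kgv2

end Cfsg.Agent.Helper79
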