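import Mathlib

/-!
# Helper79: the `k(GV)` abelian-stabilizer criterion, part 3 (coprime action of an abelian group)

Let the finite abelian group `H` of order prime to `p` act on the finite abelian group `M` of
exponent `p`.  `kgv_exists_kernels`: for every `H`-invariant subgroup `U` of `M` there is a list of
subgroups `K` of `H` such that an element lying in all of them centralizes `U`, and
`∏_K (1 + [h ∉ K] |H : K|) · |C_U(h)| ≤ |U|` for all `h`.
-/

set_option autoImplicit false

namespace Cfsg.Agent.Helper79

section Kgv3

variable {H M : Type*} [CommGroup H] [CommGroup M] [MulDistribMulAction H M]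

/-- The fixed points of `h` in the subgroup `U`. -/
def kgvFix (h : H) (U : Subgroup M) : Subgroup M where
  carrier := {u | u ∈ U ∧ h • u = u}
  mul_mem' := fun {a b} ha hb => ⟨U.mul_mem ha.1 hb.1, by rw [smul_mul', ha.2, hb.2]⟩
  one_mem' := ⟨U.one_mem, smul_one h⟩
  inv_mem' := fun {a} ha => ⟨U.inv_mem ha.1, by rw [smul_inv', ha.2]⟩

theorem mem_kgvFix (h : H) (U : Subgroup M) (u : M) : u ∈ kgvFix h U ↔ u ∈ U ∧ h • u = u :=
  Iff.rfl

theorem kgvFix_le (h : H) (U : Subgroup M) : kgvFix h U ≤ U := fun _ hu => hu.1

theorem kgv_card_fix_mul_le [Finite M] (h : H) (U U' : Subgroup M) (hle : U' ≤ U) :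
    Nat.card (kgvFix h U) * Nat.card U' ≤ Nat.card (kgvFix h U') * Nat.card U := by
  have hinf : kgvFix h U ⊓ U' = kgvFix h U' := by
    ext u
    constructor
    · rintro ⟨⟨_, h2⟩, h3⟩
      exact ⟨h3, h2⟩
    · rintro ⟨h1, h2⟩
      exact ⟨⟨hle h1, h2⟩, h1⟩
  have h1 : Nat.card (kgvFix h U ⊓ U' : Subgroup M) * (kgvFix h U ⊓ U').relIndex (kgvFix h U)
      = Nat.card (kgvFix h U) := by
    have := Subgroup.relIndex_mul_relIndex ⊥ (kgvFix h U ⊓ U') (kgvFix h U) bot_le inf_le_left
    rwa [Subgroup.relIndex_bot_left, Subgroup.relIndex_bot_left] at this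
  have h2 : Nat.card U' * U'.relIndex U = Nat.card U := by
    have := Subgroup.relIndex_mul_relIndex ⊥ U' U bot_le hle
    rwa [Subgroup.relIndex_bot_left, Subgroup.relIndex_bot_left] at this
  have h3 : (kgvFix h U ⊓ U').relIndex (kgvFix h U) = U'.relIndex (kgvFix h U) :=
    Subgroup.inf_relIndex_left (kgvFix h U) U'
  have h0 : U'.relIndex U ≠ 0 := by
    intro h0
    rw [h0, mul_zero] at h2
    exact Nat.card_pos.ne' h2.symm
  have h4 : U'.relIndex (kgvFix h U) ≤ U'.relIndex U :=
    Subgroup.relIndex_le_of_le_right (kgvFix_le h U) h0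
  calc Nat.card (kgvFix h U) * Nat.card U'
      = Nat.card (kgvFix h U ⊓ U' : Subgroup M) * U'.relIndex (kgvFix h U) * Nat.card U' := by
        rw [← h1, h3]
    _ ≤ Nat.card (kgvFix h U ⊓ U' : Subgroup M) * U'.relIndex U * Nat.card U' :=
        Nat.mul_le_mul_right _ (Nat.mul_le_mul_left _ h4)
    _ = Nat.card (kgvFix h U') * Nat.card U := by
        rw [hinf, ← h2]
        ring

theorem kgv_index_count [Finite H] [Finite M] (U U' : Subgroup M) (hlt : U' < U)
    (hU : ∀ h : H, ∀ u ∈ U, h • u ∈ U) (hU' : ∀ h : H, ∀ u ∈ U', h • u ∈ U')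
    (K : Subgroup H) (hK : ∀ e : H, e ∉ K → ∀ u ∈ U, e • u / u ∈ U' → u ∈ U') :
    (1 + K.index) * Nat.card U' ≤ Nat.card U := by
  obtain ⟨w, hwU, hwU'⟩ := SetLike.exists_of_lt hlt
  let Φ : ((H ⧸ K) × ↥U') ⊕ ↥U' → ↥U := fun x =>
    match x with
    | Sum.inl qu => ⟨qu.1.out • w * (qu.2 : M), U.mul_mem (hU _ _ hwU) (hlt.le qu.2.2)⟩
    | Sum.inr u => ⟨(u : M), hlt.le u.2⟩
  have hmixed : ∀ (q : H ⧸ K) (u u' : ↥U'), q.out • w * (u : M) ≠ (u' : M) := by
    intro q u u' h1
    have h2 : q.out • w ∈ U' := by
      have h3 : q.out • w = (u' : M) / (u : M) := by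
        rw [← h1, mul_div_cancel_right]
      rw [h3]
      exact U'.div_mem u'.2 u.2
    have h3 := hU' q.out⁻¹ _ h2
    rw [inv_smul_smul] at h3
    exact hwU' h3
  have hΦ : Function.Injective Φ := by
    rintro (⟨q, u⟩ | u) (⟨q', u'⟩ | u') hxy
    · have h1 : q.out • w * (u : M) = q'.out • w * (u' : M) := congrArg Subtype.val hxy
      have h2 : (q'.out⁻¹ * q.out) • w / w ∈ U' := by
        have h3 : q.out • w / q'.out • w = (u' : M) / (u : M) := by
          rw [div_eq_div_iff_mul_eq_mul, h1, mul_comm]
        have h4 : q.out • w / q'.out • w ∈ U' := by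
          rw [h3]
          exact U'.div_mem u'.2 u.2
        have h5 := hU' q'.out⁻¹ _ h4
        rwa [smul_div', smul_smul, inv_smul_smul] at h5
      have h6 : q'.out⁻¹ * q.out ∈ K := by
        by_contra hne
        exact hwU' (hK _ hne w hwU h2)
      have h7 : q' = q := by
        rw [← q'.out_eq', ← q.out_eq']
        exact QuotientGroup.eq.2 h6
      subst h7
      have h8 : (u : M) = u' := mul_left_cancel h1
      rw [Subtype.ext h8]
    · exact absurd (congrArg Subtype.val hxy) (hmixed q u u')
    · exact absurd (congrArg Subtype.val hxy).symm (hmixed q' u' u)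
    · have h1 : ((Φ (Sum.inr u) : ↥U) : M) = ((Φ (Sum.inr u') : ↥U) : M) :=
        congrArg Subtype.val hxy
      have h2 : (u : M) = u' := h1
      rw [Subtype.ext h2]
  have hcard := Nat.card_le_card_of_injective Φ hΦ
  rw [Nat.card_sum, Nat.card_prod] at hcard
  calc (1 + K.index) * Nat.card U' = Nat.card (H ⧸ K) * Nat.card U' + Nat.card U' := by
        rw [Subgroup.index]
        ring
    _ ≤ _ := hcard

/-- **Kernels of a composition series** for a coprime action of an abelian group. -/
theorem kgv_exists_kernels [Finite H] [Finite M] (p : ℕ) [Fact p.Prime]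
    (hM : ∀ m : M, m ^ p = 1) (hH : ¬ p ∣ Nat.card H) (U : Subgroup M)
    (hU : ∀ h : H, ∀ u ∈ U, h • u ∈ U) :
    ∃ L : List (Subgroup H),
      (∀ h : H, (∀ K ∈ L, h ∈ K) → ∀ u ∈ U, h • u = u) ∧
      ∀ h : H, (L.map (fun K : Subgroup H =>
          1 + (@ite ℕ (h ∈ K) (Classical.propDecidable _) 0 K.index))).prod
            * Nat.card (kgvFix h U) ≤ Nat.card U := by
  classical
  suffices hmain : ∀ k : ℕ, ∀ U : Subgroup M, Nat.card U = k →
      (∀ h : H, ∀ u ∈ U, h • u ∈ U) →
      ∃ L : List (Subgroup H),
        (∀ h : H, (∀ K ∈ L, h ∈ K) → ∀ u ∈ U, h • u = u) ∧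
        ∀ h : H, (L.map (fun K : Subgroup H =>
            1 + (@ite ℕ (h ∈ K) (Classical.propDecidable _) 0 K.index))).prod
              * Nat.card (kgvFix h U) ≤ Nat.card U from hmain _ U rfl hU
  intro k
  induction k using Nat.strong_induction_on with
  | _ k ih =>
    intro U hk hU
    by_cases hbot : U = ⊥
    · refine ⟨[], ?_, ?_⟩
      · intro h _ u hu
        rw [hbot, Subgroup.mem_bot] at hu
        rw [hu, smul_one]
      · intro h
        rw [List.map_nil, List.prod_nil, one_mul]
        exact Subgroup.card_le_of_le (kgvFix_le h U)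
    · obtain ⟨U', -, hmax⟩ := Finite.exists_le_maximal
        (p := fun W : Subgroup M => W < U ∧ ∀ h : H, ∀ u ∈ W, h • u ∈ W) (a := ⊥)
        ⟨bot_lt_iff_ne_bot.2 hbot, fun h u hu => by
          rw [Subgroup.mem_bot] at hu ⊢
          rw [hu, smul_one]⟩
      obtain ⟨⟨hU'lt, hU'inv⟩, hU'max⟩ := hmax
      have hcard' : Nat.card U' < Nat.card U :=
        Set.Finite.card_lt_card (Set.toFinite _) (SetLike.coe_ssubset_coe.2 hU'lt)
      obtain ⟨L', hL'1, hL'2⟩ := ih (Nat.card U') (hk ▸ hcard') U' rfl hU'inv
      let K : Subgroup H :=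
        { carrier := {c | ∀ u ∈ U, c • u / u ∈ U'}
          mul_mem' := by
            intro c d hc hd u hu
            have h1 : (c * d) • u / u = (c • (d • u) / (d • u)) * (d • u / u) := by
              rw [mul_smul, div_mul_div_cancel]
            rw [h1]
            exact U'.mul_mem (hc _ (hU d u hu)) (hd u hu)
          one_mem' := by
            intro u _
            rw [one_smul, div_self']
            exact U'.one_mem
          inv_mem' := by
            intro c hc u hu
            have h1 := hc (c⁻¹ • u) (hU _ u hu)
            rw [smul_inv_smul] at h1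
            have h2 : c⁻¹ • u / u = (u / c⁻¹ • u)⁻¹ := by rw [inv_div]
            rw [h2]
            exact U'.inv_mem h1 }
      have hstar : ∀ e : H, e ∉ K → ∀ u ∈ U, e • u / u ∈ U' → u ∈ U' := by
        intro e he
        let W : Subgroup M :=
          { carrier := {u | u ∈ U ∧ e • u / u ∈ U'}
            mul_mem' := by
              intro a b ha hb
              refine ⟨U.mul_mem ha.1 hb.1, ?_⟩
              have h1 : e • (a * b) / (a * b) = (e • a / a) * (e • b / b) := by
                rw [smul_mul', div_mul_div_comm]
              rw [h1]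
              exact U'.mul_mem ha.2 hb.2
            one_mem' := by
              refine ⟨U.one_mem, ?_⟩
              rw [smul_one, div_self']
              exact U'.one_mem
            inv_mem' := by
              intro a ha
              refine ⟨U.inv_mem ha.1, ?_⟩
              have h1 : e • a⁻¹ / a⁻¹ = (e • a / a)⁻¹ := by
                rw [smul_inv', inv_div_inv, inv_div]
              rw [h1]
              exact U'.inv_mem ha.2 }
        have hW1 : U' ≤ W := fun u hu => ⟨hU'lt.le hu, U'.div_mem (hU'inv e u hu) hu⟩
        have hW2 : W ≤ U := fun u hu => hu.1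
        have hW3 : W ≠ U := by
          intro hWU
          apply he
          intro u hu
          have h1 : u ∈ W := hWU ▸ hu
          exact h1.2
        have hW4 : ∀ d : H, ∀ u ∈ W, d • u ∈ W := by
          intro d u hu
          refine ⟨hU d u hu.1, ?_⟩
          have h1 : e • d • u / d • u = d • (e • u / u) := by
            rw [smul_div', smul_smul, smul_smul, mul_comm]
          rw [h1]
          exact hU'inv d _ hu.2
        have hW5 : W ≤ U' := hU'max ⟨lt_of_le_of_ne hW2 hW3, hW4⟩ hW1
        intro u hu hu'
        exact hW5 ⟨hu, hu'⟩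
      refine ⟨K :: L', ?_, ?_⟩
      · intro h hh u hu
        have hhK : h ∈ K := hh K List.mem_cons_self
        have hfix : ∀ w ∈ U', h • w = w :=
          hL'1 h (fun K' hK' => hh K' (List.mem_cons_of_mem _ hK'))
        have hwU' : h • u / u ∈ U' := hhK u hu
        have hhu : h • u = u * (h • u / u) := by rw [mul_div_cancel]
        have hpow : ∀ k : ℕ, h ^ k • u = u * (h • u / u) ^ k := by
          intro k
          induction k with
          | zero => simp
          | succ k ihk =>
            rw [pow_succ', mul_smul, ihk, smul_mul', smul_pow', hfix _ hwU', pow_succ']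
            nth_rewrite 1 [hhu]
            rw [mul_assoc]
        have h1 : (h • u / u) ^ orderOf h = 1 := by
          have h2 := hpow (orderOf h)
          rw [pow_orderOf_eq_one, one_smul] at h2
          have h3 : u * (h • u / u) ^ orderOf h = u * 1 := by
            rw [mul_one]
            exact h2.symm
          exact mul_left_cancel h3
        have h2 : (h • u / u) ^ p = 1 := hM _
        have hp : p.Prime := Fact.out
        have hcop : Nat.Coprime (orderOf h) p := by
          rw [Nat.coprime_comm, hp.coprime_iff_not_dvd]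
          intro hdvd
          exact hH (dvd_trans hdvd (orderOf_dvd_natCard h))
        have h3 : h • u / u = 1 := by
          have h4 : orderOf (h • u / u) ∣ Nat.gcd (orderOf h) p :=
            Nat.dvd_gcd (orderOf_dvd_of_pow_eq_one h1) (orderOf_dvd_of_pow_eq_one h2)
          rw [hcop.gcd_eq_one] at h4
          exact orderOf_eq_one_iff.1 (Nat.dvd_one.1 h4)
        exact div_eq_one.1 h3
      · intro h
        rw [List.map_cons, List.prod_cons]
        have hIH := hL'2 h
        by_cases hhK : h ∈ K
        · rw [if_pos hhK, add_zero, one_mul]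
          have h1 := kgv_card_fix_mul_le h U U' hU'lt.le
          have hpos : 0 < Nat.card U' := Nat.card_pos
          have h2 : (L'.map (fun K : Subgroup H =>
              1 + (@ite ℕ (h ∈ K) (Classical.propDecidable _) 0 K.index))).prod
                * Nat.card (kgvFix h U) * Nat.card U' ≤ Nat.card U * Nat.card U' := by
            calc (L'.map (fun K : Subgroup H =>
                  1 + (@ite ℕ (h ∈ K) (Classical.propDecidable _) 0 K.index))).prod
                    * Nat.card (kgvFix h U) * Nat.card U'
                = (L'.map (fun K : Subgroup H =>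
                  1 + (@ite ℕ (h ∈ K) (Classical.propDecidable _) 0 K.index))).prod
                    * (Nat.card (kgvFix h U) * Nat.card U') := by ring
              _ ≤ (L'.map (fun K : Subgroup H =>
                  1 + (@ite ℕ (h ∈ K) (Classical.propDecidable _) 0 K.index))).prod
                    * (Nat.card (kgvFix h U') * Nat.card U) := Nat.mul_le_mul_left _ h1
              _ = ((L'.map (fun K : Subgroup H =>
                  1 + (@ite ℕ (h ∈ K) (Classical.propDecidable _) 0 K.index))).prod
                    * Nat.card (kgvFix h U')) * Nat.card U := by ring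
              _ ≤ Nat.card U' * Nat.card U := Nat.mul_le_mul_right _ hIH
              _ = _ := by ring
          exact Nat.le_of_mul_le_mul_right h2 hpos
        · rw [if_neg hhK]
          have h1 : kgvFix h U ≤ kgvFix h U' := by
            intro u hu
            refine ⟨hstar h hhK u hu.1 ?_, hu.2⟩
            rw [hu.2, div_self']
            exact U'.one_mem
          have h2 : Nat.card (kgvFix h U) ≤ Nat.card (kgvFix h U') := Subgroup.card_le_of_le h1
          have h3 := kgv_index_count U U' hU'lt hU hU'inv K hstar
          calc (1 + K.index) * (L'.map (fun K : Subgroup H =>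
                  1 + (@ite ℕ (h ∈ K) (Classical.propDecidable _) 0 K.index))).prod
                    * Nat.card (kgvFix h U)
              ≤ (1 + K.index) * ((L'.map (fun K : Subgroup H =>
                  1 + (@ite ℕ (h ∈ K) (Classical.propDecidable _) 0 K.index))).prod
                    * Nat.card (kgvFix h U')) := by
                rw [mul_assoc]
                exact Nat.mul_le_mul_left _ (Nat.mul_le_mul_left _ h2)
            _ ≤ (1 + K.index) * Nat.card U' := Nat.mul_le_mul_left _ hIH
            _ ≤ Nat.card U := h3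

end Kgv3

end Cfsg.Agent.Helper79
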