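import Mathlib
import Cfsg.Agent.Helper79.Kgv2
import Cfsg.Agent.Helper79.Abelian
import Cfsg.Agent.Helper80.LinChar

/-!
# Helper79: the `k(GV)` abelian-stabilizer criterion, part 4 (integrality of coefficients)

`kgv_coeff_integral`: for a character `χ` of `X`, an element `v` with `v ^ n = 1` and an abelian
group `H` mapping to the centralizer of `v`, the Fourier coefficients of `c ↦ χ (v * j c)` are
algebraic integers of the `n`-th cyclotomic field.
-/

set_option autoImplicit false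
open Cfsg
open scoped ComplexConjugate

namespace Cfsg.Agent.Helper79

universe u

theorem kgv_coeff_integral {X : Type u} [Group X] [Finite X] {χ : X → ℂ} (hχ : IsCharacter X χ)
    {H : Type*} [CommGroup H] [Fintype H] (j : H →* X) (v : X) (n : ℕ) (hn : n ≠ 0)
    (hvn : v ^ n = 1) (hjv : ∀ c : H, j c * v = v * j c) (lam : H →* ℂˣ) :
    IsIntegral ℤ (kgvCoeff (fun c => χ (v * j c)) lam) ∧
      kgvCoeff (fun c => χ (v * j c)) lam ∈ Helper75.cycField n := by
  classical
  have hcomm : ∀ x ∈ insert v (Set.range j), ∀ y ∈ insert v (Set.range j), x * y = y * x := by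
    rintro x (rfl | ⟨c, rfl⟩) y (rfl | ⟨d, rfl⟩)
    · rfl
    · exact (hjv d).symm
    · exact hjv c
    · rw [← map_mul, ← map_mul, mul_comm]
  let A : Subgroup X := Subgroup.closure (insert v (Set.range j))
  have hA : ∀ a b : ↥A, a * b = b * a := fun a b =>
    (Subgroup.isMulCommutative_closure hcomm).is_comm.comm a b
  have hvA : v ∈ A := Subgroup.subset_closure (Set.mem_insert _ _)
  have hjA : ∀ c, j c ∈ A := fun c =>
    Subgroup.subset_closure (Set.mem_insert_of_mem _ ⟨c, rfl⟩)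
  let _ : Fintype ↥A := Fintype.ofFinite _
  let _ : Fintype (IrrCharacter ↥A) := Fintype.ofFinite _
  have hψ : IsCharacter ↥A (fun a : ↥A => χ a) := isCharacter_restrict hχ A
  have hexp := Helper3.classFunction_eq_sum (fun a : ↥A => χ a) (isCharacter_isClassFunction hψ)
  choose m hm using fun ψ : IrrCharacter ↥A =>
    Helper3.classInner_isCharacter_nat hψ (irr_isCharacter ψ)
  choose f hf using fun ψ : IrrCharacter ↥A =>
    Helper80.exists_hom_of_linear ψ (irr_charDegree_eq_one_of_comm hA ψ)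
  have hval : ∀ a : ↥A, χ a = ∑ ψ : IrrCharacter ↥A, (m ψ : ℂ) * ((f ψ a : ℂˣ) : ℂ) := by
    intro a
    have h1 := congrFun hexp a
    rw [Finset.sum_apply] at h1
    have h2 : χ a = ∑ ψ : IrrCharacter ↥A,
        (classInner (fun a : ↥A => χ a) (ψ : ↥A → ℂ) • (ψ : ↥A → ℂ)) a := h1
    rw [h2]
    refine Finset.sum_congr rfl fun ψ _ => ?_
    have h3 : (ψ : ↥A → ℂ) a = ((f ψ a : ℂˣ) : ℂ) :=
      (congrFun (congrArg Subtype.val (hf ψ)) a).symm
    rw [Pi.smul_apply, smul_eq_mul, hm, h3]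
  let j' : H →* ↥A := j.codRestrict A hjA
  have hcoef : kgvCoeff (fun c => χ (v * j c)) lam
      = ∑ ψ : IrrCharacter ↥A, (m ψ : ℂ) * ((f ψ ⟨v, hvA⟩ : ℂˣ) : ℂ) *
          (if (f ψ).comp j' = lam then 1 else 0) := by
    unfold kgvCoeff
    have h1 : ∀ c : H, χ (v * j c) = ∑ ψ : IrrCharacter ↥A, (m ψ : ℂ) *
        (((f ψ ⟨v, hvA⟩ : ℂˣ) : ℂ) * ((((f ψ).comp j') c : ℂˣ) : ℂ)) := by
      intro c
      have h2 := hval (⟨v, hvA⟩ * j' c)
      have h3 : (((⟨v, hvA⟩ * j' c : ↥A)) : X) = v * j c := rfl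
      rw [h3] at h2
      rw [h2]
      refine Finset.sum_congr rfl fun ψ _ => ?_
      rw [map_mul, Units.val_mul]
      rfl
    have h1' : ∀ c : H, (fun c => χ (v * j c)) c * conj ((lam c : ℂˣ) : ℂ)
        = ∑ ψ : IrrCharacter ↥A, (m ψ : ℂ) *
          (((f ψ ⟨v, hvA⟩ : ℂˣ) : ℂ) * ((((f ψ).comp j') c : ℂˣ) : ℂ)) * conj ((lam c : ℂˣ) : ℂ) := by
      intro c
      show χ (v * j c) * conj ((lam c : ℂˣ) : ℂ) = _
      rw [h1 c, Finset.sum_mul]
    rw [Finset.sum_congr rfl (fun c _ => h1' c)]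
    rw [Finset.sum_comm, Finset.mul_sum]
    refine Finset.sum_congr rfl fun ψ _ => ?_
    have h2 := Helper80.hom_orthogonality ((f ψ).comp j') lam
    rw [Finset.sum_congr rfl (fun c _ => by rw [mul_assoc, mul_assoc]), ← Finset.mul_sum,
      ← Finset.mul_sum, h2]
    have hc : (Fintype.card H : ℂ) ≠ 0 := by exact_mod_cast Fintype.card_ne_zero
    by_cases h : (f ψ).comp j' = lam
    · rw [if_pos h, if_pos h]
      field_simp
    · rw [if_neg h, if_neg h]
      simp
  have hroot : ∀ ψ : IrrCharacter ↥A, ((f ψ ⟨v, hvA⟩ : ℂˣ) : ℂ) ^ n = 1 := by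
    intro ψ
    rw [← Units.val_pow_eq_pow_val, ← map_pow]
    have h1 : (⟨v, hvA⟩ : ↥A) ^ n = 1 := Subtype.ext hvn
    rw [h1, map_one, Units.val_one]
  rw [hcoef]
  constructor
  · refine IsIntegral.sum _ fun ψ _ => ?_
    refine IsIntegral.mul (IsIntegral.mul (isIntegral_natCast _) ?_) ?_
    · apply IsIntegral.of_pow (Nat.pos_of_ne_zero hn)
      rw [hroot ψ]
      exact isIntegral_one
    · split_ifs
      · exact isIntegral_one
      · exact isIntegral_zero
  · refine sum_mem fun ψ _ => ?_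
    refine mul_mem (mul_mem (natCast_mem _ _) ?_) ?_
    · exact Helper75.mem_cycField_of_pow_eq_one n hn (hroot ψ)
    · split_ifs
      · exact one_mem _
      · exact zero_mem _

end Cfsg.Agent.Helper79
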