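import Mathlib
import Cfsg.Agent.Helper79.Kgv3
import Cfsg.Agent.Helper79.Kgv4
import Cfsg.Agent.Helper80.CharOrtho
import Cfsg.Agent.Helper82.NonVanish

/-!
# Helper79: the `k(GV)` abelian-stabilizer criterion, part 5 (assembly)

`kgv_class_number_le`: let `V` be a self-centralizing normal elementary abelian Sylow
`p`-subgroup of `X` with complement `G`, and `v ∈ V` such that `C_G(v)` is the isomorphic image of
an abelian group `H`.  Then `k(X) ≤ |V|`.
-/

set_option autoImplicit false
set_option linter.style.haveILetI false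
open Cfsg
open scoped ComplexConjugate

namespace Cfsg.Agent.Helper79

theorem kgv_class_number_le {X : Type*} [Group X] [Finite X] (p : ℕ) [Fact p.Prime]
    (V : Subgroup X) [V.Normal] (hVexp : ∀ v ∈ V, v ^ p = 1) (hidx : ¬ p ∣ V.index)
    (hself : Subgroup.centralizer (V : Set X) = V) (G : Subgroup X)
    (hGV : Subgroup.IsComplement' V G) (v : X) (hv : v ∈ V)
    {H : Type*} [CommGroup H] [Finite H] (j : H →* X) (hj : Function.Injective j)
    (hrange : ∀ x : X, x ∈ G ⊓ Subgroup.centralizer ({v} : Set X) ↔ ∃ c : H, j c = x) :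
    Nat.card (ConjClasses X) ≤ Nat.card V := by
  classical
  have hp : p.Prime := Fact.out
  have hcard : Nat.card V * Nat.card G = Nat.card X := Subgroup.IsComplement.card_mul_card hGV
  have hG : ¬ p ∣ Nat.card G := by
    have h1 : Nat.card V * V.index = Nat.card X := V.card_mul_index
    have h2 : V.index = Nat.card G :=
      Nat.eq_of_mul_eq_mul_left Nat.card_pos (h1.trans hcard.symm)
    rwa [h2] at hidx
  have hdisj : ∀ z : X, z ∈ V → z ∈ G → z = 1 := fun z hzV hzG =>
    (Subgroup.disjoint_def.1 hGV.disjoint) hzV hzG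
  have huniq : ∀ u ∈ V, ∀ h ∈ G, ∀ u' ∈ V, ∀ h' ∈ G, u * h = u' * h' → u = u' ∧ h = h' := by
    intro u hu h hh u' hu' h' hh' e
    have e1 : u'⁻¹ * u = h' * h⁻¹ := by
      rw [eq_mul_inv_iff_mul_eq, mul_assoc, e, inv_mul_cancel_left]
    have e2 : u'⁻¹ * u = 1 :=
      hdisj _ (V.mul_mem (V.inv_mem hu') hu) (e1 ▸ G.mul_mem hh' (G.inv_mem hh))
    have e3 : h' * h⁻¹ = 1 := e1 ▸ e2
    exact ⟨(inv_mul_eq_one.1 e2).symm, (mul_inv_eq_one.1 e3).symm⟩
  have hdec : ∀ x : X, ∃ w ∈ V, ∃ h ∈ G, x = w * h := by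
    intro x
    obtain ⟨⟨⟨w, hw⟩, ⟨h, hh⟩⟩, e⟩ := (Subgroup.isComplement_iff_existsUnique.1 hGV x).exists
    exact ⟨w, hw, h, hh, e.symm⟩
  have hVab : ∀ a ∈ V, ∀ b ∈ V, a * b = b * a := by
    intro a ha b hb
    have h1 : a ∈ Subgroup.centralizer (V : Set X) := by
      rw [hself]
      exact ha
    exact (Subgroup.mem_centralizer_iff.1 h1 b hb).symm
  have hVp : IsPGroup p V := by
    intro g
    refine ⟨1, ?_⟩
    rw [pow_one]
    exact Subtype.ext (hVexp g g.2)
  have hjG : ∀ c : H, j c ∈ G := fun c => ((hrange (j c)).2 ⟨c, rfl⟩).1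
  have hjv : ∀ c : H, j c * v = v * j c := by
    intro c
    have h1 := ((hrange (j c)).2 ⟨c, rfl⟩).2
    exact (Subgroup.mem_centralizer_iff.1 h1 v rfl).symm
  have hH : ¬ p ∣ Nat.card H := by
    intro hdvd
    apply hG
    have h1 : Nat.card H = Nat.card j.range := Nat.card_congr (Equiv.ofInjective j hj)
    have h2 : j.range ≤ G := by
      rintro _ ⟨c, rfl⟩
      exact hjG c
    exact dvd_trans (h1 ▸ hdvd) (Subgroup.card_dvd_of_le h2)
  letI iV : CommGroup ↥V :=
    { (inferInstance : Group ↥V) with mul_comm := fun a b => Subtype.ext (hVab a a.2 b b.2) }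
  letI iA : MulDistribMulAction H ↥V :=
    MulDistribMulAction.compHom ↥V ((MulAut.conjNormal (H := V)).comp j)
  have hsmul : ∀ (c : H) (u : ↥V), ((c • u : ↥V) : X) = j c * u * (j c)⁻¹ := fun c u => rfl
  have hfixiff : ∀ (c : H) (u : ↥V), c • u = u ↔ j c * (u : X) = (u : X) * j c := by
    intro c u
    rw [← Subtype.coe_inj, hsmul, mul_inv_eq_iff_eq_mul]
  have hM : ∀ m : ↥V, m ^ p = 1 := fun m => Subtype.ext (hVexp m m.2)
  have hUtop : ∀ h : H, ∀ u ∈ (⊤ : Subgroup ↥V), h • u ∈ (⊤ : Subgroup ↥V) :=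
    fun h u _ => Subgroup.mem_top (h • u)
  obtain ⟨L, hL1, hL2⟩ := kgv_exists_kernels (H := H) (M := ↥V) p hM hH (⊤ : Subgroup ↥V) hUtop
  have hL : ∀ h : H, (∀ K ∈ L, h ∈ K) → h = 1 := by
    intro h hh
    have h1 : j h ∈ Subgroup.centralizer (V : Set X) := by
      rw [Subgroup.mem_centralizer_iff]
      intro u hu
      have h2 := (hfixiff h ⟨u, hu⟩).1 (hL1 h hh ⟨u, hu⟩ (Subgroup.mem_top _))
      exact h2.symm
    rw [hself] at h1
    have h2 : j h = 1 := hdisj _ h1 (hjG h)
    exact hj (h2.trans (map_one j).symm)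
  letI : Fintype X := Fintype.ofFinite X
  letI : Fintype H := Fintype.ofFinite H
  haveI : Finite (H →* ℂˣ) := Helper80.finite_hom
  letI : Fintype (H →* ℂˣ) := Fintype.ofFinite _
  letI : Fintype (IrrCharacter X) := Fintype.ofFinite _
  -- the centralizer count
  have hcent : ∀ c : H, Nat.card (Subgroup.centralizer ({v * j c} : Set X))
      = Nat.card H * Nat.card (kgvFix c (⊤ : Subgroup ↥V)) := by
    intro c
    have hcm : Nat.Coprime (Nat.card G) (orderOf v) := by
      have h1 : orderOf v ∣ p := orderOf_dvd_of_pow_eq_one (hVexp v hv)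
      rcases (Nat.dvd_prime hp).1 h1 with h2 | h2
      · rw [h2]
        exact Nat.coprime_one_right _
      · rw [h2, Nat.coprime_comm, hp.coprime_iff_not_dvd]
        exact hG
    obtain ⟨k, hk⟩ := exists_pow_eq_self_of_coprime hcm
    have hjc_pow : (j c) ^ Nat.card G = 1 := by
      have h1 := pow_card_eq_one' (G := ↥G) (x := ⟨j c, hjG c⟩)
      exact congrArg Subtype.val h1
    have hvc_pow : ((v * j c) ^ Nat.card G) ^ k = v := by
      rw [(show Commute v (j c) from (hjv c).symm).mul_pow, hjc_pow, mul_one, hk]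
    have hcomm_v : ∀ x : X, x ∈ Subgroup.centralizer ({v * j c} : Set X) →
        Commute x v ∧ Commute x (j c) := by
      intro x hx
      have h1 : Commute x (v * j c) := (Subgroup.mem_centralizer_iff.1 hx _ rfl).symm
      have h2 : Commute x v := by
        have h3 := (h1.pow_right (Nat.card G)).pow_right k
        rwa [hvc_pow] at h3
      refine ⟨h2, ?_⟩
      have h3 : j c = v⁻¹ * (v * j c) := by rw [inv_mul_cancel_left]
      rw [h3]
      exact h2.inv_right.mul_right h1
    let F : H × ↥(kgvFix c (⊤ : Subgroup ↥V)) → ↥(Subgroup.centralizer ({v * j c} : Set X)) :=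
      fun x => ⟨((x.2 : ↥V) : X) * j x.1, by
        rw [Subgroup.mem_centralizer_iff]
        intro g hg
        rw [Set.mem_singleton_iff] at hg
        subst hg
        have hu : j c * ((x.2 : ↥V) : X) = ((x.2 : ↥V) : X) * j c :=
          (hfixiff c x.2.1).1 x.2.2.2
        have hvu : v * ((x.2 : ↥V) : X) = ((x.2 : ↥V) : X) * v := hVab v hv _ (x.2 : ↥V).2
        have hdc : j c * j x.1 = j x.1 * j c := by rw [← map_mul, ← map_mul, mul_comm]
        have hdv := hjv x.1
        calc v * j c * (((x.2 : ↥V) : X) * j x.1)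
            = v * (j c * ((x.2 : ↥V) : X)) * j x.1 := by group
          _ = v * (((x.2 : ↥V) : X) * j c) * j x.1 := by rw [hu]
          _ = (v * ((x.2 : ↥V) : X)) * (j c * j x.1) := by group
          _ = (((x.2 : ↥V) : X) * v) * (j x.1 * j c) := by rw [hvu, hdc]
          _ = ((x.2 : ↥V) : X) * (v * j x.1) * j c := by group
          _ = ((x.2 : ↥V) : X) * (j x.1 * v) * j c := by rw [hdv]
          _ = ((x.2 : ↥V) : X) * j x.1 * (v * j c) := by group⟩
    have hFinj : Function.Injective F := by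
      rintro ⟨d, u⟩ ⟨d', u'⟩ hxy
      have h1 : ((u : ↥V) : X) * j d = ((u' : ↥V) : X) * j d' := congrArg Subtype.val hxy
      obtain ⟨h2, h3⟩ := huniq _ (u : ↥V).2 _ (hjG d) _ (u' : ↥V).2 _ (hjG d') h1
      have h4 : u = u' := Subtype.ext (Subtype.ext h2)
      have h5 : d = d' := hj h3
      rw [h4, h5]
    have hFsurj : Function.Surjective F := by
      rintro ⟨x, hx⟩
      obtain ⟨hxv, hxc⟩ := hcomm_v x hx
      obtain ⟨w, hw, g, hg, rfl⟩ := hdec x
      have hwv : Commute w v := hVab w hw v hv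
      have hgv : Commute g v := by
        have h1 : g = w⁻¹ * (w * g) := by rw [inv_mul_cancel_left]
        rw [h1]
        exact hwv.inv_left.mul_left hxv
      have hgcent : g ∈ Subgroup.centralizer ({v} : Set X) := by
        rw [Subgroup.mem_centralizer_iff]
        intro z hz
        rw [Set.mem_singleton_iff] at hz
        rw [hz]
        exact hgv.symm
      have hgC : g ∈ G ⊓ Subgroup.centralizer ({v} : Set X) := Subgroup.mem_inf.2 ⟨hg, hgcent⟩
      obtain ⟨d, rfl⟩ := (hrange g).1 hgC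
      have hdc : Commute (j d) (j c) := by
        show j d * j c = j c * j d
        rw [← map_mul, ← map_mul, mul_comm]
      have hwc : Commute w (j c) := by
        have h1 : w = (w * j d) * (j d)⁻¹ := by rw [mul_inv_cancel_right]
        rw [h1]
        exact hxc.mul_left hdc.inv_left
      refine ⟨(d, ⟨⟨w, hw⟩, Subgroup.mem_top _, (hfixiff c ⟨w, hw⟩).2 hwc.symm⟩), ?_⟩
      exact Subtype.ext rfl
    rw [← Nat.card_prod]
    exact (Nat.card_congr (Equiv.ofBijective F ⟨hFinj, hFsurj⟩)).symm
  have key := kgv_main p hp.ne_zero (fun (χ : IrrCharacter X) (c : H) => (χ : X → ℂ) (v * j c))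
    (fun χ lam =>
      (kgv_coeff_integral (irr_isCharacter χ) j v p hp.ne_zero (hVexp v hv) hjv lam).2)
    (fun χ lam =>
      (kgv_coeff_integral (irr_isCharacter χ) j v p hp.ne_zero (hVexp v hv) hjv lam).1)
    (fun χ => ⟨1, by
      obtain ⟨χf, m, ρ, hρ, rfl⟩ := χ
      haveI := hρ
      show ρ.character (v * j 1) ≠ 0
      rw [map_one, mul_one]
      exact Helper82.character_ne_zero_of_complement p V hVp hVab G hGV hG ρ v hv⟩)
    L hL (fun c => Nat.card H * Nat.card (kgvFix c (⊤ : Subgroup ↥V)))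
    (fun c => by
      rw [Helper80.irr_column_orthogonality_of_isConj (IsConj.refl _), hcent c])
  have hbound : ∀ c : H, (Nat.card H * Nat.card (kgvFix c (⊤ : Subgroup ↥V))) *
      (L.map (fun K : Subgroup H => 1 + (if c ∈ K then 0 else K.index))).prod
        ≤ Nat.card H * Nat.card V := by
    intro c
    have h1 := hL2 c
    rw [Subgroup.card_top] at h1
    calc (Nat.card H * Nat.card (kgvFix c (⊤ : Subgroup ↥V))) *
          (L.map (fun K : Subgroup H => 1 + (if c ∈ K then 0 else K.index))).prod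
        = Nat.card H * ((L.map (fun K : Subgroup H => 1 + (if c ∈ K then 0 else K.index))).prod
            * Nat.card (kgvFix c (⊤ : Subgroup ↥V))) := by ring
      _ ≤ Nat.card H * Nat.card V := Nat.mul_le_mul_left _ h1
  have hsum := Finset.sum_le_sum (fun c (_ : c ∈ Finset.univ) => hbound c)
  rw [Finset.sum_const, Finset.card_univ, smul_eq_mul] at hsum
  have hfin := le_trans key hsum
  rw [Nat.card_eq_fintype_card (α := H)] at hfin
  have hpos : 0 < Fintype.card H ^ 2 := pow_pos Fintype.card_pos 2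
  have hfin' : Fintype.card (IrrCharacter X) * Fintype.card H ^ 2
      ≤ Nat.card V * Fintype.card H ^ 2 := by
    calc Fintype.card (IrrCharacter X) * Fintype.card H ^ 2
        ≤ Fintype.card H * (Fintype.card H * Nat.card V) := hfin
      _ = Nat.card V * Fintype.card H ^ 2 := by ring
  have hle := Nat.le_of_mul_le_mul_right hfin' hpos
  rw [← Helper80.card_irr_eq_card_conjClasses]
  exact hle

end Cfsg.Agent.Helper79
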