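import Cfsg.Agent.Helper16.Fong
import Cfsg.Agent.Helper16.BrauerCorr

/-!
# Knörr's theorem: the algebraic part

Let `N ⊴ G`, let `b` be a `G`-invariant block of `N` and `B` a block of `G` covering `b`, with
idempotent `e_B` (the function `Cfsg.blockCoeff B`).  The centralizer algebra of `N` in the group
algebra of `G` over the local ring is graded by `G ⧸ N`, and its component of degree one is the
centre of the group algebra of `N`.  We show

* `knorr_exists_unit`: there is an `N`-invariant function `w` with local values such that the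
  central character of `b` is a unit at the part of `e_B * w` supported on `N`.

The proof is the nilpotency of the graded radical: if no such `w` existed, every product of
`|G : N| + 1` homogeneous components of `e_B` would lie in the ideal generated by the radical of
the centre of the block algebra of `b` (`kn_mem_ideal`), and Nakayama's lemma (in the form of
`Helper77.det_ne_zero_of_congr_one`) would give `e_B = 0` (`kn_det`).
-/

set_option autoImplicit false
set_option linter.unusedSectionVars false
open Cfsg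
open scoped ComplexConjugate

namespace Cfsg.Agent.Helper79

universe u

section knA

variable {G : Type u} [Group G] [Fintype G] (N : Subgroup G) [hN : N.Normal]

/-- Invariance under conjugation by the elements of `N`. -/
def KnInv (f : G → ℂ) : Prop := ∀ n ∈ N, ∀ x, f (n * x * n⁻¹) = f x

/-- `f` is supported on the coset `c` of `N`. -/
def KnSupp (f : G → ℂ) (c : G ⧸ N) : Prop :=
  ∀ x, f x ≠ 0 → (QuotientGroup.mk x : G ⧸ N) = c

/-- Homogeneous elements of the centralizer algebra of `N`: invariant under `N`, with local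
values, supported on one coset of `N`. -/
def KnHom (M : Ideal Cfsg.AlgInt) (f : G → ℂ) (c : G ⧸ N) : Prop :=
  KnInv N f ∧ (∀ x, Cfsg.MemLocalRing M (f x)) ∧ KnSupp N f c

theorem kn_conv_inv {u v : G → ℂ} (hu : KnInv N u) (hv : KnInv N v) :
    KnInv N (Helper81.conv u v) :=
  fun n hn x => Helper16.conv_conjInv (hu n hn) (hv n hn) x

theorem kn_conv_supp {u v : G → ℂ} {c d : G ⧸ N} (hu : KnSupp N u c) (hv : KnSupp N v d) :
    KnSupp N (Helper81.conv u v) (c * d) := by
  intro x hx
  simp only [Helper81.conv] at hx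
  obtain ⟨y, -, hy⟩ := Finset.exists_ne_zero_of_sum_ne_zero hx
  have h1 := hu y (left_ne_zero_of_mul hy)
  have h2 := hv _ (right_ne_zero_of_mul hy)
  rw [← h1, ← h2, ← QuotientGroup.mk_mul]
  congr 1
  group

theorem kn_conv_hom {M : Ideal Cfsg.AlgInt} (hM : M.IsMaximal) {u v : G → ℂ} {c d : G ⧸ N}
    (hu : KnHom N M u c) (hv : KnHom N M v d) : KnHom N M (Helper81.conv u v) (c * d) :=
  ⟨kn_conv_inv N hu.1 hv.1, Helper16.conv_memLocalRing hM hu.2.1 hv.2.1,
    kn_conv_supp N hu.2.2 hv.2.2⟩

/-- A function supported on `N` commutes with the `N`-invariant functions. -/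
theorem kn_comm {u f : G → ℂ} (hu : ∀ x, x ∉ N → u x = 0) (hf : KnInv N f) :
    Helper81.conv u f = Helper81.conv f u := by
  funext k
  simp only [Helper81.conv]
  rw [← Equiv.sum_comp ((Equiv.inv G).trans (Equiv.mulLeft k)) (fun y => f y * u (y⁻¹ * k))]
  refine Finset.sum_congr rfl fun x _ => ?_
  have e0 : ((Equiv.inv G).trans (Equiv.mulLeft k)) x = k * x⁻¹ := rfl
  have e2 : (k * x⁻¹)⁻¹ * k = x := by group
  rw [e0, e2]
  by_cases hx : x ∈ N
  · have h1 : f (x⁻¹ * k) = f (k * x⁻¹) := by
      have h := hf x⁻¹ (N.inv_mem hx) (k * x⁻¹)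
      rw [← h]
      congr 1
      group
    rw [h1, mul_comm]
  · rw [hu x hx, zero_mul, mul_zero]

open Classical in
/-- The component of `f` on the coset `c` of `N`. -/
noncomputable def knComp (f : G → ℂ) (c : G ⧸ N) : G → ℂ :=
  fun x => if (QuotientGroup.mk x : G ⧸ N) = c then f x else 0

theorem kn_sum_comp [Fintype (G ⧸ N)] (f : G → ℂ) : ∑ c : G ⧸ N, knComp N f c = f := by
  classical
  funext x
  rw [Finset.sum_apply]
  simp only [knComp]
  rw [Finset.sum_ite_eq]
  simp

theorem kn_comp_hom {M : Ideal Cfsg.AlgInt} (hM : M.IsMaximal) {a : G → ℂ} (ha : KnInv N a)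
    (haL : ∀ x, Cfsg.MemLocalRing M (a x)) (c : G ⧸ N) : KnHom N M (knComp N a c) c := by
  classical
  refine ⟨fun n hn x => ?_, fun x => ?_, fun x hx => ?_⟩
  · have e : (QuotientGroup.mk (n * x * n⁻¹) : G ⧸ N) = QuotientGroup.mk x := by
      rw [QuotientGroup.mk_mul, QuotientGroup.mk_mul, QuotientGroup.mk_inv,
        (QuotientGroup.eq_one_iff n).mpr hn]
      simp
    simp only [knComp, e, ha n hn x]
  · simp only [knComp]
    split_ifs
    · exact haL x
    · exact Helper77.memLocalRing_zero hM
  · by_contra h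
    apply hx
    simp only [knComp, if_neg h]

theorem kn_conv_sum_left {ι : Type*} (s : Finset ι) (F : ι → G → ℂ) (v : G → ℂ) :
    Helper81.conv (∑ i ∈ s, F i) v = ∑ i ∈ s, Helper81.conv (F i) v := by
  funext k
  simp only [Helper81.conv, Finset.sum_apply, Finset.sum_mul]
  exact Finset.sum_comm

theorem kn_conv_sum_right {ι : Type*} (s : Finset ι) (u : G → ℂ) (F : ι → G → ℂ) :
    Helper81.conv u (∑ i ∈ s, F i) = ∑ i ∈ s, Helper81.conv u (F i) := by
  funext k
  simp only [Helper81.conv, Finset.sum_apply, Finset.mul_sum]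
  exact Finset.sum_comm

theorem kn_conv_zero_right (u : G → ℂ) : Helper81.conv u (0 : G → ℂ) = 0 := by
  funext k
  simp [Helper81.conv]

theorem kn_conv_smul_left (c : ℂ) (u v : G → ℂ) :
    Helper81.conv (c • u) v = c • Helper81.conv u v := by
  funext k
  simp only [Helper81.conv, Pi.smul_apply, smul_eq_mul, Finset.mul_sum, mul_assoc]

/-- A product of homogeneous elements of inverse degrees is the part of the product
supported on `N`. -/
theorem kn_loop (a : G → ℂ) {u : G → ℂ} {c : G ⧸ N} (hu : KnSupp N u c⁻¹) :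
    Helper81.conv (knComp N a c) u = Helper16.ext0 N (fun n : N => Helper81.conv a u n) := by
  classical
  funext k
  by_cases hk : k ∈ N
  · rw [Helper16.ext0_apply_mem N _ hk]
    simp only [Helper81.conv]
    refine Finset.sum_congr rfl fun x _ => ?_
    by_cases hx : (QuotientGroup.mk x : G ⧸ N) = c
    · simp only [knComp, if_pos hx]
    · have h0 : u (x⁻¹ * k) = 0 := by
        by_contra hne
        apply hx
        have h1 := hu _ hne
        rw [QuotientGroup.mk_mul, QuotientGroup.mk_inv, (QuotientGroup.eq_one_iff k).mpr hk,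
          mul_one] at h1
        exact inv_injective h1
      rw [h0, mul_zero, mul_zero]
  · rw [Helper16.ext0_apply_not_mem N _ hk]
    by_contra hne
    apply hk
    have hs : KnSupp N (knComp N a c) c := fun x hx => by
      by_contra h
      apply hx
      simp only [knComp, if_neg h]
    have h1 := kn_conv_supp N hs hu k hne
    rw [mul_inv_cancel] at h1
    exact (QuotientGroup.eq_one_iff k).mp h1

/-- The ideal of the centralizer algebra generated by the central elements `j` with `J j`. -/
def knIdeal (M : Ideal Cfsg.AlgInt) (J : (N → ℂ) → Prop) : AddSubmonoid (G → ℂ) :=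
  AddSubmonoid.closure {r | ∃ j, J j ∧ ∃ f, KnInv N f ∧ (∀ x, Cfsg.MemLocalRing M (f x)) ∧
    r = Helper81.conv (Helper16.ext0 N j) f}

/-- `f` is homogeneous and, for every degree `s` in `S`, is a product of two homogeneous
elements the second of which has degree `s`. -/
def KnSP (M : Ideal Cfsg.AlgInt) (S : Finset (G ⧸ N)) (f : G → ℂ) : Prop :=
  ∃ d ∈ S, KnHom N M f d ∧ ∀ s ∈ S, ∃ u v, KnHom N M u (d * s⁻¹) ∧ KnHom N M v s ∧
    f = Helper81.conv u v

/-- Sums of products along paths visiting `k + 1` distinct degrees. -/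
def knPaths (M : Ideal Cfsg.AlgInt) (k : ℕ) : AddSubmonoid (G → ℂ) :=
  AddSubmonoid.closure {f | ∃ S : Finset (G ⧸ N), S.card = k + 1 ∧ KnSP N M S f}

theorem kn_delta_hom {M : Ideal Cfsg.AlgInt} (hM : M.IsMaximal) :
    KnHom N M (Helper81.deltaOne 1) (1 : G ⧸ N) := by
  classical
  refine ⟨fun n hn x => ?_,
    fun x => Helper16.deltaOne_memLocalRing hM (Helper77.memLocalRing_one hM) x, fun x hx => ?_⟩
  · have h : n * x * n⁻¹ = 1 ↔ x = 1 := by
      constructor
      · intro h
        calc x = n⁻¹ * (n * x * n⁻¹) * n := by group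
          _ = 1 := by rw [h]; group
      · rintro rfl; group
    simp only [Helper81.deltaOne, h]
  · have : x = 1 := by
      by_contra h
      apply hx
      simp only [Helper81.deltaOne, if_neg h]
    rw [this]
    rfl

theorem kn_ideal_conv_left {M : Ideal Cfsg.AlgInt} (hM : M.IsMaximal) {J : (N → ℂ) → Prop}
    {a : G → ℂ} (ha : KnInv N a) (haL : ∀ x, Cfsg.MemLocalRing M (a x)) {r : G → ℂ}
    (hr : r ∈ knIdeal N M J) : Helper81.conv a r ∈ knIdeal N M J := by
  unfold knIdeal at hr ⊢
  induction hr using AddSubmonoid.closure_induction with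
  | mem r hr =>
    obtain ⟨j, hj, f, hf, hfL, rfl⟩ := hr
    refine AddSubmonoid.subset_closure ⟨j, hj, Helper81.conv a f, kn_conv_inv N ha hf,
      Helper16.conv_memLocalRing hM haL hfL, ?_⟩
    rw [← Helper16.conv_assoc,
      ← kn_comm N (fun x hx => Helper16.ext0_apply_not_mem N j hx) ha, Helper16.conv_assoc]
  | zero => rw [kn_conv_zero_right]; exact zero_mem _
  | add x y _ _ hx hy => rw [Helper16.conv_add_right]; exact add_mem hx hy

theorem kn_step [Fintype (G ⧸ N)] {M : Ideal Cfsg.AlgInt} (hM : M.IsMaximal)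
    {J : (N → ℂ) → Prop} {a : G → ℂ} (ha : KnInv N a) (haL : ∀ x, Cfsg.MemLocalRing M (a x))
    (hJ : ∀ w : G → ℂ, KnInv N w → (∀ x, Cfsg.MemLocalRing M (w x)) →
      J (fun n : N => Helper81.conv a w n))
    (k : ℕ) {y : G → ℂ} (hy : y ∈ knPaths N M k ⊔ knIdeal N M J) :
    Helper81.conv a y ∈ knPaths N M (k + 1) ⊔ knIdeal N M J := by
  classical
  obtain ⟨y₁, hy₁, r, hr, rfl⟩ := AddSubmonoid.mem_sup.mp hy
  rw [Helper16.conv_add_right]
  refine add_mem ?_ (AddSubmonoid.mem_sup_right (kn_ideal_conv_left N hM ha haL hr))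
  clear hy hr
  unfold knPaths at hy₁
  induction hy₁ using AddSubmonoid.closure_induction with
  | mem f hf =>
    obtain ⟨S, hS, d, hdS, hfd, hfac⟩ := hf
    have hsum : Helper81.conv a f = ∑ c : G ⧸ N, Helper81.conv (knComp N a c) f := by
      rw [← kn_conv_sum_left, kn_sum_comp]
    rw [hsum]
    refine sum_mem fun c _ => ?_
    have hc := kn_comp_hom N hM ha haL c
    by_cases hmem : c * d ∈ S
    · obtain ⟨u, v, hu, hv, hfe⟩ := hfac (c * d) hmem
      have e : d * (c * d)⁻¹ = c⁻¹ := by group
      rw [e] at hu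
      refine AddSubmonoid.mem_sup_right (AddSubmonoid.subset_closure
        ⟨fun n : N => Helper81.conv a u n, hJ u hu.1 hu.2.1, v, hv.1, hv.2.1, ?_⟩)
      rw [hfe, ← Helper16.conv_assoc, kn_loop N a hu.2.2]
    · have hnew := kn_conv_hom N hM hc hfd
      refine AddSubmonoid.mem_sup_left (AddSubmonoid.subset_closure
        ⟨insert (c * d) S, by rw [Finset.card_insert_of_notMem hmem, hS], c * d,
          Finset.mem_insert_self _ _, hnew, fun s hs => ?_⟩)
      rcases Finset.mem_insert.mp hs with rfl | hs'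
      · refine ⟨Helper81.deltaOne 1, _, ?_, hnew, (Helper16.conv_deltaOne_left _).symm⟩
        rw [mul_inv_cancel]
        exact kn_delta_hom N hM
      · obtain ⟨u, v, hu, hv, hfe⟩ := hfac s hs'
        refine ⟨Helper81.conv (knComp N a c) u, v, ?_, hv, ?_⟩
        · have := kn_conv_hom N hM hc hu
          rwa [← mul_assoc] at this
        · rw [hfe, Helper16.conv_assoc]
  | zero => rw [kn_conv_zero_right]; exact zero_mem _
  | add x y _ _ hx hy => rw [Helper16.conv_add_right]; exact add_mem hx hy

/-- The sequence `δ, a, a * a, …`. -/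
noncomputable def knPow (a : G → ℂ) : ℕ → G → ℂ
  | 0 => Helper81.deltaOne 1
  | k + 1 => Helper81.conv a (knPow a k)

theorem kn_pow_succ {a : G → ℂ} (hidem : Helper81.conv a a = a) (k : ℕ) :
    knPow a (k + 1) = a := by
  induction k with
  | zero => exact Helper16.conv_deltaOne_right a
  | succ k ih =>
    show Helper81.conv a (knPow a (k + 1)) = a
    rw [ih, hidem]

theorem kn_pow_mem [Fintype (G ⧸ N)] {M : Ideal Cfsg.AlgInt} (hM : M.IsMaximal)
    {J : (N → ℂ) → Prop} {a : G → ℂ} (ha : KnInv N a) (haL : ∀ x, Cfsg.MemLocalRing M (a x))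
    (hJ : ∀ w : G → ℂ, KnInv N w → (∀ x, Cfsg.MemLocalRing M (w x)) →
      J (fun n : N => Helper81.conv a w n)) (k : ℕ) :
    knPow a k ∈ knPaths N M k ⊔ knIdeal N M J := by
  classical
  induction k with
  | zero =>
    refine AddSubmonoid.mem_sup_left (AddSubmonoid.subset_closure
      ⟨{1}, by simp, 1, Finset.mem_singleton_self _, kn_delta_hom N hM, fun s hs => ?_⟩)
    rw [Finset.mem_singleton.mp hs]
    refine ⟨Helper81.deltaOne 1, Helper81.deltaOne 1, ?_, kn_delta_hom N hM,
      (Helper16.conv_deltaOne_left _).symm⟩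
    rw [mul_inv_cancel]
    exact kn_delta_hom N hM
  | succ k ih => exact kn_step N hM ha haL hJ k ih

/-- **Nilpotency of the graded radical.**  An idempotent `a` of the centralizer algebra all of
whose "loops" `(a * w)|_N` satisfy `J` lies in the ideal generated by `J`. -/
theorem kn_mem_ideal [Fintype (G ⧸ N)] {M : Ideal Cfsg.AlgInt} (hM : M.IsMaximal)
    {J : (N → ℂ) → Prop} {a : G → ℂ} (ha : KnInv N a) (haL : ∀ x, Cfsg.MemLocalRing M (a x))
    (hJ : ∀ w : G → ℂ, KnInv N w → (∀ x, Cfsg.MemLocalRing M (w x)) →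
      J (fun n : N => Helper81.conv a w n))
    (hidem : Helper81.conv a a = a) : a ∈ knIdeal N M J := by
  classical
  have h := kn_pow_mem N hM ha haL hJ (Fintype.card (G ⧸ N))
  have hbot : knPaths N M (Fintype.card (G ⧸ N)) = ⊥ := by
    unfold knPaths
    rw [eq_bot_iff, AddSubmonoid.closure_le]
    rintro f ⟨S, hS, -⟩
    exact absurd (Finset.card_le_univ S) (by omega)
  rw [hbot, bot_sup_eq] at h
  obtain ⟨m, hm⟩ : ∃ m, Fintype.card (G ⧸ N) = m + 1 :=
    Nat.exists_eq_succ_of_ne_zero Fintype.card_ne_zero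
  rwa [hm, kn_pow_succ hidem] at h

end knA

end Cfsg.Agent.Helper79
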