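import Cfsg.Agent.Helper79.KnorrA

/-!
# Knörr's theorem: Nakayama's lemma and the unit component

* `kn_det`: an idempotent class function `a` with `a * E = f₀ * E` for an `N`-invariant function
  `f₀` with values in the local ideal satisfies `a * E = 0`.
* `knorr_exists_unit`: for a block `B` of `G` covering the `G`-invariant block `b` of `N ⊴ G`
  there is an `N`-invariant function `w` with local values such that `Ω_θ` of the part of
  `e_B * w` supported on `N` is a unit (`θ ∈ b`).
-/

set_option autoImplicit false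
set_option linter.unusedSectionVars false
open Cfsg
open scoped ComplexConjugate

namespace Cfsg.Agent.Helper79

universe u

section knB

variable {G : Type u} [Group G] [Fintype G] (N : Subgroup G) [hN : N.Normal]

/-- The orbits of `N` on `G` under conjugation. -/
def knSetoid : Setoid G where
  r x y := ∃ n ∈ N, n * x * n⁻¹ = y
  iseqv := ⟨fun x => ⟨1, N.one_mem, by group⟩,
    fun ⟨n, hn, h⟩ => ⟨n⁻¹, N.inv_mem hn, by rw [← h]; group⟩,
    fun ⟨n, hn, h⟩ ⟨m, hm, h'⟩ => ⟨m * n, N.mul_mem hm hn, by rw [← h', ← h]; group⟩⟩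

open Classical in
/-- The indicator function of an orbit of `N` on `G`. -/
noncomputable def knOrb (q : Quotient (knSetoid N)) : G → ℂ :=
  fun x => if Quotient.mk (knSetoid N) x = q then 1 else 0

theorem kn_orb_inv (q : Quotient (knSetoid N)) : KnInv N (knOrb N q) := by
  classical
  intro n hn x
  have e : Quotient.mk (knSetoid N) (n * x * n⁻¹) = Quotient.mk (knSetoid N) x :=
    Quotient.sound ⟨n⁻¹, N.inv_mem hn, by group⟩
  show (if Quotient.mk (knSetoid N) (n * x * n⁻¹) = q then (1 : ℂ) else 0)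
    = if Quotient.mk (knSetoid N) x = q then 1 else 0
  rw [e]

theorem kn_orb_loc {M : Ideal Cfsg.AlgInt} (hM : M.IsMaximal) (q : Quotient (knSetoid N))
    (x : G) : Cfsg.MemLocalRing M (knOrb N q x) := by
  simp only [knOrb]
  split_ifs
  · exact Helper77.memLocalRing_one hM
  · exact Helper77.memLocalRing_zero hM

theorem kn_orb_decomp [Fintype (Quotient (knSetoid N))] {h : G → ℂ} (hh : KnInv N h) :
    h = ∑ q : Quotient (knSetoid N), h (Quotient.out q) • knOrb N q := by
  classical
  funext x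
  rw [Finset.sum_apply]
  simp only [Pi.smul_apply, smul_eq_mul, knOrb, mul_ite, mul_one, mul_zero]
  rw [Finset.sum_ite_eq]
  simp only [Finset.mem_univ, if_true]
  obtain ⟨n, hn, hx⟩ := Quotient.exact (Quotient.out_eq (Quotient.mk (knSetoid N) x))
  exact (congrArg h hx).symm.trans (hh n hn _)

/-- **Nakayama's lemma** for the idempotent `a`. -/
theorem kn_det {M : Ideal Cfsg.AlgInt} (hM : M.IsMaximal) {a : G → ℂ}
    (ha : Cfsg.IsClassFunction G a) (hidem : Helper81.conv a a = a) (E : G → ℂ) {f₀ : G → ℂ}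
    (hf₀ : KnInv N f₀) (hf₀I : ∀ x, Cfsg.MemLocalIdeal M (f₀ x))
    (h : Helper81.conv a E = Helper81.conv f₀ E) : Helper81.conv a E = 0 := by
  classical
  have : Fintype (Quotient (knSetoid N)) := Fintype.ofFinite _
  obtain ⟨C, hCdef⟩ : ∃ C : Matrix (Quotient (knSetoid N)) (Quotient (knSetoid N)) ℂ,
      ∀ q q', C q q' = Helper81.conv (knOrb N q) f₀ (Quotient.out q') := ⟨_, fun _ _ => rfl⟩
  have hC : ∀ q q', Cfsg.MemLocalIdeal M (C q q') := fun q q' => by
    rw [hCdef]
    exact Helper77.memLocalIdeal_sum hM _ _ fun x _ =>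
      Helper77.memLocalIdeal_mul hM (kn_orb_loc N hM q x) (hf₀I _)
  have h2 : ∀ q', Helper81.conv a (Helper81.conv (knOrb N q') E)
      = Helper81.conv (knOrb N q') (Helper81.conv a E) := by
    intro q'
    rw [← Helper16.conv_assoc, ← Helper16.conv_comm_of_isClassFunction (knOrb N q') ha,
      Helper16.conv_assoc]
  have hU : ∀ q, Helper81.conv (knOrb N q) (Helper81.conv a E)
      = ∑ q', C q q' • Helper81.conv (knOrb N q') (Helper81.conv a E) := by
    intro q
    have h1 : Helper81.conv (knOrb N q) (Helper81.conv a E)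
        = ∑ q', C q q' • Helper81.conv (knOrb N q') E := by
      rw [h, ← Helper16.conv_assoc]
      have hd := kn_orb_decomp N (kn_conv_inv N (kn_orb_inv N q) hf₀)
      calc Helper81.conv (Helper81.conv (knOrb N q) f₀) E
          = Helper81.conv (∑ q' : Quotient (knSetoid N),
              Helper81.conv (knOrb N q) f₀ (Quotient.out q') • knOrb N q') E :=
            congrArg (fun t => Helper81.conv t E) hd
        _ = ∑ q', C q q' • Helper81.conv (knOrb N q') E := by
            rw [kn_conv_sum_left]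
            refine Finset.sum_congr rfl fun q' _ => ?_
            rw [kn_conv_smul_left, hCdef]
    have h3 : Helper81.conv a (Helper81.conv (knOrb N q) (Helper81.conv a E))
        = Helper81.conv (knOrb N q) (Helper81.conv a E) := by
      rw [← h2 q, ← Helper16.conv_assoc, hidem]
    rw [← h3, h1, kn_conv_sum_right]
    refine Finset.sum_congr rfl fun q' _ => ?_
    rw [Helper16.conv_smul_right, h2]
  have hdet : (1 - C).det ≠ 0 := Helper77.det_ne_zero_of_congr_one hM (1 - C) (fun i j => by
    have e : (1 - C) i j - (1 : Matrix _ _ ℂ) i j = - C i j := by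
      simp
    rw [e]
    exact Helper77.memLocalIdeal_neg (hC i j))
  have hzero : ∀ q, Helper81.conv (knOrb N q) (Helper81.conv a E) = 0 := by
    intro q
    funext x
    have hv : (1 - C).mulVec (fun q => Helper81.conv (knOrb N q) (Helper81.conv a E) x) = 0 := by
      funext q
      have hq := congrFun (hU q) x
      rw [Finset.sum_apply] at hq
      simp only [Pi.smul_apply, smul_eq_mul] at hq
      rw [Matrix.sub_mulVec, Matrix.one_mulVec]
      simp only [Pi.sub_apply, Pi.zero_apply, Matrix.mulVec, dotProduct]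
      rw [← hq, sub_self]
    exact congrFun (Matrix.eq_zero_of_mulVec_eq_zero hdet hv) q
  have hδ := kn_orb_decomp N (kn_delta_hom N hM).1
  calc Helper81.conv a E = Helper81.conv (Helper81.deltaOne 1) (Helper81.conv a E) :=
        (Helper16.conv_deltaOne_left _).symm
    _ = Helper81.conv (∑ q : Quotient (knSetoid N),
          (Helper81.deltaOne 1 : G → ℂ) (Quotient.out q) • knOrb N q) (Helper81.conv a E) :=
        congrArg (fun t => Helper81.conv t (Helper81.conv a E)) hδ
    _ = 0 := by
        rw [kn_conv_sum_left]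
        refine Finset.sum_eq_zero fun q _ => ?_
        rw [kn_conv_smul_left, hzero q, smul_zero]

/-- A central element of the group algebra of `N` acts on the idempotent of an irreducible
character as the scalar given by the central character. -/
theorem kn_idem_scalar {H : Type u} [Group H] [Fintype H] (θ' : Cfsg.IrrCharacter H)
    {j : H → ℂ} (hj : Cfsg.IsClassFunction H j) :
    Helper81.conv j (Cfsg.blockCoeff ({θ'} : Set (Cfsg.IrrCharacter H)))
      = Helper81.omega (θ' : H → ℂ) j • Cfsg.blockCoeff ({θ'} : Set (Cfsg.IrrCharacter H)) := by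
  apply Helper77.eq_of_omega_eq
    (Helper81.conv_isClassFunction hj (Helper77.blockCoeff_isClassFunction _))
    (Helper81.isClassFunction_smul _ (Helper77.blockCoeff_isClassFunction _))
  intro ψ
  rw [Helper81.omega_conv ψ hj (Helper77.blockCoeff_isClassFunction _), Helper81.omega_smul]
  by_cases hψ : ψ = θ'
  · subst hψ
    rw [Helper77.omega_blockCoeff_of_mem (Set.mem_singleton _)]
  · rw [Helper77.omega_blockCoeff_of_not_mem (by simpa using hψ), mul_zero, mul_zero]

theorem kn_conv_idem_zero [Fintype N] {M : Ideal Cfsg.AlgInt} (hM : M.IsMaximal) {a : G → ℂ}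
    (ha : Cfsg.IsClassFunction G a) (hidem : Helper81.conv a a = a)
    (θ' : Cfsg.IrrCharacter N) {J : (N → ℂ) → Prop}
    (hJ1 : ∀ j, J j → Cfsg.IsClassFunction N j ∧
      Cfsg.MemLocalIdeal M (Helper81.omega (θ' : N → ℂ) j))
    (hmem : a ∈ knIdeal N M J) :
    Helper81.conv a (Helper16.ext0 N (Cfsg.blockCoeff ({θ'} : Set (Cfsg.IrrCharacter N))))
      = 0 := by
  obtain ⟨E, hE⟩ : ∃ E : G → ℂ,
      E = Helper16.ext0 N (Cfsg.blockCoeff ({θ'} : Set (Cfsg.IrrCharacter N))) := ⟨_, rfl⟩
  rw [← hE]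
  have key : ∀ r ∈ knIdeal N M J, ∃ f₀ : G → ℂ, KnInv N f₀ ∧
      (∀ x, Cfsg.MemLocalIdeal M (f₀ x)) ∧ Helper81.conv r E = Helper81.conv f₀ E := by
    intro r hr
    unfold knIdeal at hr
    induction hr using AddSubmonoid.closure_induction with
    | mem r hr =>
      obtain ⟨j, hj, f, hf, hfL, rfl⟩ := hr
      obtain ⟨hjc, hjI⟩ := hJ1 j hj
      refine ⟨Helper81.omega (θ' : N → ℂ) j • f,
        fun n hn x => by simp only [Pi.smul_apply, hf n hn x], fun x => ?_, ?_⟩
      · simp only [Pi.smul_apply, smul_eq_mul]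
        exact Helper77.memLocalIdeal_mul' hM hjI (hfL x)
      · have e1 : Helper81.conv (Helper16.ext0 N j) E = Helper81.omega (θ' : N → ℂ) j • E := by
          rw [hE, Helper16.conv_ext0, kn_idem_scalar θ' hjc]
          funext x
          by_cases hx : x ∈ N
          · simp only [Pi.smul_apply, Helper16.ext0_apply_mem N _ hx]
          · simp only [Pi.smul_apply, Helper16.ext0_apply_not_mem N _ hx, smul_zero]
        rw [kn_comm N (fun x hx => Helper16.ext0_apply_not_mem N j hx) hf, Helper16.conv_assoc,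
          e1, Helper16.conv_smul_right, kn_conv_smul_left]
    | zero => exact ⟨0, fun _ _ _ => rfl, fun _ => Helper77.memLocalIdeal_zero hM, rfl⟩
    | add x y _ _ hx hy =>
      obtain ⟨f1, h1, h1', e1⟩ := hx
      obtain ⟨f2, h2, h2', e2⟩ := hy
      refine ⟨f1 + f2, fun n hn x => by simp only [Pi.add_apply, h1 n hn x, h2 n hn x],
        fun x => Helper77.memLocalIdeal_add hM (h1' x) (h2' x), ?_⟩
      rw [Helper16.conv_add_left, Helper16.conv_add_left, e1, e2]
  obtain ⟨f₀, hf₀, hf₀I, he⟩ := key a hmem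
  exact kn_det N hM ha hidem E hf₀ hf₀I he

variable [Fintype N]

/-- **The unit component.**  Let `b` be a `G`-invariant block of `N ⊴ G` and `B` a block of `G`
covering `b`.  Then some `N`-invariant function `w` with local values has
`Ω_θ((e_B * w)|_N)` a unit, for `θ ∈ b`. -/
theorem knorr_exists_unit {M : Ideal Cfsg.AlgInt} (hM : M.IsMaximal)
    {b : Set (Cfsg.IrrCharacter N)} (hb : Cfsg.IsPBlock M b)
    (hinv : ∀ g : G, ∀ θ ∈ b, Helper16.irrConj N g θ ∈ b)
    {B : Set (Cfsg.IrrCharacter G)} (hB : Cfsg.IsPBlock M B)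
    (hcov : ∃ χ ∈ B, ∃ θ ∈ b,
      Cfsg.classInner (fun n : N => (χ : G → ℂ) n) (θ : N → ℂ) ≠ 0)
    {θ : Cfsg.IrrCharacter N} (hθ : θ ∈ b) :
    ∃ w : G → ℂ, KnInv N w ∧ (∀ x, Cfsg.MemLocalRing M (w x)) ∧
      ¬ Cfsg.MemLocalIdeal M (Helper81.omega (θ : N → ℂ)
        (fun n : N => Helper81.conv (Cfsg.blockCoeff B) w n)) := by
  classical
  by_contra hcon
  have hcon' : ∀ w : G → ℂ, KnInv N w → (∀ x, Cfsg.MemLocalRing M (w x)) →
      Cfsg.MemLocalIdeal M (Helper81.omega (θ : N → ℂ)
        (fun n : N => Helper81.conv (Cfsg.blockCoeff B) w n)) := by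
    intro w hw hwL
    by_contra h
    exact hcon ⟨w, hw, hwL, h⟩
  have : Fintype (G ⧸ N) := Fintype.ofFinite _
  have : Fintype (Cfsg.IrrCharacter N) := Fintype.ofFinite _
  have ha : Cfsg.IsClassFunction G (Cfsg.blockCoeff B) := Helper77.blockCoeff_isClassFunction B
  have haI : KnInv N (Cfsg.blockCoeff B) := fun n _ x => ha x n
  have haL : ∀ x, Cfsg.MemLocalRing M (Cfsg.blockCoeff B x) :=
    Helper77.blockCoeff_memLocalRing hM hB
  have hidem := Helper77.conv_blockCoeff B
  obtain ⟨J, hJdef⟩ : ∃ J : (N → ℂ) → Prop, ∀ j, J j ↔ (Cfsg.IsClassFunction N j ∧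
      (∀ n, Cfsg.MemLocalRing M (j n)) ∧
      Cfsg.MemLocalIdeal M (Helper81.omega (θ : N → ℂ) j)) := ⟨_, fun _ => Iff.rfl⟩
  have hJ : ∀ w : G → ℂ, KnInv N w → (∀ x, Cfsg.MemLocalRing M (w x)) →
      J (fun n : N => Helper81.conv (Cfsg.blockCoeff B) w n) := by
    intro w hw hwL
    rw [hJdef]
    refine ⟨fun g h => ?_, fun n => Helper16.conv_memLocalRing hM haL hwL _, hcon' w hw hwL⟩
    exact kn_conv_inv N haI hw (h : G) h.2 (g : G)
  have hmem := kn_mem_ideal N hM haI haL hJ hidem
  have hz : ∀ θ' ∈ b, Helper81.conv (Cfsg.blockCoeff B)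
      (Helper16.ext0 N (Cfsg.blockCoeff ({θ'} : Set (Cfsg.IrrCharacter N)))) = 0 := by
    intro θ' hθ'
    refine kn_conv_idem_zero N hM ha hidem θ' (J := J) (fun j hj => ?_) hmem
    rw [hJdef] at hj
    refine ⟨hj.1, ?_⟩
    have h1 := Helper16.omega_sub_memLocalIdeal hM θ' θ
      (Helper16.sameBlock_of_mem hM hb hθ' hθ) hj.1 hj.2.1
    have h2 := Helper77.memLocalIdeal_add hM h1 hj.2.2
    simpa using h2
  have hsum : Helper16.ext0 N (Cfsg.blockCoeff b)
      = ∑ θ' ∈ Finset.univ.filter (fun θ' : Cfsg.IrrCharacter N => θ' ∈ b),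
          Helper16.ext0 N (Cfsg.blockCoeff ({θ'} : Set (Cfsg.IrrCharacter N))) := by
    funext x
    rw [Finset.sum_apply]
    by_cases hx : x ∈ N
    · simp only [Helper16.ext0_apply_mem N _ hx]
      have e1 : ∀ θ' : Cfsg.IrrCharacter N,
          Cfsg.blockCoeff ({θ'} : Set (Cfsg.IrrCharacter N)) ⟨x, hx⟩
            = (Nat.card N : ℂ)⁻¹ * ((θ' : N → ℂ) 1 * (θ' : N → ℂ) (⟨x, hx⟩ : N)⁻¹) := by
        intro θ'
        rw [Helper77.blockCoeff_eq_sum, Finset.sum_eq_single θ']
        · rw [if_pos (Set.mem_singleton _)]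
        · intro ψ _ hψ
          rw [if_neg (by simpa using hψ)]
        · intro h
          exact absurd (Finset.mem_univ _) h
      simp only [e1]
      rw [Helper77.blockCoeff_eq_sum, ← Finset.mul_sum, Finset.sum_filter]
    · simp only [Helper16.ext0_apply_not_mem N _ hx, Finset.sum_const_zero]
  have hzero : Helper81.conv (Cfsg.blockCoeff B) (Helper16.ext0 N (Cfsg.blockCoeff b)) = 0 := by
    rw [hsum, kn_conv_sum_right]
    exact Finset.sum_eq_zero fun θ' hθ' => hz θ' (Finset.mem_filter.mp hθ').2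
  obtain ⟨χ, hχ, θ₀, hθ₀, hne⟩ := hcov
  have h1 : Helper81.omega (χ : G → ℂ)
      (Helper81.conv (Cfsg.blockCoeff B) (Helper16.ext0 N (Cfsg.blockCoeff b))) = 1 := by
    rw [Helper81.omega_conv χ ha (Helper16.fong_ext0_isClassFunction N hinv),
      Helper77.omega_blockCoeff_of_mem hχ,
      (Helper16.fong_omega_cover N hinv χ).1 ⟨θ₀, hθ₀, hne⟩, mul_one]
  rw [hzero, Helper16.omega_zero] at h1
  exact zero_ne_one h1

end knB

end Cfsg.Agent.Helper79
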