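import Cfsg.Agent.Helper79.KnorrB

/-!
# Knörr's theorem for an invariant block

Let `N ⊴ G`, let `b` be a `G`-invariant block of `N` with defect group `Q` and let `B` be a block
of `G` covering `b`, with defect group `P`.

* `knorr_invariant`: `P ∩ N` is a `G`-conjugate of `Q`.
* `knorr_invariant_exists`: some defect group `P'` of `B` has `P' ∩ N = Q`.
* `kn_defect_conj`: the `G`-conjugates of a defect group of `b` are defect groups of `b`.
* `knorr_invariant_inf`: `P ∩ N` is a defect group of `b`.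
-/

set_option autoImplicit false
set_option linter.unusedSectionVars false
open Cfsg
open scoped ComplexConjugate

namespace Cfsg.Agent.Helper79

universe u

section knC

variable {G : Type u} [Group G] [Fintype G] (N : Subgroup G) [hN : N.Normal] [Fintype N]
  {p : ℕ} [Fact p.Prime] {M : Ideal Cfsg.AlgInt} {b : Set (Cfsg.IrrCharacter N)}

/-- **Knörr's theorem, invariant case.** -/
theorem knorr_invariant (hM : Cfsg.IsPModular p M) (hb : Cfsg.IsPBlock M b)
    (hinv : ∀ g : G, ∀ θ ∈ b, Helper16.irrConj N g θ ∈ b)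
    {B : Set (Cfsg.IrrCharacter G)} (hB : Cfsg.IsPBlock M B)
    (hcov : ∃ χ ∈ B, ∃ θ ∈ b,
      Cfsg.classInner (fun n : N => (χ : G → ℂ) n) (θ : N → ℂ) ≠ 0)
    {P : Subgroup G} (hP : Cfsg.IsDefectGroup p M B P) {Q : Subgroup G} (hQN : Q ≤ N)
    (hQ : Cfsg.IsDefectGroup p M b (Q.subgroupOf N)) :
    ∃ g : G, P ⊓ N = Q.map (MulAut.conj g).toMonoidHom := by
  classical
  have hMm := hM.2.1
  have hp : p.Prime := Fact.out
  obtain ⟨χ, hχ, θ, hθ, hne⟩ := hcov
  obtain ⟨w, hw, hwL, hunit⟩ := knorr_exists_unit N hMm hb hinv hB ⟨χ, hχ, θ, hθ, hne⟩ hθ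
  have ha : Cfsg.IsClassFunction G (Cfsg.blockCoeff B) := Helper77.blockCoeff_isClassFunction B
  have haI : KnInv N (Cfsg.blockCoeff B) := fun n _ x => ha x n
  have haL : ∀ x, Cfsg.MemLocalRing M (Cfsg.blockCoeff B x) :=
    Helper77.blockCoeff_memLocalRing hMm hB
  have hjc : Cfsg.IsClassFunction N (fun n : N => Helper81.conv (Cfsg.blockCoeff B) w n) :=
    fun g h => kn_conv_inv N haI hw (h : G) h.2 (g : G)
  have hjL : ∀ n : N, Cfsg.MemLocalRing M (Helper81.conv (Cfsg.blockCoeff B) w n) :=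
    fun n => Helper16.conv_memLocalRing hMm haL hwL _
  have : Fintype (ConjClasses N) := Fintype.ofFinite _
  rw [Helper77.omega_eq_sum_conjClasses θ hjc] at hunit
  -- a class of `N` at which both factors are units
  obtain ⟨k, hk1, hk2⟩ : ∃ k : N,
      ¬ Cfsg.MemLocalIdeal M (Helper81.conv (Cfsg.blockCoeff B) w k) ∧
      ¬ Cfsg.MemLocalIdeal M (Cfsg.centralChar (θ : N → ℂ) k) := by
    by_contra hcon
    apply hunit
    refine Helper77.memLocalIdeal_sum hMm _ _ fun c _ => ?_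
    by_cases h1 : Cfsg.MemLocalIdeal M
        (Helper81.conv (Cfsg.blockCoeff B) w ((Quotient.out c : N) : G))
    · exact Helper77.memLocalIdeal_mul' hMm h1 (Helper16.centralChar_memLocalRing hMm θ _)
    · refine Helper77.memLocalIdeal_mul hMm (hjL _) ?_
      by_contra h2
      exact hcon ⟨_, h1, h2⟩
  -- a Sylow subgroup of the centralizer of `k` in `N`
  have S : Sylow p (Subgroup.centralizer ({k} : Set N)) := default
  obtain ⟨D', hD'def⟩ : ∃ D' : Subgroup N,
      D' = (S : Subgroup (Subgroup.centralizer ({k} : Set N))).map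
        (Subgroup.centralizer ({k} : Set N)).subtype := ⟨_, rfl⟩
  have hD'p : IsPGroup p D' := by
    rw [hD'def]
    exact S.isPGroup'.map _
  have hD'k : ∀ d ∈ D', d * k = k * d := by
    intro d hd
    rw [hD'def] at hd
    obtain ⟨s, -, rfl⟩ := hd
    exact (Subgroup.mem_centralizer_iff.mp s.2 k rfl).symm
  obtain ⟨D, hDdef⟩ : ∃ D : Subgroup G, D = D'.map N.subtype := ⟨_, rfl⟩
  have hDp : IsPGroup p D := by
    rw [hDdef]
    exact hD'p.map _
  have hDN : D ≤ N := by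
    rw [hDdef]
    rintro _ ⟨d, -, rfl⟩
    exact d.2
  have hDk : ∀ d ∈ D, d * (k : G) = (k : G) * d := by
    rw [hDdef]
    rintro _ ⟨d, hd, rfl⟩
    exact congrArg Subtype.val (hD'k d hd)
  -- the fixed point congruence
  have hfix := Helper16.sum_sub_sum_centralizer_memLocalIdeal hM D hDp
    (fun h : G => Cfsg.blockCoeff B h * w (h⁻¹ * (k : G)))
    (fun h => Helper77.memLocalRing_mul hMm (haL h) (hwL _))
    (by
      intro d hd h
      have e1 : (d * h * d⁻¹)⁻¹ * (k : G) = d * (h⁻¹ * (k : G)) * d⁻¹ := by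
        have h2 : d⁻¹ * (k : G) = (k : G) * d⁻¹ := by
          have := hDk d hd
          calc d⁻¹ * (k : G) = d⁻¹ * ((k : G) * d) * d⁻¹ := by group
            _ = d⁻¹ * (d * (k : G)) * d⁻¹ := by rw [this]
            _ = (k : G) * d⁻¹ := by group
        calc (d * h * d⁻¹)⁻¹ * (k : G) = d * h⁻¹ * (d⁻¹ * (k : G)) := by group
          _ = d * h⁻¹ * ((k : G) * d⁻¹) := by rw [h2]
          _ = d * (h⁻¹ * (k : G)) * d⁻¹ := by group
      show Cfsg.blockCoeff B (d * h * d⁻¹) * w ((d * h * d⁻¹)⁻¹ * (k : G))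
        = Cfsg.blockCoeff B h * w (h⁻¹ * (k : G))
      rw [e1, ha h d, hw d (hDN hd)])
  obtain ⟨h, hhD, hh⟩ : ∃ h : G, h ∈ Subgroup.centralizer (D : Set G) ∧
      ¬ Cfsg.MemLocalIdeal M (Cfsg.blockCoeff B h) := by
    by_contra hcon
    apply hk1
    have h0 : Cfsg.MemLocalIdeal M
        (∑ x ∈ Finset.univ.filter (fun x : G => x ∈ Subgroup.centralizer (D : Set G)),
          Cfsg.blockCoeff B x * w (x⁻¹ * (k : G))) := by
      refine Helper77.memLocalIdeal_sum hMm _ _ fun x hx => ?_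
      refine Helper77.memLocalIdeal_mul' hMm ?_ (hwL _)
      by_contra h2
      exact hcon ⟨x, (Finset.mem_filter.mp hx).2, h2⟩
    have h3 := Helper77.memLocalIdeal_add hMm hfix h0
    rw [sub_add_cancel] at h3
    exact h3
  -- min-max in `G`
  have hP' := hP
  obtain ⟨g₀, hg₀, P₀, hPeq⟩ := hP
  have hDh : D ≤ Subgroup.centralizer ({h} : Set G) := by
    intro d hd
    rw [Subgroup.mem_centralizer_iff]
    intro y hy
    rw [Set.mem_singleton_iff] at hy
    subst hy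
    exact (Subgroup.mem_centralizer_iff.mp hhD d hd).symm
  obtain ⟨x, hx⟩ := Helper16.minmax_conjLE hM hB g₀ ⟨χ, hχ, hg₀.2.2 χ hχ⟩ P₀ h hh D hDp hDh
  -- min-max in `N`
  obtain ⟨n₀, hn₀, hQn₀, -, hQp⟩ := Helper16.isDefectGroup_exists_data hQ
  obtain ⟨m, hm⟩ := Helper16.minmax_conjLE hM hb k ⟨θ, hθ, hk2⟩ S n₀ hn₀.2.1
    (Q.subgroupOf N) hQp hQn₀
  have hle : Q.map (MulAut.conj (x * (m : G))).toMonoidHom ≤ P ⊓ N := by
    rintro _ ⟨q, hq, rfl⟩
    have hq' : (⟨q, hQN hq⟩ : N) ∈ Q.subgroupOf N := by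
      rw [Subgroup.mem_subgroupOf]
      exact hq
    have h1 := hm _ hq'
    have h2 : (m : G) * q * (m : G)⁻¹ ∈ D := by
      rw [hDdef]
      exact ⟨m * ⟨q, hQN hq⟩ * m⁻¹, by rw [hD'def]; exact h1, rfl⟩
    have h3 := hx _ h2
    have e : (MulAut.conj (x * (m : G))).toMonoidHom q
        = x * ((m : G) * q * (m : G)⁻¹) * x⁻¹ := by
      simp only [MulEquiv.coe_toMonoidHom, MulAut.conj_apply]
      group
    rw [e]
    refine ⟨by rw [hPeq]; exact h3, ?_⟩
    exact hN.conj_mem _ (hDN h2) x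
  -- orders
  obtain ⟨x₁, hx₁, hPx₁⟩ :=
    Helper16.fong_exists_defectClass_centralizer N hM hb hinv hB χ hχ θ hθ hne hP'
  obtain ⟨-, -, -, -, hPp⟩ := Helper16.isDefectGroup_exists_data hP'
  obtain ⟨i, j, hi, hile, -, -, -⟩ := Helper16.fong_card_pSubgroup N hPp x₁ hPx₁
  rw [Helper16.factorization_centralizer_of_isDefectClass hM hb hx₁] at hile
  have hcQ := Helper77.card_of_isDefectGroup hM hb hQ
  have hcQ' : Nat.card (Q.subgroupOf N) = Nat.card Q :=
    Nat.card_congr (Subgroup.subgroupOfEquivOfLe hQN).toEquiv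
  have hcard : Nat.card (P ⊓ N : Subgroup G)
      ≤ Nat.card (Q.map (MulAut.conj (x * (m : G))).toMonoidHom) := by
    rw [Subgroup.card_map_of_injective (MulAut.conj (x * (m : G))).injective, ← hcQ', hcQ,
      inf_comm, hi]
    exact Nat.pow_le_pow_right hp.pos hile
  exact ⟨x * (m : G), (Subgroup.eq_of_le_of_card_ge hle hcard).symm⟩

/-- **Knörr's theorem, invariant case**: a defect group of `B` meeting `N` in a given defect
group of `b`. -/
theorem knorr_invariant_exists (hM : Cfsg.IsPModular p M) (hb : Cfsg.IsPBlock M b)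
    (hinv : ∀ g : G, ∀ θ ∈ b, Helper16.irrConj N g θ ∈ b)
    {B : Set (Cfsg.IrrCharacter G)} (hB : Cfsg.IsPBlock M B)
    (hcov : ∃ χ ∈ B, ∃ θ ∈ b,
      Cfsg.classInner (fun n : N => (χ : G → ℂ) n) (θ : N → ℂ) ≠ 0)
    {Q : Subgroup G} (hQN : Q ≤ N) (hQ : Cfsg.IsDefectGroup p M b (Q.subgroupOf N)) :
    ∃ P : Subgroup G, Cfsg.IsDefectGroup p M B P ∧ P ⊓ N = Q := by
  obtain ⟨P, hP⟩ := Helper16.exists_isDefectGroup (p := p) hM.2.1 hB
  obtain ⟨g, hg⟩ := knorr_invariant N hM hb hinv hB hcov hP hQN hQ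
  refine ⟨P.map (MulAut.conj g⁻¹).toMonoidHom, Helper16.isDefectGroup_conj hP g⁻¹, ?_⟩
  ext x
  constructor
  · rintro ⟨⟨y, hy, rfl⟩, hxN⟩
    simp only [MulEquiv.coe_toMonoidHom, MulAut.conj_apply, inv_inv] at hxN ⊢
    have hyN : y ∈ N := by
      have := hN.conj_mem _ hxN g
      have e : g * (g⁻¹ * y * g) * g⁻¹ = y := by group
      rwa [e] at this
    have hyPN : y ∈ P ⊓ N := ⟨hy, hyN⟩
    rw [hg] at hyPN
    obtain ⟨q, hq, rfl⟩ := hyPN
    simp only [MulEquiv.coe_toMonoidHom, MulAut.conj_apply]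
    have e : g⁻¹ * (g * q * g⁻¹) * g = q := by group
    rw [e]
    exact hq
  · intro hx
    have h1 : g * x * g⁻¹ ∈ P ⊓ N := by
      rw [hg]
      exact ⟨x, hx, by simp⟩
    refine ⟨⟨g * x * g⁻¹, h1.1, ?_⟩, hQN hx⟩
    simp only [MulEquiv.coe_toMonoidHom, MulAut.conj_apply, inv_inv]
    group

/-- The `G`-conjugates of a defect group of a `G`-invariant block of `N` are defect groups. -/
theorem kn_defect_conj (hM : Cfsg.IsPModular p M) (hb : Cfsg.IsPBlock M b)
    (hinv : ∀ g : G, ∀ θ ∈ b, Helper16.irrConj N g θ ∈ b)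
    {Q : Subgroup G} (hQN : Q ≤ N) (hQ : Cfsg.IsDefectGroup p M b (Q.subgroupOf N)) (g : G) :
    Cfsg.IsDefectGroup p M b ((Q.map (MulAut.conj g).toMonoidHom).subgroupOf N) := by
  obtain ⟨n₀, hn₀, hQn₀, -, -⟩ := Helper16.isDefectGroup_exists_data hQ
  have hmem : g * (n₀ : G) * g⁻¹ ∈ N := hN.conj_mem n₀ n₀.2 g
  have e0 : (⟨g⁻¹⁻¹ * (n₀ : G) * g⁻¹, by
      rw [inv_inv]
      exact hmem⟩ : N) = ⟨g * (n₀ : G) * g⁻¹, hmem⟩ :=
    Subtype.ext (by simp)
  have hn₁ : Cfsg.IsDefectClass M b (⟨g * (n₀ : G) * g⁻¹, hmem⟩ : N) := by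
    have hc := Helper16.blockCoeff_conj_of_stable N hinv g⁻¹ n₀
    rw [e0] at hc
    refine ⟨by rw [hc]; exact hn₀.1, by rw [hc]; exact hn₀.2.1, fun θ hθ => ?_⟩
    have h1 := Helper16.fong_centralChar_irrConj N g⁻¹ θ n₀
    rw [e0] at h1
    rw [← h1]
    exact hn₀.2.2 _ (hinv g⁻¹ θ hθ)
  have hQg : Q.map (MulAut.conj g).toMonoidHom ≤ N := by
    rintro _ ⟨q, hq, rfl⟩
    exact hN.conj_mem q (hQN hq) g
  apply Helper16.isDefectGroup_of_card hn₁
  · intro y hy
    rw [Subgroup.mem_subgroupOf] at hy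
    obtain ⟨q, hq, hqy⟩ := hy
    have hq' : (⟨q, hQN hq⟩ : N) ∈ Q.subgroupOf N := by
      rw [Subgroup.mem_subgroupOf]
      exact hq
    have h1 := Subgroup.mem_centralizer_iff.mp (hQn₀ hq') n₀ rfl
    have h1' : (n₀ : G) * q = q * (n₀ : G) := congrArg Subtype.val h1
    rw [Subgroup.mem_centralizer_iff]
    intro z hz
    rw [Set.mem_singleton_iff] at hz
    subst hz
    apply Subtype.ext
    show g * (n₀ : G) * g⁻¹ * (y : G) = (y : G) * (g * (n₀ : G) * g⁻¹)
    rw [← hqy]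
    simp only [MulEquiv.coe_toMonoidHom, MulAut.conj_apply]
    calc g * (n₀ : G) * g⁻¹ * (g * q * g⁻¹) = g * ((n₀ : G) * q) * g⁻¹ := by group
      _ = g * (q * (n₀ : G)) * g⁻¹ := by rw [h1']
      _ = g * q * g⁻¹ * (g * (n₀ : G) * g⁻¹) := by group
  · rw [Helper16.factorization_centralizer_of_isDefectClass hM hb hn₁,
      ← Helper77.card_of_isDefectGroup hM hb hQ]
    rw [Nat.card_congr (Subgroup.subgroupOfEquivOfLe hQg).toEquiv,
      Subgroup.card_map_of_injective (MulAut.conj g).injective]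
    exact (Nat.card_congr (Subgroup.subgroupOfEquivOfLe hQN).toEquiv).symm

/-- **Knörr's theorem, invariant case**: every defect group of `B` meets `N` in a defect group
of `b`. -/
theorem knorr_invariant_inf (hM : Cfsg.IsPModular p M) (hb : Cfsg.IsPBlock M b)
    (hinv : ∀ g : G, ∀ θ ∈ b, Helper16.irrConj N g θ ∈ b)
    {B : Set (Cfsg.IrrCharacter G)} (hB : Cfsg.IsPBlock M B)
    (hcov : ∃ χ ∈ B, ∃ θ ∈ b,
      Cfsg.classInner (fun n : N => (χ : G → ℂ) n) (θ : N → ℂ) ≠ 0)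
    {P : Subgroup G} (hP : Cfsg.IsDefectGroup p M B P) :
    Cfsg.IsDefectGroup p M b ((P ⊓ N).subgroupOf N) := by
  obtain ⟨Q', hQ'⟩ := Helper16.exists_isDefectGroup (p := p) hM.2.1 hb
  have hQ'' : Cfsg.IsDefectGroup p M b ((Q'.map N.subtype).subgroupOf N) := by
    have e : (Q'.map N.subtype).subgroupOf N = Q' := by
      ext x
      rw [Subgroup.mem_subgroupOf]
      constructor
      · rintro ⟨y, hy, hyx⟩
        have : y = x := Subtype.ext hyx
        rwa [← this]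
      · intro hx
        exact ⟨x, hx, rfl⟩
    rw [e]
    exact hQ'
  have hQN : Q'.map N.subtype ≤ N := by
    rintro _ ⟨y, -, rfl⟩
    exact y.2
  obtain ⟨g, hg⟩ := knorr_invariant N hM hb hinv hB hcov hP hQN hQ''
  rw [hg]
  exact kn_defect_conj N hM hb hinv hQN hQ'' g

end knC

end Cfsg.Agent.Helper79
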