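import Cfsg.Agent.Helper79.KnorrD

/-!
# Knörr's theorem: a covered block stable under a given defect group

* `knorr_defect_inf`: for `N ⊴ G`, a block `B` of `G` and a defect group `P` of `B` there is a
  `P`-stable block `c` of `N` covered by `B` such that `P ∩ N` is a defect group of `c`.
-/

set_option autoImplicit false
set_option linter.unusedSectionVars false
open Cfsg
open scoped ComplexConjugate

namespace Cfsg.Agent.Helper79

universe u

section knE

variable {G : Type u} [Group G] [Fintype G] (N : Subgroup G) [hN : N.Normal] [Fintype N]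
  {p : ℕ} [Fact p.Prime] {M : Ideal Cfsg.AlgInt}

/-- `irrConj` in terms of `irrTwist`. -/
theorem kn_irrConj_eq_irrTwist (x : G) (θ : Cfsg.IrrCharacter N) :
    Helper16.irrConj N x θ = Helper81.irrTwist (MulAut.conjNormal x⁻¹) θ := by
  apply Subtype.ext
  funext k
  rw [Helper16.irrConj_apply, Helper81.irrTwist_apply]
  exact congrArg (θ : N → ℂ) (Subtype.ext (by simp))

/-- Every block of `G` covers a block of `N`. -/
theorem kn_exists_cover (hM : M.IsMaximal) {B : Set (Cfsg.IrrCharacter G)}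
    (hB : Cfsg.IsPBlock M B) :
    ∃ χ ∈ B, ∃ θ : Cfsg.IrrCharacter N,
      Cfsg.classInner (fun n : N => (χ : G → ℂ) n) (θ : N → ℂ) ≠ 0 := by
  obtain ⟨χ, hχ⟩ := Helper16.exists_mem_of_isPBlock hM hB
  have hne : (fun n : N => (χ : G → ℂ) n) ≠ 0 := by
    intro h0
    have h1 := congrFun h0 1
    exact Helper81.irr_one_ne_zero χ (by simpa using h1)
  obtain ⟨θ, hθ⟩ := Helper15.exists_constituent
    (Helper16.isClassFunction_res (Helper81.irr_isClassFunction χ) N) hne
  exact ⟨χ, hχ, θ, hθ⟩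

/-- **Knörr**: a defect group `P` of `B` stabilizes some block `c` of `N` covered by `B`, and
`P ∩ N` is a defect group of `c`. -/
theorem knorr_defect_inf (hM : Cfsg.IsPModular p M) {B : Set (Cfsg.IrrCharacter G)}
    (hB : Cfsg.IsPBlock M B) {P : Subgroup G} (hP : Cfsg.IsDefectGroup p M B P) :
    ∃ c : Set (Cfsg.IrrCharacter N), Cfsg.IsPBlock M c ∧
      (∀ x ∈ P, ∀ θ ∈ c, Helper16.irrConj N x θ ∈ c) ∧
      (∃ χ ∈ B, ∃ θ ∈ c, Cfsg.classInner (fun n : N => (χ : G → ℂ) n) (θ : N → ℂ) ≠ 0) ∧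
      Cfsg.IsDefectGroup p M c ((P ⊓ N).subgroupOf N) := by
  classical
  have hMm := hM.2.1
  obtain ⟨χ, hχ, θ, hθ⟩ := kn_exists_cover N hMm hB
  have hb₀ : Cfsg.IsPBlock M (Cfsg.blockOf M (θ : N → ℂ)) := ⟨θ, rfl⟩
  have hθb : θ ∈ Cfsg.blockOf M (θ : N → ℂ) := Helper16.sameBlock_refl hMm _
  let _ : Fintype ↥(Helper77.stabSubgroup N (Cfsg.blockOf M (θ : N → ℂ))) := Fintype.ofFinite _
  obtain ⟨hNT, hst, hdis⟩ := kn_stab_data N hMm hb₀ (Helper77.stabSubgroup N _)
    (fun x => Helper77.mem_stabSubgroup N _ x)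
  obtain ⟨B', hB', -, -, h1, -⟩ := knorr_fr N (Helper77.stabSubgroup N _) hM hb₀ hNT hst hdis hB
    ⟨χ, hχ, θ, hθb, hθ⟩
  obtain ⟨D, hD⟩ := Helper16.exists_isDefectGroup (p := p) hMm hB'
  obtain ⟨hD1, hD2⟩ := h1 D hD
  have hP₀T : D.map (Subgroup.subtype _) ≤ Helper77.stabSubgroup N (Cfsg.blockOf M (θ : N → ℂ)) := by
    rintro _ ⟨y, -, rfl⟩
    exact y.2
  obtain ⟨x, hx⟩ := Helper16.isDefectGroup_conjLE hM hB hD1 hP
  have hcard := Helper16.isDefectGroup_card_eq hM hB hD1 hP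
  have hPeq : (D.map (Subgroup.subtype _)).map (MulAut.conj x).toMonoidHom = P := by
    apply Subgroup.eq_of_le_of_card_ge
    · rintro _ ⟨q, hq, rfl⟩
      exact hx q hq
    · rw [Subgroup.card_map_of_injective (MulAut.conj x).injective, hcard]
  refine ⟨Helper16.irrConj N x '' Cfsg.blockOf M (θ : N → ℂ), ?_, ?_, ?_, ?_⟩
  · exact Helper75.isPBlock_image_irrComp _ hb₀
  · rintro y hy _ ⟨θ₁, hθ₁, rfl⟩
    rw [← hPeq] at hy
    obtain ⟨t, ht, rfl⟩ := hy
    refine ⟨Helper16.irrConj N t θ₁, hst t (hP₀T ht) θ₁ hθ₁, ?_⟩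
    apply Subtype.ext
    rw [Helper16.irrConj_irrConj, Helper16.irrConj_irrConj]
    have e : (MulAut.conj x).toMonoidHom t * x = x * t := by
      simp
    rw [e]
  · refine ⟨χ, hχ, Helper16.irrConj N x θ, ⟨θ, hθb, rfl⟩, ?_⟩
    rw [kn_irrConj_eq_irrTwist, fr_inner_irrTwist N (Helper81.irr_isClassFunction χ) x⁻¹ θ]
    exact hθ
  · have h2 := Helper75.isDefectGroup_image_irrComp (Helper75.conjEquivOfNormalizer N x
      (by rw [Subgroup.normalizer_eq_top]; exact Subgroup.mem_top x)) hD2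
    have e : (((D.map (Subgroup.subtype _)) ⊓ N).subgroupOf N).comap
        (Helper75.conjEquivOfNormalizer N x
          (by rw [Subgroup.normalizer_eq_top]; exact Subgroup.mem_top x)).toMonoidHom
        = (P ⊓ N).subgroupOf N := by
      ext k
      rw [Subgroup.mem_comap, Subgroup.mem_subgroupOf, Subgroup.mem_subgroupOf, ← hPeq]
      show x⁻¹ * (k : G) * x ∈ _ ↔ _
      constructor
      · intro hk
        refine ⟨⟨x⁻¹ * (k : G) * x, hk.1, ?_⟩, k.2⟩
        simp only [MulEquiv.coe_toMonoidHom, MulAut.conj_apply]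
        group
      · rintro ⟨⟨q, hq, hqk⟩, hkN⟩
        simp only [MulEquiv.coe_toMonoidHom, MulAut.conj_apply] at hqk
        have e1 : x⁻¹ * (k : G) * x = q := by
          rw [← hqk]
          group
        rw [e1]
        refine ⟨hq, ?_⟩
        rw [← e1]
        have := hN.conj_mem _ hkN x⁻¹
        rwa [inv_inv] at this
    rw [e] at h2
    exact h2

end knE

end Cfsg.Agent.Helper79
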