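import Cfsg.Agent.Helper79.KnorrE
import Cfsg.Agent.Helper78.AbelCover

/-!
# Consequences of Knörr's theorem for normal subgroups of `p`-power index

* `kn_nested`: transport of a block of `N` to `N.subgroupOf T`.
* `knorr_ppow_le`: `N ≤ L` normal in `G`, `L/N` a `p`-group, `b` a `G`-invariant block of `N`
  covered by a block `B` of `G` having a defect group inside `N`: then `L = N`.
* `knorr_stab_inf_eq`: without invariance, the stabilizer `T` of `b` satisfies `T ∩ L = N`.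
-/

set_option autoImplicit false
set_option linter.unusedSectionVars false
open Cfsg
open scoped ComplexConjugate

namespace Cfsg.Agent.Helper79

universe u

section knF

variable {G : Type u} [Group G] [Fintype G] (N : Subgroup G) [hN : N.Normal] [Fintype N]
  {p : ℕ} [Fact p.Prime] {M : Ideal Cfsg.AlgInt} {b : Set (Cfsg.IrrCharacter N)}

/-- An irreducible character is a character. -/
theorem kn_isCharacter_of_irr {H : Type u} [Group H] {χ : H → ℂ}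
    (hχ : Cfsg.IsIrrCharacter H χ) : Cfsg.IsCharacter H χ := by
  obtain ⟨n, ρ, _, rfl⟩ := hχ
  exact ⟨n, ρ, rfl⟩

/-- Transport of a `T`-stable block of `N` to `N.subgroupOf T`. -/
theorem kn_nested (T : Subgroup G) [Fintype T] (hNT : N ≤ T) [Fintype ↥(N.subgroupOf T)]
    (hb : Cfsg.IsPBlock M b) (hst : ∀ t ∈ T, ∀ θ ∈ b, Helper16.irrConj N t θ ∈ b) :
    Cfsg.IsPBlock M (Helper75.irrComp (Subgroup.subgroupOfEquivOfLe hNT) '' b) ∧
    (∀ t : T, ∀ θ' ∈ Helper75.irrComp (Subgroup.subgroupOfEquivOfLe hNT) '' b,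
      Helper16.irrConj (N.subgroupOf T) t θ'
        ∈ Helper75.irrComp (Subgroup.subgroupOfEquivOfLe hNT) '' b) ∧
    (∀ (χ : Cfsg.IrrCharacter T) (θ : Cfsg.IrrCharacter N),
      Cfsg.classInner (fun n : ↥(N.subgroupOf T) => (χ : T → ℂ) n)
        (Helper75.irrComp (Subgroup.subgroupOfEquivOfLe hNT) θ : ↥(N.subgroupOf T) → ℂ)
      = Cfsg.classInner (fun n : N => (χ : T → ℂ) ⟨(n : G), hNT n.2⟩) (θ : N → ℂ)) := by
  refine ⟨Helper75.isPBlock_image_irrComp _ hb, ?_,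
    fun χ θ => Helper75.classInner_subgroupOf hNT (χ : T → ℂ) (θ : N → ℂ)⟩
  rintro t _ ⟨θ, hθ, rfl⟩
  refine ⟨Helper16.irrConj N (t : G) θ, hst t t.2 θ hθ, ?_⟩
  apply Subtype.ext
  funext k
  rw [Helper75.irrComp_apply, Helper16.irrConj_apply, Helper16.irrConj_apply,
    Helper75.irrComp_apply]
  exact congrArg (θ : N → ℂ) (Subtype.ext rfl)

/-- If a block `B` of `G` with a defect group inside `N ⊴ G` covers a `G`-invariant block of `N`,
then `N` has no proper normal overgroup `L` with `L/N` a `p`-group. -/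
theorem knorr_ppow_le (L : Subgroup G) [hL : L.Normal] (hM : Cfsg.IsPModular p M) (hNL : N ≤ L)
    (hLN : ∃ k : ℕ, (N.subgroupOf L).index = p ^ k)
    (hb : Cfsg.IsPBlock M b) (hinv : ∀ g : G, ∀ θ ∈ b, Helper16.irrConj N g θ ∈ b)
    {B : Set (Cfsg.IrrCharacter G)} (hB : Cfsg.IsPBlock M B)
    (hcov : ∃ χ ∈ B, ∃ θ ∈ b,
      Cfsg.classInner (fun n : N => (χ : G → ℂ) n) (θ : N → ℂ) ≠ 0)
    (hD : ∃ D : Subgroup G, Cfsg.IsDefectGroup p M B D ∧ D ≤ N) : L ≤ N := by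
  classical
  have hMm := hM.2.1
  let _ : Fintype ↥L := Fintype.ofFinite _
  obtain ⟨χ, hχ, θ, hθ, hne⟩ := hcov
  obtain ⟨η, hη, hη1, hη2⟩ := Helper75.exists_irr_over hNL
    (kn_isCharacter_of_irr θ.2) (kn_isCharacter_of_irr χ.2) hne
  have hc₁ : Cfsg.IsPBlock M (Cfsg.blockOf M η) := ⟨⟨η, hη⟩, rfl⟩
  have hηc : (⟨η, hη⟩ : Cfsg.IrrCharacter L) ∈ Cfsg.blockOf M η := Helper16.sameBlock_refl hMm _
  obtain ⟨Q', hQ'⟩ := Helper16.exists_isDefectGroup (p := p) hMm hc₁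
  have e : (Q'.map L.subtype).subgroupOf L = Q' := by
    ext x
    rw [Subgroup.mem_subgroupOf]
    constructor
    · rintro ⟨y, hy, hyx⟩
      have : y = x := Subtype.ext hyx
      rwa [← this]
    · intro hx
      exact ⟨x, hx, rfl⟩
  have hQ'' : Cfsg.IsDefectGroup p M (Cfsg.blockOf M η) ((Q'.map L.subtype).subgroupOf L) := by
    rw [e]
    exact hQ'
  have hQL : Q'.map L.subtype ≤ L := by
    rintro _ ⟨y, -, rfl⟩
    exact y.2
  obtain ⟨P₁, hP₁, hP₁Q⟩ := knorr_exists L hM hc₁ hB ⟨χ, hχ, ⟨η, hη⟩, hηc, hη1⟩ hQL hQ''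
  obtain ⟨D, hD, hDN⟩ := hD
  have hP₁N : P₁ ≤ N := by
    obtain ⟨x, hx⟩ := Helper16.isDefectGroup_conjLE hM hB hP₁ hD
    intro q hq
    have h1 := hN.conj_mem _ (hDN (hx q hq)) x⁻¹
    have e1 : x⁻¹ * (x * q * x⁻¹) * x⁻¹⁻¹ = q := by group
    rwa [e1] at h1
  have hQN : Q'.map L.subtype ≤ N := by
    rw [← hP₁Q]
    exact inf_le_left.trans hP₁N
  let _ : Fintype ↥(N.subgroupOf L) := Fintype.ofFinite _
  obtain ⟨hb', hinv', hinner⟩ := kn_nested N L hNL hb (fun t _ => hinv t)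
  have hcov' : ∃ χ' ∈ Cfsg.blockOf M η,
      ∃ θ' ∈ Helper75.irrComp (Subgroup.subgroupOfEquivOfLe hNL) '' b,
      Cfsg.classInner (fun n : ↥(N.subgroupOf L) => (χ' : L → ℂ) n)
        (θ' : ↥(N.subgroupOf L) → ℂ) ≠ 0 := by
    refine ⟨⟨η, hη⟩, hηc, _, ⟨θ, hθ, rfl⟩, ?_⟩
    rw [hinner]
    exact hη2
  obtain ⟨h1, -⟩ := Helper78.abelCover_fong (N.subgroupOf L) hM hLN hb' hinv' hc₁ hcov' hQ'
  have hQ'N' : Q' ≤ N.subgroupOf L := fun q hq => hQN ⟨q, hq, rfl⟩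
  rw [sup_eq_left.mpr hQ'N'] at h1
  intro l hl
  have h2 : (⟨l, hl⟩ : L) ∈ N.subgroupOf L := by
    rw [h1]
    exact Subgroup.mem_top _
  exact h2

/-- `N ≤ L` normal in `G` with `L/N` a `p`-group, `B` a block of `G` with a defect group inside
`N` covering the block `b` of `N`: the stabilizer `T` of `b` meets `L` in `N`. -/
theorem knorr_stab_inf_eq (L : Subgroup G) [hL : L.Normal] (hM : Cfsg.IsPModular p M)
    (hNL : N ≤ L) (hLN : ∃ k : ℕ, (N.subgroupOf L).index = p ^ k)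
    (hb : Cfsg.IsPBlock M b)
    {B : Set (Cfsg.IrrCharacter G)} (hB : Cfsg.IsPBlock M B)
    (hcov : ∃ χ ∈ B, ∃ θ ∈ b,
      Cfsg.classInner (fun n : N => (χ : G → ℂ) n) (θ : N → ℂ) ≠ 0)
    (hD : ∃ D : Subgroup G, Cfsg.IsDefectGroup p M B D ∧ D ≤ N)
    (T : Subgroup G) (hT : ∀ x : G, x ∈ T ↔ Cfsg.StabilizesBlock N b x) : T ⊓ L = N := by
  classical
  have hMm := hM.2.1
  have hp : p.Prime := Fact.out
  obtain ⟨hNT, hst, hdis⟩ := kn_stab_data N hMm hb T hT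
  let _ : Fintype ↥T := Fintype.ofFinite _
  obtain ⟨B', hB', hind, ⟨ψ, hψB', hψcov⟩, h1, -⟩ := knorr_fr N T hM hb hNT hst hdis hB hcov
  apply le_antisymm _ (le_inf hNT hNL)
  let _ : Fintype ↥(N.subgroupOf T) := Fintype.ofFinite _
  obtain ⟨hb', hinv', hinner⟩ := kn_nested N T hNT hb hst
  have hcov' : ∃ χ ∈ B', ∃ θ' ∈ Helper75.irrComp (Subgroup.subgroupOfEquivOfLe hNT) '' b,
      Cfsg.classInner (fun n : ↥(N.subgroupOf T) => (χ : T → ℂ) n)
        (θ' : ↥(N.subgroupOf T) → ℂ) ≠ 0 := by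
    obtain ⟨θ, hθ, hθne⟩ := hψcov
    refine ⟨ψ, hψB', _, ⟨θ, hθ, rfl⟩, ?_⟩
    rw [hinner]
    exact hθne
  have hN'L' : N.subgroupOf T ≤ L.subgroupOf T := fun x hx => hNL hx
  have hidx : ∃ k : ℕ, ((N.subgroupOf T).subgroupOf (L.subgroupOf T)).index = p ^ k := by
    obtain ⟨k, hk⟩ := hLN
    have e1 : ((N.subgroupOf T).subgroupOf (L.subgroupOf T)).index = N.relIndex (L ⊓ T) := by
      show (N.subgroupOf T).relIndex (L.subgroupOf T) = _
      rw [← Subgroup.inf_subgroupOf_right L T, Subgroup.relIndex_subgroupOf inf_le_right]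
    have e2 : N.relIndex (L ⊓ T) ∣ p ^ k := by
      rw [← hk]
      show _ ∣ N.relIndex L
      rw [← Subgroup.relIndex_mul_relIndex N (L ⊓ T) L (le_inf hNL hNT) inf_le_left]
      exact dvd_mul_right _ _
    obtain ⟨j, -, hj⟩ := (Nat.dvd_prime_pow hp).mp e2
    exact ⟨j, by rw [e1, hj]⟩
  have hD' : ∃ D' : Subgroup T, Cfsg.IsDefectGroup p M B' D' ∧ D' ≤ N.subgroupOf T := by
    obtain ⟨D', hD'⟩ := Helper16.exists_isDefectGroup (p := p) hMm hB'
    refine ⟨D', hD', ?_⟩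
    obtain ⟨D, hD, hDN⟩ := hD
    obtain ⟨x, hx⟩ := Helper16.isDefectGroup_conjLE hM hB (h1 D' hD').1 hD
    intro q hq
    have h2 := hN.conj_mem _ (hDN (hx (q : G) ⟨q, hq, rfl⟩)) x⁻¹
    have e1 : x⁻¹ * (x * (q : G) * x⁻¹) * x⁻¹⁻¹ = q := by group
    rw [e1] at h2
    exact h2
  have key := knorr_ppow_le (N.subgroupOf T) (L.subgroupOf T) hM hN'L' hidx hb' hinv' hB' hcov' hD'
  rintro x ⟨hxT, hxL⟩
  exact key (show (⟨x, hxT⟩ : T) ∈ L.subgroupOf T from hxL)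

end knF

end Cfsg.Agent.Helper79
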