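/-
helper79: piece N22 of helper88's CALL S5850 (Omega does not stabilise a decomposition into
non-degenerate planes); variant of helper66's `o12_notOmega_decomp`.
-/
import Cfsg.Agent.Helper95.O12Row
import Cfsg.Agent.Helper30.OZA2P

set_option autoImplicit false
open Cfsg Cfsg.Geo Matrix

namespace Cfsg.Agent.Helper79

variable {F : Type*} [Field F] [Fintype F]

theorem o10_notOmega_decomp_two {n : ℕ} (hn : 5 ≤ n) (Q : (Fin n → F) → F)
    (hQ : IsNondegenerateQuadraticForm Q) {t : ℕ} (D : Fin t → Submodule F (Fin n → F))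
    (hD : IsNondegenerateMDecomposition (QuadraticMap.polar Q) 2 D) :
    ¬ omegaGL Q ≤ decompositionStabilizer D := by
  classical
  intro hle
  -- `t * 2 = n`
  have hcard : t * 2 = n := by
    have hint := DirectSum.isInternal_submodule_of_iSupIndep_of_iSup_eq_top hD.decomp.indep
      hD.decomp.iSup_eq_top
    have e := LinearEquiv.ofBijective (DirectSum.coeLinearMap D) hint
    have h1 := e.finrank_eq
    rw [Module.finrank_directSum, Module.finrank_fintype_fun_eq_card] at h1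
    simpa [hD.decomp.finrank_eq] using h1
  have h3t : 3 ≤ t := by omega
  obtain ⟨i0, hi0⟩ : ∃ i : Fin t, i = ⟨0, by omega⟩ := ⟨_, rfl⟩
  obtain ⟨i1, hi1⟩ : ∃ i : Fin t, i = ⟨1, by omega⟩ := ⟨_, rfl⟩
  obtain ⟨i2, hi2⟩ : ∃ i : Fin t, i = ⟨2, by omega⟩ := ⟨_, rfl⟩
  have h01 : i0 ≠ i1 := by simp [hi0, hi1, Fin.ext_iff]
  have h02 : i0 ≠ i2 := by simp [hi0, hi2, Fin.ext_iff]
  have h12 : i1 ≠ i2 := by simp [hi1, hi2, Fin.ext_iff]
  have hdisj01 : Disjoint (D i0) (D i1) := hD.decomp.indep.pairwiseDisjoint h01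
  have hW : Module.finrank F ↥(D i0 ⊔ D i1) = 4 := by
    have h := Submodule.finrank_sup_add_finrank_inf_eq (D i0) (D i1)
    rw [hdisj01.eq_bot, finrank_bot, hD.decomp.finrank_eq, hD.decomp.finrank_eq] at h
    omega
  -- a singular vector in `D i0 ⊔ D i1`
  obtain ⟨u, huW, hu0, hQu⟩ := Helper45.exists_sing_in (Helper98.op_qf Q hQ) (D i0 ⊔ D i1)
    (by rw [hW]; norm_num)
  have hQu' : Q u = 0 := hQu
  -- `D i2` is disjoint from the span of the others
  have hS : Disjoint (D i2) (⨆ (j : Fin t) (_ : j ≠ i2), D j) := hD.decomp.indep i2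
  have hle0 : D i0 ≤ ⨆ (j : Fin t) (_ : j ≠ i2), D j :=
    le_iSup₂_of_le i0 h02 le_rfl
  have hle1 : D i1 ≤ ⨆ (j : Fin t) (_ : j ≠ i2), D j :=
    le_iSup₂_of_le i1 h12 le_rfl
  have hleW : D i0 ⊔ D i1 ≤ ⨆ (j : Fin t) (_ : j ≠ i2), D j := sup_le hle0 hle1
  -- a non-zero vector `x` in `D i2` and `b` in `D i2` with `polar b x ≠ 0`
  have hD2 : D i2 ≠ ⊥ := by
    intro h
    have h1 := hD.decomp.finrank_eq i2
    rw [h, finrank_bot] at h1
    omega
  obtain ⟨x, hxD, hx0⟩ := (Submodule.ne_bot_iff _).mp hD2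
  obtain ⟨⟨b, hbD, hbx⟩, -⟩ := hD.nondegenerate i2 x hxD hx0
  -- `u` is orthogonal to `D i2`
  obtain ⟨u0, hu0D, u1, hu1D, hu01⟩ := Submodule.mem_sup.mp huW
  have hpol : ∀ v ∈ D i2, QuadraticMap.polar Q u v = 0 := by
    intro v hv
    have h0 : QuadraticMap.polar Q u0 v = 0 := hD.orthogonal i0 i2 h02 u0 hu0D v hv
    have h1 : QuadraticMap.polar Q u1 v = 0 := hD.orthogonal i1 i2 h12 u1 hu1D v hv
    have h2 : QuadraticMap.polar (⇑(Helper98.op_qf Q hQ)) (u0 + u1) v =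
        QuadraticMap.polar (⇑(Helper98.op_qf Q hQ)) u0 v +
          QuadraticMap.polar (⇑(Helper98.op_qf Q hQ)) u1 v :=
      QuadraticMap.polar_add_left _ u0 u1 v
    rw [← hu01]
    exact h2.trans (by rw [show QuadraticMap.polar (⇑(Helper98.op_qf Q hQ)) u0 v = 0 from h0,
      show QuadraticMap.polar (⇑(Helper98.op_qf Q hQ)) u1 v = 0 from h1, add_zero])
  have hub : QuadraticMap.polar Q u b = 0 := hpol b hbD
  have hux : QuadraticMap.polar Q u x = 0 := hpol x hxD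
  obtain ⟨E, hEΩ, hE⟩ := Helper66.o12_eichler Q hQ (by simpa using hn) u b hQu' hub
  obtain ⟨σ, hσ⟩ := hle hEΩ
  have hEx : (E : Matrix (Fin n) (Fin n) F) *ᵥ x = x + (QuadraticMap.polar Q b x) • u := by
    rw [hE, hux, mul_zero, sub_zero, zero_smul, sub_zero]
  have hmem : x + (QuadraticMap.polar Q b x) • u ∈ D (σ i2) := by
    rw [← hσ i2, ← hEx]
    exact ⟨x, hxD, by rw [Matrix.toLin'_apply]⟩
  have hcu : (QuadraticMap.polar Q b x) • u ∈ D i0 ⊔ D i1 :=
    (D i0 ⊔ D i1).smul_mem _ huW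
  by_cases hj : σ i2 = i2
  · -- then `u ∈ D i2`
    rw [hj] at hmem
    have h1 : (QuadraticMap.polar Q b x) • u ∈ D i2 := by
      have h2 := (D i2).sub_mem hmem hxD
      rwa [add_sub_cancel_left] at h2
    have h3 : u ∈ D i2 := by
      have h4 := (D i2).smul_mem (QuadraticMap.polar Q b x)⁻¹ h1
      rwa [smul_smul, inv_mul_cancel₀ hbx, one_smul] at h4
    exact hu0 (Submodule.disjoint_def.mp hS u h3 (hleW huW))
  · -- then `x` lies in the span of the other members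
    have h1 : D (σ i2) ≤ ⨆ (j : Fin t) (_ : j ≠ i2), D j :=
      le_iSup₂_of_le (σ i2) hj le_rfl
    have h2 : x ∈ ⨆ (j : Fin t) (_ : j ≠ i2), D j := by
      have h3 := (⨆ (j : Fin t) (_ : j ≠ i2), D j).sub_mem (h1 hmem) (hleW hcu)
      rwa [add_sub_cancel_right] at h3
    exact hx0 (Submodule.disjoint_def.mp hS x hxD h2)

end Cfsg.Agent.Helper79
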