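import Mathlib
import Cfsg.Prelude.Def_Characters
import Cfsg.Prelude.Def_Blocks
import Cfsg.Agent.Helper79.PrimeDeg
import Cfsg.Agent.Helper79.Sep
import Cfsg.Agent.Helper79.Abelian
import Cfsg.Agent.Helper79.Normal
import Cfsg.Agent.Helper80.RelBlock
import Cfsg.Agent.Helper15.Gallagher
import Cfsg.Agent.Helper75.CliffordCorr
import Cfsg.Agent.Helper76.CentralChar

/-!
# Twisting lemmas for groups with prime nonlinear degrees (helper79)

* `pd2_twist_pow`: if an irreducible character `ψ` is fixed by multiplication with the linear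
  character `φ`, then `φ ^ ψ(1) = 1` (compare determinants of the two equivalent
  representations).
* `pd2_sep`: linear characters of `N` trivial on `K` separate the points of an abelian section
  `N / K`.

Everything is in `namespace Cfsg.Agent.Helper79`.
-/

set_option autoImplicit false

namespace Cfsg.Agent.Helper79

open Cfsg
open scoped commutatorElement

universe u

/-- If an irreducible character `ψ` is fixed by multiplication with the linear character `φ`,
then `φ ^ ψ(1) = 1` (compare determinants). -/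
theorem pd2_twist_pow {N : Type*} [Group N] [Finite N] (ψ : IrrCharacter N) (φ : N →* ℂˣ)
    (h : ∀ n : N, (φ n : ℂ) * (ψ : N → ℂ) n = (ψ : N → ℂ) n) (n : N) :
    (φ n : ℂ) ^ charDegree (ψ : N → ℂ) = 1 := by
  classical
  have : Fintype N := Fintype.ofFinite N
  obtain ⟨m, ρ, hρ, hψ⟩ := ψ.2
  have hdeg : charDegree (ψ : N → ℂ) = m := by
    rw [← hψ, Helper80.charDegree_rep_character]
  have hρ' : (twistRep φ ρ).IsIrreducible := twistRep_isIrreducible φ ρ hρ
  have := hρ
  have hchar : (twistRep φ ρ).character = ρ.character := by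
    rw [twistRep_character]
    funext g
    rw [hψ]
    exact h g
  obtain ⟨e⟩ := (Helper80.rep_equiv_iff_character_eq (twistRep φ ρ) ρ).mpr hchar
  have hint := e.toIntertwiningMap.isIntertwining' n
  have hdet : LinearMap.det (twistRep φ ρ n) = LinearMap.det (ρ n) := by
    have h1 : ρ n = (e.toLinearEquiv : (Fin m → ℂ) →ₗ[ℂ] (Fin m → ℂ)) ∘ₗ (twistRep φ ρ n) ∘ₗ
        (e.toLinearEquiv.symm : (Fin m → ℂ) →ₗ[ℂ] (Fin m → ℂ)) := by
      refine LinearMap.ext fun w => ?_
      have h2 := congrArg (fun L : (Fin m → ℂ) →ₗ[ℂ] (Fin m → ℂ) => L (e.toLinearEquiv.symm w)) hint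
      simp only [LinearMap.comp_apply] at h2
      have h3 : e.toIntertwiningMap.toLinearMap (e.toLinearEquiv.symm w) = w :=
        e.toLinearEquiv.apply_symm_apply w
      rw [h3] at h2
      simp only [LinearMap.comp_apply, LinearEquiv.coe_coe]
      rw [← h2]
    rw [h1, LinearMap.det_conj]
  have htw : twistRep φ ρ n = (φ n : ℂ) • ρ n := rfl
  rw [htw, LinearMap.det_smul, Module.finrank_fin_fun] at hdet
  have hne : LinearMap.det (ρ n) ≠ 0 := by
    intro h0
    have h1 : LinearMap.det (ρ n * ρ n⁻¹) = 1 := by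
      rw [← map_mul, mul_inv_cancel, map_one, map_one]
    rw [map_mul, h0, zero_mul] at h1
    exact zero_ne_one h1
  rw [hdeg]
  exact mul_right_cancel₀ hne (by rw [hdet, one_mul])

/-- Linear characters of `N` trivial on `K` separate the points of the abelian section
`N / K`. -/
theorem pd2_sep {G : Type*} [Group G] [Finite G] (N K : Subgroup G) [K.Normal]
    (hab : ∀ x ∈ N, ∀ y ∈ N, ⁅x, y⁆ ∈ K) (w : G) (hw : w ∈ N) (hwK : w ∉ K) :
    ∃ φ : N →* ℂˣ, (∀ k : N, (k : G) ∈ K → φ k = 1) ∧ φ ⟨w, hw⟩ ≠ 1 := by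
  have hcomm : commutator (N ⧸ K.subgroupOf N) = ⊥ := by
    rw [commutator_def, Subgroup.commutator_eq_bot_iff_le_centralizer]
    intro a _
    rw [Subgroup.mem_centralizer_iff]
    intro b _
    induction a using QuotientGroup.induction_on with | _ x =>
    induction b using QuotientGroup.induction_on with | _ y =>
    rw [← QuotientGroup.mk_mul, ← QuotientGroup.mk_mul, QuotientGroup.eq, Subgroup.mem_subgroupOf]
    have := hab (x⁻¹ : N) (N.inv_mem x.2) (y⁻¹ : N) (N.inv_mem y.2)
    convert this using 1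
    simp [commutatorElement_def, mul_assoc]
  have hq : (QuotientGroup.mk ⟨w, hw⟩ : N ⧸ K.subgroupOf N) ∉ commutator (N ⧸ K.subgroupOf N) := by
    rw [hcomm, Subgroup.mem_bot, QuotientGroup.eq_one_iff, Subgroup.mem_subgroupOf]
    exact hwK
  obtain ⟨f, hf⟩ := exists_hom_apply_ne_one hq
  refine ⟨f.comp (QuotientGroup.mk' _), ?_, hf⟩
  intro k hk
  rw [MonoidHom.comp_apply, QuotientGroup.mk'_apply,
    (QuotientGroup.eq_one_iff k).mpr (Subgroup.mem_subgroupOf.mpr hk), map_one]

end Cfsg.Agent.Helper79
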