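import Mathlib
import Cfsg.Agent.Helper79.S4705Defs
import Cfsg.Agent.Helper79.Basic
import Cfsg.Agent.Helper81.CharBasic

/-!
# S4705, stage ATRIV, piece VALS (helper79): the values at an involution inverting `x`

Core version, with the multiplicity lemma MULT as a hypothesis.
-/

set_option autoImplicit false
open Cfsg
open scoped ComplexConjugate

universe u

namespace Cfsg.Agent.Helper79

/-- A sum over `range p` of a function constant off the multiples of `p`. -/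
theorem s4705v_sum_range (p : ℕ) (hp : 0 < p) (f : ℕ → ℂ) (c : ℂ)
    (hc : ∀ b : ℕ, ¬ p ∣ b → f b = c) :
    ∑ b ∈ Finset.range p, f b = f 0 + ((p : ℂ) - 1) * c := by
  obtain ⟨k, rfl⟩ : ∃ k, p = k + 1 := ⟨p - 1, by omega⟩
  rw [Finset.sum_range_succ']
  have h1 : ∀ b ∈ Finset.range k, f (b + 1) = c := by
    intro b hb
    apply hc
    intro hd
    have h2 := Nat.le_of_dvd (Nat.succ_pos b) hd
    have h3 := Finset.mem_range.mp hb
    omega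
  rw [Finset.sum_congr rfl h1, Finset.sum_const, Finset.card_range, nsmul_eq_mul]
  push_cast
  ring

variable {H : Type u} [Group H] [Finite H]

/-- The statement of the multiplicity lemma MULT. -/
def S4705MultStmt (H : Type u) [Group H] [Finite H] (p : ℕ) : Prop :=
  ∀ (x t : H), orderOf x = p → t * t = 1 → t * x * t⁻¹ = x⁻¹ →
    ∀ (χ : H → ℂ), Cfsg.IsCharacter H χ → ∀ (m₁ : ℕ),
      ∑ b ∈ Finset.range p, χ (x ^ b) = ((p * m₁ : ℕ) : ℂ) →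
      ∃ α : ℕ, α ≤ m₁ ∧ χ t + (m₁ : ℂ) = 2 * (α : ℂ)

/-- VALS, with MULT as a hypothesis. -/
theorem s4705z_vals_core (p : ℕ) [Fact p.Prime] (hmult : S4705MultStmt H p) (x : H)
    (ζ : H → ℂ) (h : S4705Wk p x ζ)
    (S : S4705Shape p x ζ) (a : ℕ) (X₁ X₂ : Cfsg.IrrCharacter H)
    (Y : Finset (Cfsg.IrrCharacter H)) (T : S4705TabL p x ζ a X₁ X₂ Y)
    (m : ℕ) (δ : ℤ) (X : Cfsg.IrrCharacter H) (Y' : Finset (Cfsg.IrrCharacter H))
    (T' : S4705Tab1 p x m δ X Y') (t : H) (ht : t * t = 1) (htx : t * x * t⁻¹ = x⁻¹) :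
    ∃ s₁ e s : ℤ, (X₁ : H → ℂ) t = (s₁ : ℂ) ∧ ζ t = (e : ℂ) ∧ (X : H → ℂ) t = (s : ℂ) ∧
      (e = 1 ∨ e = -1) ∧ |s₁| ≤ (a : ℤ) + 1 ∧ s ≤ (m : ℤ) - 1 := by
  have hpp : p.Prime := Fact.out
  have hp5 := h.hp
  have hp0 : 0 < p := hpp.pos
  have htreg : ¬ p ∣ orderOf t := by
    intro hd
    have h2 : orderOf t ∣ 2 := orderOf_dvd_of_pow_eq_one (by rw [pow_two]; exact ht)
    have h3 := Nat.le_of_dvd (by norm_num) (hd.trans h2)
    omega
  -- `X₁`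
  have hX₁sum : ∑ b ∈ Finset.range p, (X₁ : H → ℂ) (x ^ b) = ((p * (a + 1) : ℕ) : ℂ) := by
    rw [s4705v_sum_range p hp0 (fun b => (X₁ : H → ℂ) (x ^ b)) 1 (fun b hb => T.val₁ b hb)]
    simp only [pow_zero]
    rw [T.deg₁]
    push_cast
    ring
  obtain ⟨α₁, hα₁, hα₁'⟩ := hmult x t h.hx ht htx (X₁ : H → ℂ) (irr_isCharacter X₁) (a + 1) hX₁sum
  -- `ζ`
  have hζsum : ∑ b ∈ Finset.range p, ζ (x ^ b) = ((p * 1 : ℕ) : ℂ) := by
    obtain ⟨ω, hω, hval⟩ := S.hval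
    have e1 : ∀ b : ℕ, ζ (x ^ b) = (if p ∣ b then (p : ℂ) else 0) - ω ^ b - ω⁻¹ ^ b := by
      intro b
      have := hval b
      linear_combination this
    rw [Finset.sum_congr rfl (fun b _ => e1 b), Finset.sum_sub_distrib, Finset.sum_sub_distrib,
      hω.geom_sum_eq_zero hpp.one_lt, hω.inv.geom_sum_eq_zero hpp.one_lt,
      s4705v_sum_range p hp0 (fun b => if p ∣ b then (p : ℂ) else 0) 0
        (fun b hb => by simp [hb])]
    simp
  obtain ⟨α₂, hα₂, hα₂'⟩ := hmult x t h.hx ht htx ζ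
    (Cfsg.Agent.Helper79.isCharacter_of_irr h.hζ) 1 hζsum
  -- `X`
  have hXsum : ∑ b ∈ Finset.range p, (X : H → ℂ) (x ^ b)
      = ((m * p : ℕ) : ℂ) + (δ : ℂ) + ((p : ℂ) - 1) * (δ : ℂ) := by
    rw [s4705v_sum_range p hp0 (fun b => (X : H → ℂ) (x ^ b)) (δ : ℂ) (fun b hb => T'.val b hb)]
    simp only [pow_zero]
    rw [T'.deg]
  have hm1 := T'.hm
  refine ⟨2 * (α₁ : ℤ) - ((a : ℤ) + 1), 2 * (α₂ : ℤ) - 1, ?_⟩
  have hs₁ : (X₁ : H → ℂ) t = ((2 * (α₁ : ℤ) - ((a : ℤ) + 1) : ℤ) : ℂ) := by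
    push_cast
    push_cast at hα₁'
    linear_combination hα₁'
  have he : ζ t = ((2 * (α₂ : ℤ) - 1 : ℤ) : ℂ) := by
    push_cast
    push_cast at hα₂'
    linear_combination hα₂'
  have he' : (2 * (α₂ : ℤ) - 1 = 1 ∨ 2 * (α₂ : ℤ) - 1 = -1) := by
    have : α₂ = 0 ∨ α₂ = 1 := by omega
    rcases this with h0 | h0 <;> simp [h0]
  have hs₁b : |2 * (α₁ : ℤ) - ((a : ℤ) + 1)| ≤ (a : ℤ) + 1 := by
    rw [abs_le]
    have : (α₁ : ℤ) ≤ (a : ℤ) + 1 := by exact_mod_cast hα₁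
    have h0 : (0 : ℤ) ≤ (α₁ : ℤ) := Int.natCast_nonneg _
    constructor <;> linarith
  rcases T'.hδ with hδ | hδ
  · -- `δ = 1`
    have hXsum' : ∑ b ∈ Finset.range p, (X : H → ℂ) (x ^ b) = ((p * (m + 1) : ℕ) : ℂ) := by
      rw [hXsum, hδ]
      push_cast
      ring
    obtain ⟨α₃, hα₃, hα₃'⟩ := hmult x t h.hx ht htx (X : H → ℂ) (irr_isCharacter X) (m + 1) hXsum'
    have hYne : Y'.Nonempty := by
      rw [Finset.nonempty_iff_ne_empty]
      intro hemp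
      have e1 := T'.Ysum
      rw [hemp, Finset.sum_empty, hδ] at e1
      norm_num at e1
    obtain ⟨ψ, hψ⟩ := hYne
    have hψsum : ∑ b ∈ Finset.range p, (ψ : H → ℂ) (x ^ b) = ((p * m : ℕ) : ℂ) := by
      rw [T'.Yfix ψ hψ, mul_comm]
    obtain ⟨β, hβ, hβ'⟩ := hmult x t h.hx ht htx (ψ : H → ℂ) (irr_isCharacter ψ) m hψsum
    have hψt := T'.Yreg ψ hψ t htreg
    refine ⟨2 * (α₃ : ℤ) - ((m : ℤ) + 1), hs₁, he, ?_, he', hs₁b, ?_⟩
    · push_cast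
      push_cast at hα₃'
      linear_combination hα₃'
    · -- `X t + 1 = ψ t = 2 β - m ≤ m`
      have e1 : (((2 * (α₃ : ℤ) - ((m : ℤ) + 1)) + 1 : ℤ) : ℂ) = ((2 * (β : ℤ) - (m : ℤ) : ℤ) : ℂ) := by
        rw [hδ] at hψt
        push_cast
        push_cast at hα₃' hψt
        linear_combination (-1 : ℂ) * hα₃' + hβ' - hψt
      have e2 := Int.cast_injective e1
      have e3 : (β : ℤ) ≤ (m : ℤ) := by exact_mod_cast hβ
      linarith
  · -- `δ = -1`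
    have hXsum' : ∑ b ∈ Finset.range p, (X : H → ℂ) (x ^ b) = ((p * (m - 1) : ℕ) : ℂ) := by
      rw [hXsum, hδ]
      rw [Nat.mul_sub, Nat.cast_sub (by nlinarith)]
      push_cast
      ring
    obtain ⟨α₃, hα₃, hα₃'⟩ := hmult x t h.hx ht htx (X : H → ℂ) (irr_isCharacter X) (m - 1) hXsum'
    refine ⟨2 * (α₃ : ℤ) - ((m : ℤ) - 1), hs₁, he, ?_, he', hs₁b, ?_⟩
    · push_cast
      rw [Nat.cast_sub hm1] at hα₃'
      push_cast at hα₃'
      linear_combination hα₃'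
    · have e3 : (α₃ : ℤ) ≤ (m : ℤ) - 1 := by
        have : ((α₃ : ℕ) : ℤ) ≤ ((m - 1 : ℕ) : ℤ) := by exact_mod_cast hα₃
        rw [Nat.cast_sub hm1] at this
        simpa using this
      linarith

end Cfsg.Agent.Helper79
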