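import Mathlib
import Cfsg.Agent.Helper79.S4705Defs
import Cfsg.Agent.Helper79.Basic
import Cfsg.Agent.Helper81.CharBasic
import Cfsg.Agent.Helper79.S4705ZVALSCore
import Cfsg.Agent.Helper15.S4705ZODD
import Cfsg.Agent.Helper15.S4705ZMULT
import Cfsg.Agent.Helper87.S4705ZTAU
import Cfsg.Agent.Helper87.S4705ZALG
import Cfsg.Agent.Helper8.S4705ZFROB
import Cfsg.Agent.Helper39.S4705ZSUML
import Cfsg.Agent.Helper39.S4705ZSUM1

/-!
# S4705, stage ATRIV (helper79): `a = 0` (the involution count) -- assembly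
-/

set_option autoImplicit false
open Cfsg
open scoped ComplexConjugate

universe u

namespace Cfsg.Agent.Helper79

variable {H : Type u} [Group H] [Finite H]

/-- VALS: the values at `t` are integers with the bounds from MULT. -/
theorem s4705z_vals (p : ℕ) [Fact p.Prime] (x : H) (ζ : H → ℂ) (h : S4705Wk p x ζ)
    (S : S4705Shape p x ζ) (a : ℕ) (X₁ X₂ : Cfsg.IrrCharacter H)
    (Y : Finset (Cfsg.IrrCharacter H)) (T : S4705TabL p x ζ a X₁ X₂ Y)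
    (m : ℕ) (δ : ℤ) (X : Cfsg.IrrCharacter H) (Y' : Finset (Cfsg.IrrCharacter H))
    (T' : S4705Tab1 p x m δ X Y') (t : H) (ht : t * t = 1) (htx : t * x * t⁻¹ = x⁻¹) :
    ∃ s₁ e s : ℤ, (X₁ : H → ℂ) t = (s₁ : ℂ) ∧ ζ t = (e : ℂ) ∧ (X : H → ℂ) t = (s : ℂ) ∧
      (e = 1 ∨ e = -1) ∧ |s₁| ≤ (a : ℤ) + 1 ∧ s ≤ (m : ℤ) - 1 := by
  have hp2 : p ≠ 2 := by
    have := h.hp
    omega
  exact s4705z_vals_core p
    (fun x t hx ht htx χ hχ m₁ hm => Cfsg.Agent.Helper15.s4705z_mult p hp2 x t hx ht htx χ hχ m₁ hm)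
    x ζ h S a X₁ X₂ Y T m δ X Y' T' t ht htx

/-- ATRIV -/
theorem s4705_atriv (p : ℕ) [Fact p.Prime] (x : H)
    (ζ : H → ℂ) (h : S4705Wk p x ζ) (hperf : commutator H = ⊤) (S : S4705Shape p x ζ)
    (a : ℕ) (X₁ X₂ : Cfsg.IrrCharacter H) (Y : Finset (Cfsg.IrrCharacter H))
    (T : S4705TabL p x ζ a X₁ X₂ Y)
    (m : ℕ) (δ : ℤ) (X : Cfsg.IrrCharacter H) (Y' : Finset (Cfsg.IrrCharacter H))
    (T' : S4705Tab1 p x m δ X Y') : a = 0 := by
  by_contra ha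
  have ha1 : 1 ≤ a := Nat.one_le_iff_ne_zero.mpr ha
  have hpp : p.Prime := Fact.out
  have hp5 := h.hp
  have hp7 : 7 ≤ p := by
    rcases Nat.lt_or_ge p 7 with h6 | h7
    · have h66 : p = 6 := by omega
      rw [h66] at hpp
      exact absurd hpp (by norm_num)
    · exact h7
  have hodd := Cfsg.Agent.Helper15.s4705z_odd p x ζ h hperf
  obtain ⟨t, ht, htx⟩ := Cfsg.Agent.Helper87.s4705z_tau p x ζ h S hodd
  have htreg : ¬ p ∣ orderOf t := by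
    intro hd
    have h2 : orderOf t ∣ 2 := orderOf_dvd_of_pow_eq_one (by rw [pow_two]; exact ht)
    have h3 := Nat.le_of_dvd (by norm_num) (hd.trans h2)
    omega
  have hF := Cfsg.Agent.Helper8.s4705z_frob p x ζ h S hodd t ht
  rw [Cfsg.Agent.Helper39.s4705z_sumL p x ζ h a X₁ X₂ Y T t htreg,
    Cfsg.Agent.Helper39.s4705z_sum1 p x m δ X Y' T' t htreg] at hF
  obtain ⟨s₁, e, s, h1, h2, h3, he, hs1, hs⟩ :=
    s4705z_vals p x ζ h S a X₁ X₂ Y T m δ X Y' T' t ht htx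
  have hX₂t : (X₂ : H → ℂ) t = (s₁ : ℂ) + (e : ℂ) := by
    have := T.reg t htreg
    rw [h1, h2] at this
    linear_combination this
  have hX₂1 : (X₂ : H → ℂ) 1 = (((a + 1) * p : ℕ) : ℂ) - 1 := eq_sub_of_add_eq T.deg₂
  have hζ1 : ζ 1 = (p : ℂ) - 2 := by
    have e1 := Cfsg.Agent.Helper81.irr_one_eq_charDegree ⟨ζ, h.hζ⟩
    have e2 : ((Cfsg.charDegree ζ + 2 : ℕ) : ℂ) = (p : ℂ) := by rw [h.hdeg]
    push_cast at e2
    rw [show ζ 1 = (Cfsg.charDegree ζ : ℂ) from e1]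
    linear_combination e2
  rw [h1, h2, h3, hX₂t, T.deg₁, hX₂1, hζ1, T'.deg] at hF
  exact Cfsg.Agent.Helper87.s4705z_alg p a m hp7 ha1 T'.hm s₁ e s δ he T'.hδ hs1 hs hF

end Cfsg.Agent.Helper79
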