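import Mathlib
import Cfsg.Agent.S0996
import Cfsg.Agent.Helper5.SLCard

/-!
# S4705, stage IDENT (helper79, double): a perfect group of order `p (p-1) (p-2)` with a
self-centralizing inverted element of order `p > 5` is `SL(2, 2^a)`, `p = 2^a + 1` (via S0996).
-/

set_option autoImplicit false
open Cfsg

universe u

namespace Cfsg.Agent.Helper79

/-- IDENT -/
theorem s4705_ident {H : Type u} [Group H] [Finite H] (p : ℕ) [Fact p.Prime] (hp : 5 < p)
    (x : H) (hx : orderOf x = p) (hperf : commutator H = ⊤)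
    (hZ : Subgroup.center H = ⊥)
    (hcent : ∀ g : H, g * x = x * g → ∃ i : ℕ, ∃ z ∈ Subgroup.center H, g = x ^ i * z)
    (hinv : ∃ t : H, t * x * t⁻¹ = x⁻¹)
    (hcard : Nat.card H = p * (p - 1) * (p - 2)) :
    ∃ (a : ℕ) (F : Type) (_ : Field F) (_ : Fintype F), p = 2 ^ a + 1 ∧
      Fintype.card F = 2 ^ a ∧ Nonempty (H ≃* Matrix.SpecialLinearGroup (Fin 2) F) := by
  have hpp : p.Prime := Fact.out
  -- the centralizer of `x`
  have hC : Subgroup.centralizer ({x} : Set H) = Subgroup.zpowers x := by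
    ext g
    rw [Subgroup.mem_centralizer_iff]
    constructor
    · intro hg
      have h1 : g * x = x * g := (hg x (Set.mem_singleton x)).symm
      obtain ⟨i, z, hz, rfl⟩ := hcent g h1
      rw [hZ, Subgroup.mem_bot] at hz
      rw [hz, mul_one]
      exact Subgroup.npow_mem_zpowers x i
    · intro hg y hy
      rw [Set.mem_singleton_iff] at hy
      subst hy
      obtain ⟨k, rfl⟩ := Subgroup.mem_zpowers_iff.mp hg
      exact (Commute.zpow_right (Commute.refl y) k).eq
  -- a Sylow `p`-subgroup equal to `⟨x⟩`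
  have hsq : ¬ p ^ 2 ∣ Nat.card H := by
    rw [hcard]
    intro hd
    have h1 : p ∣ (p - 1) * (p - 2) := by
      have h2 : p * p ∣ p * ((p - 1) * (p - 2)) := by
        rw [← mul_assoc, ← pow_two]; exact hd
      exact Nat.dvd_of_mul_dvd_mul_left hpp.pos h2
    rcases (Nat.Prime.dvd_mul hpp).mp h1 with h3 | h3
    · have := Nat.le_of_dvd (by omega) h3
      omega
    · have := Nat.le_of_dvd (by omega) h3
      omega
  obtain ⟨P, hP⟩ : ∃ P : Sylow p H, (P : Subgroup H) = Subgroup.zpowers x := by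
    have hpg : IsPGroup p (Subgroup.zpowers x) := by
      apply IsPGroup.of_card (n := 1)
      rw [Nat.card_zpowers, hx, pow_one]
    obtain ⟨P, hP⟩ := hpg.exists_le_sylow
    refine ⟨P, ?_⟩
    symm
    apply Subgroup.eq_of_le_of_card_ge hP
    rw [Nat.card_zpowers, hx]
    obtain ⟨k, hk⟩ := IsPGroup.iff_card.mp P.2
    have hdvd : p ^ k ∣ Nat.card H := by
      rw [← hk]
      exact Subgroup.card_subgroup_dvd_card _
    have hk2 : k < 2 := by
      by_contra hcon
      exact hsq ((pow_dvd_pow p (by omega)).trans hdvd)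
    rw [hk]
    calc p ^ k ≤ p ^ 1 := Nat.pow_le_pow_right hpp.pos (by omega)
      _ = p := pow_one p
  -- the normalizer has order at least `2 p`
  obtain ⟨t, ht⟩ := hinv
  have htN : t ∈ Subgroup.normalizer ((P : Subgroup H) : Set H) := by
    have hconj : ∀ n : H, n ∈ (P : Subgroup H) → t * n * t⁻¹ ∈ (P : Subgroup H) := by
      intro n hn
      rw [hP] at hn ⊢
      obtain ⟨k, rfl⟩ := Subgroup.mem_zpowers_iff.mp hn
      have h1 : t * x ^ k * t⁻¹ = (t * x * t⁻¹) ^ k := by
        rw [conj_zpow]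
      rw [h1, ht]
      exact Subgroup.zpow_mem _ (Subgroup.inv_mem _ (Subgroup.mem_zpowers x)) k
    have hconj' : ∀ n : H, n ∈ (P : Subgroup H) → t⁻¹ * n * t⁻¹⁻¹ ∈ (P : Subgroup H) := by
      intro n hn
      rw [hP] at hn ⊢
      obtain ⟨k, rfl⟩ := Subgroup.mem_zpowers_iff.mp hn
      have h0 : t⁻¹ * x * t⁻¹⁻¹ = x⁻¹ := by
        have h2 : t * x⁻¹ * t⁻¹ = x := by
          have h3 := congrArg Inv.inv ht
          rw [inv_inv] at h3
          calc t * x⁻¹ * t⁻¹ = (t * x * t⁻¹)⁻¹ := by group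
            _ = x := h3
        rw [inv_inv]
        calc t⁻¹ * x * t = t⁻¹ * (t * x⁻¹ * t⁻¹) * t := by rw [h2]
          _ = x⁻¹ := by group
      have h1 : t⁻¹ * x ^ k * t⁻¹⁻¹ = (t⁻¹ * x * t⁻¹⁻¹) ^ k := by
        rw [conj_zpow]
      rw [h1, h0]
      exact Subgroup.zpow_mem _ (Subgroup.inv_mem _ (Subgroup.mem_zpowers x)) k
    rw [Subgroup.mem_normalizer_iff]
    intro n
    constructor
    · exact hconj n
    · intro hn
      have := hconj' _ hn
      have e : t⁻¹ * (t * n * t⁻¹) * t⁻¹⁻¹ = n := by group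
      rwa [e] at this
  have htP : t ∉ (P : Subgroup H) := by
    intro htP
    rw [hP] at htP
    obtain ⟨k, rfl⟩ := Subgroup.mem_zpowers_iff.mp htP
    have h1 : x ^ k * x * (x ^ k)⁻¹ = x := by group
    rw [h1] at ht
    have h2 : x ^ 2 = 1 := by
      rw [pow_two]
      nth_rewrite 1 [ht]
      exact inv_mul_cancel x
    have h3 := orderOf_dvd_of_pow_eq_one h2
    rw [hx] at h3
    have := Nat.le_of_dvd (by norm_num) h3
    omega
  have hPN : (P : Subgroup H) ≤ Subgroup.normalizer ((P : Subgroup H) : Set H) :=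
    Subgroup.le_normalizer
  have hNcard : 2 * p ≤ Nat.card (Subgroup.normalizer ((P : Subgroup H) : Set H)) := by
    have hPcard : Nat.card (P : Subgroup H) = p := by rw [hP, Nat.card_zpowers, hx]
    have hdvd : p ∣ Nat.card (Subgroup.normalizer ((P : Subgroup H) : Set H)) := by
      have h0 := Subgroup.card_dvd_of_le hPN
      rwa [hPcard] at h0
    obtain ⟨c, hc⟩ := hdvd
    have hc0 : c ≠ 0 := by
      rintro rfl
      rw [mul_zero] at hc
      exact Nat.card_pos.ne' hc
    have hc1 : c ≠ 1 := by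
      rintro rfl
      rw [mul_one] at hc
      apply htP
      have : (P : Subgroup H) = Subgroup.normalizer ((P : Subgroup H) : Set H) :=
        Subgroup.eq_of_le_of_card_ge hPN (by rw [hc, hPcard])
      rw [this]
      exact htN
    have hc2 : 2 ≤ c := by omega
    rw [hc]
    calc 2 * p = p * 2 := mul_comm _ _
      _ ≤ p * c := Nat.mul_le_mul_left p hc2
  have hn : 2 * Nat.card (Sylow p H) < (p + 1) * (p + 2) := by
    have h1 : Nat.card (Sylow p H) = (Subgroup.normalizer ((P : Subgroup H) : Set H)).index :=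
      Sylow.card_eq_index_normalizer P
    have h2 := Subgroup.card_mul_index (Subgroup.normalizer ((P : Subgroup H) : Set H))
    rw [← h1, hcard] at h2
    have h3 : 2 * p * Nat.card (Sylow p H) ≤ p * (p - 1) * (p - 2) := by
      rw [← h2]
      exact Nat.mul_le_mul_right _ hNcard
    have h4 : p * (2 * Nat.card (Sylow p H)) ≤ p * ((p - 1) * (p - 2)) := by
      calc p * (2 * Nat.card (Sylow p H)) = 2 * p * Nat.card (Sylow p H) := by ring
        _ ≤ p * (p - 1) * (p - 2) := h3
        _ = p * ((p - 1) * (p - 2)) := by ring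
    have h5 := Nat.le_of_mul_le_mul_left h4 hpp.pos
    have h6 : (p - 1) * (p - 2) < (p + 1) * (p + 2) := by
      have : p - 1 < p + 1 := by omega
      have : p - 2 < p + 2 := by omega
      exact Nat.mul_lt_mul_of_lt_of_le ‹p - 1 < p + 1› (by omega) (by omega)
    omega
  rcases Cfsg.Agent.S0996.result hperf p x hx hC hn with
    ⟨F, iF, iFt, hcF, -, ⟨e⟩⟩ | ⟨m, F, iF, iFt, hcF, hpm, -, ⟨e⟩⟩
  · -- `|F| = p`: orders do not match
    exfalso
    have h1 := Cfsg.Agent.Helper5.card_PSL2_mul (F := F)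
    have hcz : ((Fintype.card F : ℕ) : F) = 0 := FiniteField.cast_card_eq_zero F
    have h2ne : (2 : F) ≠ 0 := by
      intro h2
      rw [hcF] at hcz
      obtain ⟨j, hj⟩ : ∃ j, p = 2 * j + 1 := by
        rcases Nat.even_or_odd p with he | ho
        · exfalso
          have := (Nat.Prime.even_iff hpp).mp he
          omega
        · exact ho
      rw [hj] at hcz
      push_cast at hcz
      rw [h2, zero_mul, zero_add] at hcz
      exact one_ne_zero hcz
    rw [Cfsg.Agent.Helper5.card_center_SL2 h2ne, ← Nat.card_congr e.toEquiv, hcard, hcF] at h1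
    obtain ⟨k, hk⟩ : ∃ k, p = k + 6 := ⟨p - 6, by omega⟩
    rw [hk] at h1
    have e1 : (k + 6) ^ 2 - 1 = (k + 5) * (k + 7) := by
      have : (k + 6) ^ 2 = (k + 5) * (k + 7) + 1 := by ring
      omega
    have e2 : k + 6 - 1 = k + 5 := by omega
    have e3 : k + 6 - 2 = k + 4 := by omega
    rw [e1, e2, e3] at h1
    have e4 : (k + 6) * (k + 5) * (k + 4) * 2
        = (k + 6) * ((k + 5) * (k + 7)) + (k + 6) * (k + 5) * (k + 1) := by ring
    have e5 : 0 < (k + 6) * (k + 5) * (k + 1) := by positivity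
    omega
  · -- `|F| = 2 ^ m`
    have h2 : (2 : F) = 0 := by
      have hcz : ((Fintype.card F : ℕ) : F) = 0 := FiniteField.cast_card_eq_zero F
      rw [hcF] at hcz
      push_cast at hcz
      have hm0 : m ≠ 0 := by
        rintro rfl
        rw [pow_zero] at hpm
        omega
      exact (pow_eq_zero_iff hm0).mp hcz
    have hbot := Cfsg.Agent.Helper5.center_SL2_eq_bot (F := F) h2
    refine ⟨m, F, iF, iFt, hpm, hcF, ⟨e.trans ?_⟩⟩
    exact (QuotientGroup.quotientMulEquivOfEq hbot).trans QuotientGroup.quotientBot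

end Cfsg.Agent.Helper79
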