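import Mathlib
import Cfsg.Agent.Helper9.BRDefs
import Cfsg.Agent.Helper79.PrimeDeg
import Cfsg.Agent.Helper67.BRK5
import Cfsg.Agent.Helper78.Counting

/-!
# S0997, piece DEG7 (helper79)

In a non-cyclic simple group of order `p * q ^ b * g₀` with `g₀ < p - 1`, the exceptional
characters of the principal `p`-block have a common degree `f ∣ g₀`, and the degrees of the
non-exceptional characters are divisible by `q`.
-/

set_option autoImplicit false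
open Cfsg
open scoped ComplexConjugate

universe u

namespace Cfsg.Agent.Helper79

/-- DEG7 -/
theorem s997_deg {G : Type u} [Group G] [Fintype G] [IsSimpleGroup G] (hG : ¬ IsCyclic G)
    {p : ℕ} [Fact p.Prime] {M : Ideal Cfsg.AlgInt} (P : Sylow p G) (e : ℕ)
    (T : Cfsg.Agent.Helper9.BRTab p M P e) (he2 : 2 ≤ e) (hed : e ∣ p - 1)
    (q b g₀ : ℕ) (hq : q.Prime) (hpq : p ≠ q) (hcard : Nat.card G = p * q ^ b * g₀)
    (hg : g₀ < p - 1) :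
    ∃ f : ℕ, 3 ≤ f ∧ f ∣ g₀ ∧ (∀ θ ∈ T.Y, Cfsg.charDegree (θ : G → ℂ) = f) ∧ T.Y.Nonempty ∧
      (∀ χ ∈ T.X1, q ∣ Cfsg.charDegree (χ : G → ℂ) ∧
        Cfsg.charDegree (χ : G → ℂ) ∣ q ^ b * g₀) ∧
      (∀ χ ∈ T.X2, q ∣ Cfsg.charDegree (χ : G → ℂ) ∧
        Cfsg.charDegree (χ : G → ℂ) ∣ q ^ b * g₀) ∧
      ((T.ε = 1 ∧ e = f) ∨ (T.ε = -1 ∧ e + f = p)) := by
  classical
  have hpp : p.Prime := Fact.out
  have hp2 := hpp.two_le
  have hnc : ¬ ∀ a b : G, a * b = b * a := by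
    intro hc
    let _ : CommGroup G := { ‹Group G› with mul_comm := hc }
    exact hG (IsSimpleGroup.isCyclic)
  have hperf : commutator G = ⊤ := simple_commutator_eq_top hnc
  have hp1 : 0 < p - 1 := by omega
  have hele : e ≤ p - 1 := Nat.le_of_dvd hp1 hed
  have hg0 : 0 < g₀ := by
    rcases Nat.eq_zero_or_pos g₀ with h | h
    · exfalso
      rw [h, mul_zero] at hcard
      exact (Nat.card_pos (α := G)).ne' hcard
    · exact h
  have hYne : T.Y.Nonempty := by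
    rw [← Finset.card_pos, T.hcardY]
    exact Nat.div_pos hele (by omega)
  obtain ⟨θ₀, hθ₀⟩ := hYne
  have h1ord : ¬ p ∣ orderOf (1 : G) := by
    rw [orderOf_one]
    intro h
    have := Nat.le_of_dvd one_pos h
    omega
  have hdvd : ∀ χ : Cfsg.IrrCharacter G, Cfsg.charDegree (χ : G → ℂ) ∣ p * q ^ b * g₀ :=
    fun χ => hcard ▸ Cfsg.Agent.Helper78.charDegree_dvd_card χ
  have hdvd' : ∀ χ : Cfsg.IrrCharacter G, ¬ p ∣ Cfsg.charDegree (χ : G → ℂ) →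
      Cfsg.charDegree (χ : G → ℂ) ∣ q ^ b * g₀ := by
    intro χ hpd
    have hcop : Nat.Coprime (Cfsg.charDegree (χ : G → ℂ)) p :=
      Nat.Coprime.symm ((Nat.Prime.coprime_iff_not_dvd hpp).mpr hpd)
    have h0 : Cfsg.charDegree (χ : G → ℂ) ∣ p * (q ^ b * g₀) := by
      rw [← mul_assoc]; exact hdvd χ
    exact hcop.dvd_of_dvd_mul_left h0
  have hkey : ∀ d : ℕ, d ∣ q ^ b * g₀ → ¬ q ∣ d → d ∣ g₀ := by
    intro d hd hqd
    have hcop : Nat.Coprime d (q ^ b) :=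
      Nat.Coprime.pow_right b (Nat.Coprime.symm ((Nat.Prime.coprime_iff_not_dvd hq).mpr hqd))
    exact hcop.dvd_of_dvd_mul_left hd
  have hpZ : (1 : ℤ) < (p : ℤ) := by exact_mod_cast hpp.one_lt
  have hno1 : ¬ (p : ℤ) ∣ 1 := by
    intro h
    have := Int.le_of_dvd one_pos h
    omega
  have hpX1 : ∀ χ ∈ T.X1, ¬ p ∣ Cfsg.charDegree (χ : G → ℂ) := by
    intro χ hχ hdiv
    have h1 := Int.modEq_iff_dvd.mp (T.hX1 χ hχ).1
    have h2 : (p : ℤ) ∣ (Cfsg.charDegree (χ : G → ℂ) : ℤ) := by exact_mod_cast hdiv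
    have h3 := dvd_add h1 h2
    rw [sub_add_cancel] at h3
    exact hno1 h3
  have hpX2 : ∀ χ ∈ T.X2, ¬ p ∣ Cfsg.charDegree (χ : G → ℂ) := by
    intro χ hχ hdiv
    have h1 := Int.modEq_iff_dvd.mp (T.hX2 χ hχ).1
    have h2 : (p : ℤ) ∣ (Cfsg.charDegree (χ : G → ℂ) : ℤ) := by exact_mod_cast hdiv
    have h3 := dvd_add h1 h2
    rw [sub_add_cancel] at h3
    exact hno1 ((dvd_neg (a := (p : ℤ)) (b := (1 : ℤ))).mp h3)
  have hεu : IsUnit T.ε := by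
    rcases T.hε with h | h <;> rw [h] <;> simp
  have hpe : ¬ (p : ℤ) ∣ (e : ℤ) := by
    intro h
    have h1 : p ∣ e := by exact_mod_cast h
    have := Nat.le_of_dvd (by omega) h1
    omega
  have hpY : ∀ χ ∈ T.Y, ¬ p ∣ Cfsg.charDegree (χ : G → ℂ) := by
    intro χ hχ hdiv
    have h1 := Int.modEq_iff_dvd.mp (T.hYdeg χ hχ)
    have h2 : (p : ℤ) ∣ (Cfsg.charDegree (χ : G → ℂ) : ℤ) := by exact_mod_cast hdiv
    have h3 := dvd_add h1 h2
    rw [sub_add_cancel] at h3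
    exact hpe ((hεu.dvd_mul_left).mp h3)
  have hge2 : ∀ χ : Cfsg.IrrCharacter G, χ ≠ Cfsg.Agent.Helper81.trivIrr G →
      2 ≤ Cfsg.charDegree (χ : G → ℂ) :=
    fun χ hχ => Cfsg.Agent.Helper67.br_perfect_deg hperf χ hχ
  have hg0Z : (g₀ : ℤ) + 1 < (p : ℤ) := by
    have : g₀ + 1 < p := by omega
    exact_mod_cast this
  -- the non-exceptional degrees are divisible by q
  have hqX1 : ∀ χ ∈ T.X1, q ∣ Cfsg.charDegree (χ : G → ℂ) := by
    intro χ hχ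
    by_contra hqd
    have hd := hkey _ (hdvd' χ (hpX1 χ hχ)) hqd
    have hle := Nat.le_of_dvd hg0 hd
    have h2 := hge2 χ (fun h' => T.h1X1 (h' ▸ hχ))
    have h1 := Int.modEq_iff_dvd.mp (T.hX1 χ hχ).1
    obtain ⟨k, hk⟩ := h1
    have hleZ : (Cfsg.charDegree (χ : G → ℂ) : ℤ) ≤ (g₀ : ℤ) := by exact_mod_cast hle
    have h2Z : (2 : ℤ) ≤ (Cfsg.charDegree (χ : G → ℂ) : ℤ) := by exact_mod_cast h2
    rcases le_or_gt 0 k with hk0 | hk0
    · nlinarith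
    · nlinarith
  have hqX2 : ∀ χ ∈ T.X2, q ∣ Cfsg.charDegree (χ : G → ℂ) := by
    intro χ hχ
    by_contra hqd
    have hd := hkey _ (hdvd' χ (hpX2 χ hχ)) hqd
    have hle := Nat.le_of_dvd hg0 hd
    have h2 := hge2 χ (fun h' => T.h1X2 (h' ▸ hχ))
    have h1 := Int.modEq_iff_dvd.mp (T.hX2 χ hχ).1
    obtain ⟨k, hk⟩ := h1
    have hleZ : (Cfsg.charDegree (χ : G → ℂ) : ℤ) ≤ (g₀ : ℤ) := by exact_mod_cast hle
    have h2Z : (2 : ℤ) ≤ (Cfsg.charDegree (χ : G → ℂ) : ℤ) := by exact_mod_cast h2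
    rcases le_or_gt 0 k with hk0 | hk0
    · nlinarith
    · nlinarith
  -- the relation at 1
  have hrelZ : T.ε * (Cfsg.charDegree (θ₀ : G → ℂ) : ℤ)
      = 1 + ∑ χ ∈ T.X1, (Cfsg.charDegree (χ : G → ℂ) : ℤ)
        - ∑ χ ∈ T.X2, (Cfsg.charDegree (χ : G → ℂ) : ℤ) := by
    have h := T.hrel θ₀ hθ₀ 1 h1ord
    simp only [Cfsg.Agent.Helper81.irr_one_eq_charDegree] at h
    exact_mod_cast h
  have hqθ : ¬ q ∣ Cfsg.charDegree (θ₀ : G → ℂ) := by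
    intro hcon
    have h0 : (q : ℤ) ∣ (Cfsg.charDegree (θ₀ : G → ℂ) : ℤ) := by exact_mod_cast hcon
    have h1 : (q : ℤ) ∣ ∑ χ ∈ T.X1, (Cfsg.charDegree (χ : G → ℂ) : ℤ) :=
      Finset.dvd_sum (fun χ hχ => by exact_mod_cast hqX1 χ hχ)
    have h2 : (q : ℤ) ∣ ∑ χ ∈ T.X2, (Cfsg.charDegree (χ : G → ℂ) : ℤ) :=
      Finset.dvd_sum (fun χ hχ => by exact_mod_cast hqX2 χ hχ)
    have h3 : (q : ℤ) ∣ T.ε * (Cfsg.charDegree (θ₀ : G → ℂ) : ℤ) := Dvd.dvd.mul_left h0 _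
    have h4 : (q : ℤ) ∣ 1 := by
      have h5 : (1 : ℤ) = T.ε * (Cfsg.charDegree (θ₀ : G → ℂ) : ℤ)
          - ∑ χ ∈ T.X1, (Cfsg.charDegree (χ : G → ℂ) : ℤ)
          + ∑ χ ∈ T.X2, (Cfsg.charDegree (χ : G → ℂ) : ℤ) := by rw [hrelZ]; ring
      rw [h5]
      exact dvd_add (dvd_sub h3 h1) h2
    have h6 : q ∣ 1 := by exact_mod_cast h4
    have := Nat.le_of_dvd one_pos h6
    have := hq.two_le
    omega
  have hfg : Cfsg.charDegree (θ₀ : G → ℂ) ∣ g₀ := hkey _ (hdvd' θ₀ (hpY θ₀ hθ₀)) hqθ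
  have hfle := Nat.le_of_dvd hg0 hfg
  have hf2 := hge2 θ₀ (fun h' => T.h1Y (h' ▸ hθ₀))
  have hf3 : 3 ≤ Cfsg.charDegree (θ₀ : G → ℂ) := by
    by_contra hlt
    exact simple_no_degree_two hnc θ₀ (by omega)
  have hall : ∀ θ' ∈ T.Y, Cfsg.charDegree (θ' : G → ℂ) = Cfsg.charDegree (θ₀ : G → ℂ) := by
    intro θ' hθ'
    have h1 := T.hYreg θ' hθ' θ₀ hθ₀ 1 h1ord
    rw [Cfsg.Agent.Helper81.irr_one_eq_charDegree, Cfsg.Agent.Helper81.irr_one_eq_charDegree]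
      at h1
    exact_mod_cast h1
  refine ⟨Cfsg.charDegree (θ₀ : G → ℂ), hf3, hfg, hall, ⟨θ₀, hθ₀⟩,
    fun χ hχ => ⟨hqX1 χ hχ, hdvd' χ (hpX1 χ hχ)⟩,
    fun χ hχ => ⟨hqX2 χ hχ, hdvd' χ (hpX2 χ hχ)⟩, ?_⟩
  have h1 := Int.modEq_iff_dvd.mp (T.hYdeg θ₀ hθ₀)
  have heZ2 : (2 : ℤ) ≤ (e : ℤ) := by exact_mod_cast he2
  have heZp : (e : ℤ) < (p : ℤ) := by
    have : e < p := by omega
    exact_mod_cast this
  have hrZ1 : (3 : ℤ) ≤ (Cfsg.charDegree (θ₀ : G → ℂ) : ℤ) := by exact_mod_cast hf3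
  have hrZp : (Cfsg.charDegree (θ₀ : G → ℂ) : ℤ) + 1 < (p : ℤ) := by
    have : Cfsg.charDegree (θ₀ : G → ℂ) + 1 < p := by omega
    exact_mod_cast this
  rcases T.hε with hε | hε
  · left
    refine ⟨hε, ?_⟩
    rw [hε, one_mul] at h1
    obtain ⟨k, hk⟩ := h1
    have hk0 : k = 0 := by
      rcases lt_trichotomy k 0 with hk0 | hk0 | hk0
      · nlinarith
      · exact hk0
      · nlinarith
    rw [hk0, mul_zero] at hk
    have : (e : ℤ) = (Cfsg.charDegree (θ₀ : G → ℂ) : ℤ) := by linarith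
    exact_mod_cast this
  · right
    refine ⟨hε, ?_⟩
    rw [hε] at h1
    obtain ⟨k, hk⟩ := h1
    have hk1 : k = -1 := by
      rcases lt_trichotomy k (-1) with hk0 | hk0 | hk0
      · nlinarith
      · exact hk0
      · nlinarith
    rw [hk1] at hk
    have : (e : ℤ) + (Cfsg.charDegree (θ₀ : G → ℂ) : ℤ) = (p : ℤ) := by linarith
    exact_mod_cast this

end Cfsg.Agent.Helper79
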