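import Mathlib
import Cfsg.Agent.Helper3.Burnside
import Cfsg.Agent.Helper3.Burnside2
import Cfsg.Agent.Helper12.S997INT
import Cfsg.Agent.Helper81.CharBasic

/-!
# S0997, piece ZTH (helper79, backup copy)

In a non-abelian simple group, a nonlinear irreducible character satisfies `|θ(g)| < θ(1)` for
`g ≠ 1`.
-/

set_option autoImplicit false
open Cfsg
open scoped ComplexConjugate

universe u

namespace Cfsg.Agent.Helper79

/-- ZTH -/
theorem s997_norm_lt {G : Type u} [Group G] [Finite G] [IsSimpleGroup G]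
    (hnc : ¬ ∀ a b : G, a * b = b * a) (θ : Cfsg.IrrCharacter G)
    (hθ : Cfsg.charDegree (θ : G → ℂ) ≠ 1) (g : G) (hg : g ≠ 1) :
    ‖(θ : G → ℂ) g‖ < (Cfsg.charDegree (θ : G → ℂ) : ℝ) := by
  classical
  obtain ⟨n, ρ, hρ, hχeq⟩ := θ.2
  have := hρ
  have hfin : Module.finrank ℂ (Fin n → ℂ) = Cfsg.charDegree (θ : G → ℂ) := by
    have h1 : (θ : G → ℂ) 1 = (Module.finrank ℂ (Fin n → ℂ) : ℂ) := by
      rw [← hχeq, Representation.char_one]
    have h2 := Cfsg.Agent.Helper81.irr_one_eq_charDegree θ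
    rw [h1] at h2
    exact_mod_cast h2
  have hle : ‖ρ.character g‖ ≤ (Module.finrank ℂ (Fin n → ℂ) : ℝ) := by
    obtain ⟨b, ζ, h1, h2, h3⟩ := Cfsg.Agent.Helper3.rep_exists_eigenbasis ρ g
    have hζ : ∀ i, ‖ζ i‖ = 1 := fun i =>
      Complex.norm_eq_one_of_pow_eq_one (h1 i) (orderOf_pos g).ne'
    rw [h3]
    calc ‖∑ i, ζ i‖ ≤ ∑ i, ‖ζ i‖ := norm_sum_le _ _
      _ = (Module.finrank ℂ (Fin n → ℂ) : ℝ) := by simp [hζ]
  rw [← hfin, ← hχeq]
  rcases lt_or_eq_of_le hle with h | h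
  · exact h
  · exfalso
    obtain ⟨ω, hω⟩ := Cfsg.Agent.Helper3.rep_scalar_of_norm_eq ρ g h
    exact Cfsg.Agent.Helper12.s997_no_scalar hnc ρ (by rw [hfin]; exact hθ) g hg ω hω

end Cfsg.Agent.Helper79
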