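import Mathlib
import Cfsg.Agent.Helper9.BRDefs
import Cfsg.Agent.Helper67.BRK5
import Cfsg.Agent.Helper80.CharOrtho
import Cfsg.Agent.Helper57.S998DEC
import Cfsg.Agent.Helper11.S998MULT
import Cfsg.Agent.Helper66.S998MPX
import Cfsg.Agent.Helper75.S998PSUM

/-!
# S0998, the budget lemma (helper79)

For two distinct exceptional characters `θ, θ'` of the principal `p`-block (`|P| = p`,
`C(P) = P`), the decompositions of `θ θ̄` and `θ' θ̄`, summed over `P` and evaluated at `1`, bound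
the degrees of the non-exceptional characters of the block.
-/

set_option autoImplicit false
open Cfsg
open scoped ComplexConjugate

universe u

namespace Cfsg.Agent.Helper79

/-- BUD -/
theorem s998_budget {G : Type u} [Group G] [Fintype G] [DecidableEq G] {p : ℕ} [Fact p.Prime]
    {M : Ideal Cfsg.AlgInt} (hM : Cfsg.IsPModular p M) (P : Sylow p G)
    (hP : Nat.card (P : Subgroup G) = p) (e t f : ℕ)
    (hvan : ∀ g : G, p ∣ orderOf g → ∃ a : G, a * g * a⁻¹ ∈ (P : Subgroup G))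
    (hpart : ∀ F : G → ℂ, (∀ a g : G, F (a * g * a⁻¹) = F g) →
      ((p * e : ℕ) : ℂ) * ∑ g : G, (if p ∣ orderOf g then F g else 0)
        = (Nat.card G : ℂ) * ∑ᶠ x : (P : Subgroup G), (if (x : G) = 1 then 0 else F (x : G)))
    (T : Cfsg.Agent.Helper9.BRTab p M P e) (het : e * t = p - 1) (ht : 2 ≤ t)
    (hf : ∀ θ ∈ T.Y, Cfsg.charDegree (θ : G → ℂ) = f) :
    ((p : ℤ) + ∑ χ ∈ T.X1, ((Cfsg.charDegree (χ : G → ℂ) : ℤ) + ((p : ℤ) - 1))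
        ≤ (f : ℤ) ^ 2 + (e : ℤ) * ((p : ℤ) - (e : ℤ))) ∧
    (∑ χ ∈ T.X2, ((Cfsg.charDegree (χ : G → ℂ) : ℤ) - ((p : ℤ) - 1))
        ≤ (f : ℤ) ^ 2 - (e : ℤ) ^ 2) ∧
    (1 + ∑ χ ∈ T.X1, (Cfsg.charDegree (χ : G → ℂ) : ℤ) ≤ (f : ℤ) ^ 2) ∧
    (∑ χ ∈ T.X2, (Cfsg.charDegree (χ : G → ℂ) : ℤ) ≤ (f : ℤ) ^ 2) := by
  classical
  have hpp : p.Prime := Fact.out
  have hp2 := hpp.two_le
  letI : Fintype (Cfsg.IrrCharacter G) := Fintype.ofFinite _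
  letI : Fintype (P : Subgroup G) := Fintype.ofFinite _
  have he0 : 0 < e := by
    rcases Nat.eq_zero_or_pos e with h | h
    · rw [h, zero_mul] at het; omega
    · exact h
  have hYcard : T.Y.card = t := by
    rw [T.hcardY, ← het]; exact Nat.mul_div_cancel_left t he0
  obtain ⟨θ, hθ, θ', hθ', hne⟩ : ∃ θ ∈ T.Y, ∃ θ' ∈ T.Y, θ ≠ θ' :=
    Finset.one_lt_card.mp (by omega)
  obtain ⟨c, hc, hcs⟩ := Cfsg.Agent.Helper57.s998_dec θ θ
  obtain ⟨c', hc', hcs'⟩ := Cfsg.Agent.Helper57.s998_dec θ' θ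
  obtain ⟨hm1, hm2⟩ := Cfsg.Agent.Helper11.s998_mult P e hvan T θ θ' hθ hθ' hne
  obtain ⟨hmP, hmtriv, hmX1, hmX2⟩ := Cfsg.Agent.Helper66.s998_mP P hP e T
  have hps := Cfsg.Agent.Helper75.s998_psum hM P hP e t f hpart T het hf θ θ hθ hθ
  have hps' := Cfsg.Agent.Helper75.s998_psum hM P hP e t f hpart T het hf θ' θ hθ' hθ
  rw [if_pos rfl] at hps
  rw [if_neg (Ne.symm hne)] at hps'
  have hG0 : (Nat.card G : ℂ) ≠ 0 := by
    exact_mod_cast (Nat.card_pos (α := G)).ne'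
  -- multiplicities
  have hctriv : c (Cfsg.Agent.Helper81.trivIrr G) = 1 := by
    have h1 := hcs (Cfsg.Agent.Helper81.trivIrr G)
    have h2 : ∑ g : G, (θ : G → ℂ) g * conj ((θ : G → ℂ) g)
        * conj ((Cfsg.Agent.Helper81.trivIrr G : G → ℂ) g) = (Nat.card G : ℂ) := by
      have h3 := Cfsg.Agent.Helper80.irr_orthogonality_conj θ θ
      rw [if_pos rfl] at h3
      rw [Nat.card_eq_fintype_card, ← h3]
      refine Finset.sum_congr rfl (fun g _ => ?_)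
      rw [Cfsg.Agent.Helper81.trivIrr_apply, map_one, mul_one]
    rw [h2] at h1
    have h4 : (c (Cfsg.Agent.Helper81.trivIrr G) : ℂ) = 1 := by
      have h5 : (Nat.card G : ℂ) * 1 = (Nat.card G : ℂ) * (c (Cfsg.Agent.Helper81.trivIrr G) : ℂ) := by
        rw [mul_one]; exact h1
      exact (mul_left_cancel₀ hG0 h5).symm
    exact_mod_cast h4
  have hcX1 : ∀ χ ∈ T.X1, c χ = c' χ + 1 := by
    intro χ hχ
    have h1 := hm1 χ hχ
    rw [hcs χ, hcs' χ] at h1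
    have h2 : (Nat.card G : ℂ) * (c χ : ℂ) = (Nat.card G : ℂ) * ((c' χ : ℂ) + 1) := by
      rw [h1]; ring
    have h3 := mul_left_cancel₀ hG0 h2
    exact_mod_cast h3
  have hcX2 : ∀ χ ∈ T.X2, c' χ = c χ + 1 := by
    intro χ hχ
    have h1 := hm2 χ hχ
    rw [hcs χ, hcs' χ] at h1
    have h2 : (Nat.card G : ℂ) * (c' χ : ℂ) = (Nat.card G : ℂ) * ((c χ : ℂ) + 1) := by
      rw [h1]; ring
    have h3 := mul_left_cancel₀ hG0 h2
    exact_mod_cast h3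
  choose m hm using hmP
  have hmtriv' : p * m (Cfsg.Agent.Helper81.trivIrr G) = p := by
    have h1 := hm (Cfsg.Agent.Helper81.trivIrr G)
    rw [hmtriv] at h1
    exact_mod_cast h1.symm
  have hmX1' : ∀ χ ∈ T.X1, p * m χ = Cfsg.charDegree (χ : G → ℂ) + (p - 1) := by
    intro χ hχ
    have h1 := hm χ
    rw [hmX1 χ hχ] at h1
    have h2 : ((p * m χ : ℕ) : ℂ) = ((Cfsg.charDegree (χ : G → ℂ) + (p - 1) : ℕ) : ℂ) := by
      rw [Nat.cast_mul, ← h1, Nat.cast_add, Nat.cast_sub (by omega)]; simp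
    exact_mod_cast h2
  have hmX2' : ∀ χ ∈ T.X2, ((p * m χ : ℕ) : ℤ) = (Cfsg.charDegree (χ : G → ℂ) : ℤ) - ((p : ℤ) - 1) := by
    intro χ hχ
    have h1 := hm χ
    rw [hmX2 χ hχ] at h1
    have h2 : (((p * m χ : ℕ) : ℤ) : ℂ)
        = (((Cfsg.charDegree (χ : G → ℂ) : ℤ) - ((p : ℤ) - 1) : ℤ) : ℂ) := by
      push_cast; rw [← h1]
    exact_mod_cast h2
  -- summing a decomposition over P
  have hsumP : ∀ (k : Cfsg.IrrCharacter G → ℕ) (θ1 θ2 : Cfsg.IrrCharacter G),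
      (∀ g : G, (θ1 : G → ℂ) g * conj ((θ2 : G → ℂ) g)
        = ∑ᶠ χ : Cfsg.IrrCharacter G, (k χ : ℂ) * (χ : G → ℂ) g) →
      ∑ᶠ x : (P : Subgroup G), (θ1 : G → ℂ) (x : G) * conj ((θ2 : G → ℂ) (x : G))
        = ((∑ χ : Cfsg.IrrCharacter G, k χ * (p * m χ) : ℕ) : ℂ) := by
    intro k θ1 θ2 hk
    rw [finsum_eq_sum_of_fintype]
    rw [Finset.sum_congr rfl (fun x _ => by rw [hk (x : G), finsum_eq_sum_of_fintype] :
      ∀ x ∈ (Finset.univ : Finset (P : Subgroup G)),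
        (θ1 : G → ℂ) (x : G) * conj ((θ2 : G → ℂ) (x : G))
          = ∑ χ : Cfsg.IrrCharacter G, (k χ : ℂ) * (χ : G → ℂ) (x : G))]
    rw [Finset.sum_comm, Nat.cast_sum]
    refine Finset.sum_congr rfl (fun χ _ => ?_)
    rw [← Finset.mul_sum, ← finsum_eq_sum_of_fintype, hm χ]
    push_cast; ring
  -- evaluating a decomposition at 1
  have hsum1 : ∀ (k : Cfsg.IrrCharacter G → ℕ) (θ1 θ2 : Cfsg.IrrCharacter G),
      θ1 ∈ T.Y → θ2 ∈ T.Y →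
      (∀ g : G, (θ1 : G → ℂ) g * conj ((θ2 : G → ℂ) g)
        = ∑ᶠ χ : Cfsg.IrrCharacter G, (k χ : ℂ) * (χ : G → ℂ) g) →
      f ^ 2 = ∑ χ : Cfsg.IrrCharacter G, k χ * Cfsg.charDegree (χ : G → ℂ) := by
    intro k θ1 θ2 h1 h2 hk
    have h3 := hk 1
    rw [finsum_eq_sum_of_fintype, Cfsg.Agent.Helper81.irr_one_eq_charDegree,
      Cfsg.Agent.Helper81.irr_one_eq_charDegree, hf θ1 h1, hf θ2 h2, Complex.conj_natCast] at h3
    have h4 : ((f ^ 2 : ℕ) : ℂ)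
        = ((∑ χ : Cfsg.IrrCharacter G, k χ * Cfsg.charDegree (χ : G → ℂ) : ℕ) : ℂ) := by
      rw [Nat.cast_sum]
      push_cast
      rw [pow_two, h3]
      refine Finset.sum_congr rfl (fun χ _ => ?_)
      rw [Cfsg.Agent.Helper81.irr_one_eq_charDegree]
    exact_mod_cast h4
  have htX1 : Cfsg.Agent.Helper81.trivIrr G ∉ T.X1 := T.h1X1
  refine ⟨?_, ?_, ?_, ?_⟩
  · -- B1
    have h1 := hsumP c θ θ hc
    rw [hps] at h1
    have h2 : ((f : ℤ) ^ 2 + (e : ℤ) * ((p : ℤ) - (e : ℤ)))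
        = ((∑ χ : Cfsg.IrrCharacter G, c χ * (p * m χ) : ℕ) : ℤ) := by
      have h3 : ((((f : ℤ) ^ 2 + (e : ℤ) * ((p : ℤ) - (e : ℤ))) : ℤ) : ℂ)
          = (((∑ χ : Cfsg.IrrCharacter G, c χ * (p * m χ) : ℕ) : ℤ) : ℂ) := by
        push_cast; rw [h1]; push_cast; rfl
      exact_mod_cast h3
    rw [h2]
    have h4 : ∑ χ ∈ insert (Cfsg.Agent.Helper81.trivIrr G) T.X1, c χ * (p * m χ)
        ≤ ∑ χ : Cfsg.IrrCharacter G, c χ * (p * m χ) :=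
      Finset.sum_le_sum_of_subset (Finset.subset_univ _)
    rw [Finset.sum_insert htX1, hctriv, one_mul, hmtriv'] at h4
    have h5 : ∑ χ ∈ T.X1, (Cfsg.charDegree (χ : G → ℂ) + (p - 1))
        ≤ ∑ χ ∈ T.X1, c χ * (p * m χ) := by
      apply Finset.sum_le_sum
      intro χ hχ
      rw [hmX1' χ hχ, hcX1 χ hχ]
      nlinarith [Nat.zero_le (c' χ * (Cfsg.charDegree (χ : G → ℂ) + (p - 1)))]
    have h6 : (p : ℤ) + ∑ χ ∈ T.X1, ((Cfsg.charDegree (χ : G → ℂ) : ℤ) + ((p : ℤ) - 1))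
        = ((p + ∑ χ ∈ T.X1, (Cfsg.charDegree (χ : G → ℂ) + (p - 1)) : ℕ) : ℤ) := by
      push_cast
      rw [Nat.cast_sub (by omega)]
      simp
    rw [h6]
    exact_mod_cast (by omega : p + ∑ χ ∈ T.X1, (Cfsg.charDegree (χ : G → ℂ) + (p - 1))
      ≤ ∑ χ : Cfsg.IrrCharacter G, c χ * (p * m χ))
  · -- B2
    have h1 := hsumP c' θ' θ hc'
    rw [hps'] at h1
    have h2 : ((f : ℤ) ^ 2 - (e : ℤ) ^ 2)
        = ((∑ χ : Cfsg.IrrCharacter G, c' χ * (p * m χ) : ℕ) : ℤ) := by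
      have h3 : ((((f : ℤ) ^ 2 - (e : ℤ) ^ 2) : ℤ) : ℂ)
          = (((∑ χ : Cfsg.IrrCharacter G, c' χ * (p * m χ) : ℕ) : ℤ) : ℂ) := by
        push_cast; rw [h1]; push_cast; rfl
      exact_mod_cast h3
    rw [h2]
    have h4 : ∑ χ ∈ T.X2, c' χ * (p * m χ)
        ≤ ∑ χ : Cfsg.IrrCharacter G, c' χ * (p * m χ) :=
      Finset.sum_le_sum_of_subset (Finset.subset_univ _)
    have h5 : ∑ χ ∈ T.X2, (p * m χ) ≤ ∑ χ ∈ T.X2, c' χ * (p * m χ) := by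
      apply Finset.sum_le_sum
      intro χ hχ
      rw [hcX2 χ hχ]
      nlinarith [Nat.zero_le (c χ * (p * m χ))]
    have h6 : ∑ χ ∈ T.X2, ((Cfsg.charDegree (χ : G → ℂ) : ℤ) - ((p : ℤ) - 1))
        = ((∑ χ ∈ T.X2, (p * m χ) : ℕ) : ℤ) := by
      rw [Nat.cast_sum]
      exact Finset.sum_congr rfl (fun χ hχ => (hmX2' χ hχ).symm)
    rw [h6]
    exact_mod_cast le_trans h5 h4
  · -- B3
    have h1 := hsum1 c θ θ hθ hθ hc
    have h4 : ∑ χ ∈ insert (Cfsg.Agent.Helper81.trivIrr G) T.X1, c χ * Cfsg.charDegree (χ : G → ℂ)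
        ≤ ∑ χ : Cfsg.IrrCharacter G, c χ * Cfsg.charDegree (χ : G → ℂ) :=
      Finset.sum_le_sum_of_subset (Finset.subset_univ _)
    rw [Finset.sum_insert htX1, hctriv, one_mul, Cfsg.Agent.Helper67.br_charDegree_trivIrr,
      ← h1] at h4
    have h5 : ∑ χ ∈ T.X1, Cfsg.charDegree (χ : G → ℂ)
        ≤ ∑ χ ∈ T.X1, c χ * Cfsg.charDegree (χ : G → ℂ) := by
      apply Finset.sum_le_sum
      intro χ hχ
      rw [hcX1 χ hχ]
      nlinarith [Nat.zero_le (c' χ * Cfsg.charDegree (χ : G → ℂ))]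
    have h6 : 1 + ∑ χ ∈ T.X1, Cfsg.charDegree (χ : G → ℂ) ≤ f ^ 2 := by omega
    exact_mod_cast h6
  · -- B4
    have h1 := hsum1 c' θ' θ hθ' hθ hc'
    have h4 : ∑ χ ∈ T.X2, c' χ * Cfsg.charDegree (χ : G → ℂ)
        ≤ ∑ χ : Cfsg.IrrCharacter G, c' χ * Cfsg.charDegree (χ : G → ℂ) :=
      Finset.sum_le_sum_of_subset (Finset.subset_univ _)
    rw [← h1] at h4
    have h5 : ∑ χ ∈ T.X2, Cfsg.charDegree (χ : G → ℂ)
        ≤ ∑ χ ∈ T.X2, c' χ * Cfsg.charDegree (χ : G → ℂ) := by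
      apply Finset.sum_le_sum
      intro χ hχ
      rw [hcX2 χ hχ]
      nlinarith [Nat.zero_le (c χ * Cfsg.charDegree (χ : G → ℂ))]
    have h6 : ∑ χ ∈ T.X2, Cfsg.charDegree (χ : G → ℂ) ≤ f ^ 2 := le_trans h5 h4
    exact_mod_cast h6


end Cfsg.Agent.Helper79
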