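import Mathlib
import Cfsg.Agent.Helper9.BRDefs
import Cfsg.Agent.Helper67.BRT2g
import Cfsg.Agent.Helper75.BRSplit
import Cfsg.Agent.Helper82.ExcBlock
import Cfsg.Agent.Helper82.ExcHom

/-!
# S0998, piece CP (helper79)

If an exceptional character of the principal `p`-block (`|P| = p`) is faithful of degree less than
`p`, then `C(P) = P`.
-/

set_option autoImplicit false
open Cfsg
open scoped ComplexConjugate

universe u

namespace Cfsg.Agent.Helper79

/-- CP -/
theorem s998_cent {G : Type u} [Group G] [Fintype G] {p : ℕ} [Fact p.Prime]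
    {M : Ideal Cfsg.AlgInt} (hM : Cfsg.IsPModular p M) (P : Sylow p G)
    (hP : Nat.card (P : Subgroup G) = p) (e : ℕ) (T : Cfsg.Agent.Helper9.BRTab p M P e)
    (θ : Cfsg.IrrCharacter G) (hθ : θ ∈ T.Y) (hdeg : Cfsg.charDegree (θ : G → ℂ) < p)
    (hfaith : ∀ g : G, (θ : G → ℂ) g = (θ : G → ℂ) 1 → g = 1) :
    Nat.card (Subgroup.centralizer ((P : Subgroup G) : Set G)) = p := by
  classical
  have hpP : p.Prime := Fact.out
  have hp2 := hpP.two_le
  have hθB : θ ∈ Cfsg.principalBlock M G := (T.hB θ).mpr (Or.inr (Or.inr (Or.inr hθ)))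
  -- Step 1: θ is constant on the p-sections of P^#
  have hconst : ∀ x : G, x ∈ (P : Subgroup G) → x ≠ 1 → ∀ y : G,
      y ∈ Subgroup.centralizer ((P : Subgroup G) : Set G) → ¬ p ∣ orderOf y →
      (θ : G → ℂ) (x * y) = (θ : G → ℂ) x := by
    intro x hx hx1 y hy hyp
    refine Cfsg.Agent.Helper82.excBlock_const hM P (Cfsg.Agent.Helper75.br_hab P hP)
      (Cfsg.Agent.Helper75.br_hfrob P hP) θ hθB (x * y) x ?_ hx hx1
    refine ⟨y, rfl, ?_, ⟨1, ?_⟩, hyp⟩
    · exact (Subgroup.mem_centralizer_iff.mp hy x hx)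
    · have h1 : orderOf x ∣ p := by
        have := Subgroup.orderOf_dvd_natCard (P : Subgroup G) hx
        rwa [hP] at this
      rcases (Nat.dvd_prime hpP).mp h1 with h | h
      · exact absurd (orderOf_eq_one_iff.mp h) hx1
      · rw [h, pow_one]
  -- Step 2: a linear character of P of multiplicity zero
  letI : Fintype (P : Subgroup G) := Fintype.ofFinite _
  have hcardP : Fintype.card ↥(P : Subgroup G) = p := by
    rw [← Nat.card_eq_fintype_card]; exact hP
  have hPcomm : ∀ x y : (P : Subgroup G), x * y = y * x := by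
    have hcyc : IsCyclic ↥(P : Subgroup G) := isCyclic_of_prime_card hP
    intro x y
    let _c := hcyc.commGroup
    exact mul_comm x y
  have hcardL0 : Nat.card ((P : Subgroup G) →* ℂˣ) = p := by
    rw [Cfsg.Agent.Helper82.excHom_card hPcomm, hcardP]
  haveI : Finite ((P : Subgroup G) →* ℂˣ) :=
    Nat.finite_of_card_ne_zero (by rw [hcardL0]; omega)
  letI : Fintype ((P : Subgroup G) →* ℂˣ) := Fintype.ofFinite _
  have hcardL : Fintype.card ((P : Subgroup G) →* ℂˣ) = p := by
    rw [← Nat.card_eq_fintype_card, hcardL0]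
  have hmult : ∀ lam : (P : Subgroup G) →* ℂˣ, ∃ n : ℕ,
      ∑ x : (P : Subgroup G), (θ : G → ℂ) ((P : Subgroup G).subtype x) * conj ((lam x : ℂˣ) : ℂ)
        = (Fintype.card (P : Subgroup G) : ℂ) * n :=
    fun lam => Cfsg.Agent.Helper81.exists_linMult θ (P : Subgroup G).subtype lam
  choose nm hnm using hmult
  have hsumnm : ∑ lam : (P : Subgroup G) →* ℂˣ, nm lam = Cfsg.charDegree (θ : G → ℂ) := by
    have h1 := Cfsg.Agent.Helper82.excHom_fourier hPcomm
      (fun x : (P : Subgroup G) => (θ : G → ℂ) ((P : Subgroup G).subtype x))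
      (fun lam => (nm lam : ℂ)) hnm 1
    simp only [map_one, Units.val_one, mul_one] at h1
    rw [Cfsg.Agent.Helper81.irr_one_eq_charDegree] at h1
    exact_mod_cast h1.symm
  obtain ⟨lam0, hlam0⟩ : ∃ lam0 : (P : Subgroup G) →* ℂˣ, nm lam0 = 0 := by
    by_contra hcon
    push Not at hcon
    have h1 : ∑ _lam : (P : Subgroup G) →* ℂˣ, 1 ≤ ∑ lam : (P : Subgroup G) →* ℂˣ, nm lam :=
      Finset.sum_le_sum (fun lam _ => Nat.one_le_iff_ne_zero.mpr (hcon lam))
    rw [Finset.sum_const, Finset.card_univ, hcardL, hsumnm] at h1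
    simp only [smul_eq_mul, mul_one] at h1
    omega
  have hzero0 : ∑ x : (P : Subgroup G), (θ : G → ℂ) (x : G) * conj ((lam0 x : ℂˣ) : ℂ) = 0 := by
    have h1 := hnm lam0
    rw [hlam0] at h1
    simpa using h1
  -- Step 3: p-regular elements of C(P) are trivial
  have hreg : ∀ y : G, y ∈ Subgroup.centralizer ((P : Subgroup G) : Set G) →
      ¬ p ∣ orderOf y → y = 1 := by
    intro y hy hyp
    apply hfaith
    obtain ⟨d, hd⟩ : ∃ d : ℕ, d = Cfsg.charDegree (θ : G → ℂ) := ⟨_, rfl⟩
    have hcomm : ∀ (m : (P : Subgroup G)) (n : Subgroup.zpowers y),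
        Commute ((P : Subgroup G).subtype m) ((Subgroup.zpowers y).subtype n) := by
      intro m n
      obtain ⟨k, hk⟩ := Subgroup.mem_zpowers_iff.mp n.2
      have h1 : Commute (m : G) y := by
        rw [Subgroup.mem_centralizer_iff] at hy
        exact hy m m.2
      show Commute (m : G) (n : G)
      rw [← hk]
      exact h1.zpow_right k
    obtain ⟨ι, hι⟩ : ∃ ι : (↥(P : Subgroup G) × ↥(Subgroup.zpowers y)) →* G,
        ∀ x u, ι (x, u) = (x : G) * (u : G) :=
      ⟨MonoidHom.noncommCoprod (P : Subgroup G).subtype (Subgroup.zpowers y).subtype hcomm,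
        fun x u => rfl⟩
    obtain ⟨n, hn⟩ := Cfsg.Agent.Helper81.exists_linMult θ ι
      (lam0.comp (MonoidHom.fst ↥(P : Subgroup G) ↥(Subgroup.zpowers y)))
    have hzC : ∀ u : ↥(Subgroup.zpowers y),
        (u : G) ∈ Subgroup.centralizer ((P : Subgroup G) : Set G) := by
      intro u
      obtain ⟨k, hk⟩ := Subgroup.mem_zpowers_iff.mp u.2
      rw [← hk]
      exact Subgroup.zpow_mem _ hy k
    have hzreg : ∀ u : ↥(Subgroup.zpowers y), ¬ p ∣ orderOf (u : G) := by
      intro u hdiv
      obtain ⟨k, hk⟩ := Subgroup.mem_zpowers_iff.mp u.2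
      rw [← hk] at hdiv
      exact hyp (dvd_trans hdiv (orderOf_dvd_of_pow_eq_one (by
        rw [← zpow_natCast, ← zpow_mul, mul_comm, zpow_mul, zpow_natCast, pow_orderOf_eq_one,
          one_zpow])))
    have hinner : ∀ u : ↥(Subgroup.zpowers y),
        ∑ x : ↥(P : Subgroup G), (θ : G → ℂ) ((x : G) * (u : G)) * conj ((lam0 x : ℂˣ) : ℂ)
          = (θ : G → ℂ) u - (d : ℂ) := by
      intro u
      have h1 : ∀ x : ↥(P : Subgroup G),
          (θ : G → ℂ) ((x : G) * (u : G)) * conj ((lam0 x : ℂˣ) : ℂ)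
            = (θ : G → ℂ) (x : G) * conj ((lam0 x : ℂˣ) : ℂ)
              + (if x = 1 then (θ : G → ℂ) u - (θ : G → ℂ) 1 else 0) := by
        intro x
        by_cases hx : x = 1
        · subst hx
          simp
        · rw [if_neg hx, add_zero,
            hconst x x.2 (fun h => hx (Subtype.ext h)) u (hzC u) (hzreg u)]
      rw [Finset.sum_congr rfl (fun x _ => h1 x), Finset.sum_add_distrib, hzero0, zero_add,
        Finset.sum_ite_eq' Finset.univ (1 : ↥(P : Subgroup G)), if_pos (Finset.mem_univ _),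
        Cfsg.Agent.Helper81.irr_one_eq_charDegree, ← hd]
    have hsum : ∑ u : ↥(Subgroup.zpowers y), ((θ : G → ℂ) u - (d : ℂ))
        = (Fintype.card (↥(P : Subgroup G) × ↥(Subgroup.zpowers y)) : ℂ) * n := by
      rw [← hn, Fintype.sum_prod_type, Finset.sum_comm]
      apply Finset.sum_congr rfl
      intro u _
      rw [← hinner u]
      apply Finset.sum_congr rfl
      intro x _
      rw [hι]
      simp
    have hre : ∑ u : ↥(Subgroup.zpowers y), (((θ : G → ℂ) u).re - (d : ℝ))
        = ((Fintype.card (↥(P : Subgroup G) × ↥(Subgroup.zpowers y)) * n : ℕ) : ℝ) := by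
      have h1 := congrArg Complex.re hsum
      rw [Complex.re_sum, ← Nat.cast_mul, Complex.natCast_re] at h1
      rw [← h1]
      apply Finset.sum_congr rfl
      intro u _
      rw [Complex.sub_re, Complex.natCast_re]
    have hle : ∀ u : ↥(Subgroup.zpowers y), ‖(θ : G → ℂ) u‖ ≤ (d : ℝ) := by
      intro u
      rw [hd]
      exact Cfsg.Agent.Helper80.isCharacter_norm_le (Cfsg.Agent.Helper79.irr_isCharacter θ) u
    have hterm : ∀ u ∈ (Finset.univ : Finset ↥(Subgroup.zpowers y)),
        ((θ : G → ℂ) u).re - (d : ℝ) ≤ 0 := by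
      intro u _
      have := Complex.re_le_norm ((θ : G → ℂ) u)
      have := hle u
      linarith
    have hzero : ∑ u : ↥(Subgroup.zpowers y), (((θ : G → ℂ) u).re - (d : ℝ)) = 0 := by
      apply le_antisymm (Finset.sum_nonpos hterm)
      rw [hre]
      exact Nat.cast_nonneg _
    have hy0 := (Finset.sum_eq_zero_iff_of_nonpos hterm).mp hzero
      ⟨y, Subgroup.mem_zpowers y⟩ (Finset.mem_univ _)
    have hy1 : ((θ : G → ℂ) y).re = (d : ℝ) := by
      have : ((θ : G → ℂ) y).re - (d : ℝ) = 0 := hy0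
      linarith
    have hy2 := Cfsg.Agent.Helper67.br_eq_of_re_eq_norm_le hy1 (hle ⟨y, Subgroup.mem_zpowers y⟩)
    rw [hy2, Cfsg.Agent.Helper81.irr_one_eq_charDegree θ, ← hd]
    simp
  -- C(P) is a p-group
  have hCp : IsPGroup p (Subgroup.centralizer ((P : Subgroup G) : Set G)) := by
    intro g
    have ho : orderOf (g : G) ≠ 0 := (orderOf_pos (g : G)).ne'
    obtain ⟨a, m, hm, hom⟩ := Nat.exists_eq_pow_mul_and_not_dvd ho p hpP.ne_one
    refine ⟨a, ?_⟩
    apply Subtype.ext
    rw [Subgroup.coe_pow, Subgroup.coe_one]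
    apply hreg _ (Subgroup.pow_mem _ g.2 _)
    have h1 : orderOf ((g : G) ^ p ^ a) = m := by
      rw [orderOf_pow_of_dvd (pow_ne_zero a hpP.ne_zero) (by rw [hom]; exact dvd_mul_right _ _),
        hom]
      exact Nat.mul_div_cancel_left m (pow_pos hpP.pos a)
    rw [h1]
    exact hm
  have hPle : (P : Subgroup G) ≤ Subgroup.centralizer ((P : Subgroup G) : Set G) := by
    intro x hx
    rw [Subgroup.mem_centralizer_iff]
    intro z hz
    exact congrArg Subtype.val (hPcomm ⟨z, hz⟩ ⟨x, hx⟩)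
  rw [P.is_maximal' hCp hPle]
  exact hP

end Cfsg.Agent.Helper79
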