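import Mathlib
import Cfsg.Agent.Helper9.BRDefs
import Cfsg.Agent.Helper9.BRSimple
import Cfsg.Agent.Helper75.BRNF
import Cfsg.Agent.Helper79.BRXA1h
import Cfsg.Agent.Helper79.PrimeDeg
import Cfsg.Agent.Helper67.BRK5
import Cfsg.Agent.Helper78.Counting
import Cfsg.Agent.Helper79.S998CP
import Cfsg.Agent.Helper79.S998BUD
import Cfsg.Agent.Helper51.S998VAN
import Cfsg.Agent.Helper11.S998PART
import Cfsg.Agent.Helper12.S997INT
import Cfsg.Agent.Helper12.S997NB0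
import Cfsg.Agent.Helper12.S997PB2
import Cfsg.Agent.Helper17.S997CC1
import Cfsg.Agent.Helper17.S997CC2
import Cfsg.Agent.Helper19.S997SQ
import Cfsg.Agent.Helper36.S997NA1
import Cfsg.Agent.Helper36.S997NA2
import Cfsg.Agent.Helper36.S997NB1
import Cfsg.Agent.Helper36.S997NB2
import Cfsg.Agent.Helper41.S997FREE
import Cfsg.Agent.Helper41.S997SYL7
import Cfsg.Agent.Helper46.S997QARG
import Cfsg.Agent.Helper59.S997COL
import Cfsg.Agent.Helper79.S997DEG
import Cfsg.Agent.Helper79.S997EXD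
import Cfsg.Agent.Helper79.S997ZTH
import Cfsg.Agent.Helper8.S997PB1
import Cfsg.Agent.Helper84.S997POS

/-!
# S0997 (Brauer-Tuan), assembly of the core (helper79)

A non-cyclic simple group of order `p * q ^ b * g₀` with `g₀ < p - 1` has a Sylow `p`-subgroup of
order `p`, `p = 2 ^ m ± 1`, and fewer than `(p + 1) (p + 2) / 2` Sylow `p`-subgroups.
-/

set_option autoImplicit false
open Cfsg
open scoped ComplexConjugate

universe u

namespace Cfsg.Agent.Helper79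


theorem s997_fin_alpha (b e : ℕ) (h : 2 ^ b ≤ e ^ 2 - 1) (he : 3 ≤ e) :
    2 * 2 ^ b < (2 * e + 1 + 1) * (2 * e + 1 + 2) := by
  have h1 : 1 ≤ e ^ 2 := Nat.one_le_pow _ _ (by omega)
  have h2 : 2 ^ b + 1 ≤ e ^ 2 := by omega
  have h3 : (2 * e + 1 + 1) * (2 * e + 1 + 2) = 4 * e ^ 2 + 10 * e + 6 := by ring
  rw [h3]
  linarith

theorem s997_fin_beta_two (p b m f n : ℕ) (hbm : b ≤ m) (hpm : p - 1 = 2 ^ m) (hfp : f + 2 = p)
    (hord : 2 ^ b * f = 2 * (1 + n * p)) : 2 * (1 + n * p) < (p + 1) * (p + 2) := by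
  have h1 : 2 ^ b ≤ 2 ^ m := Nat.pow_le_pow_right (by norm_num) hbm
  have h2 : 2 ^ b * f ≤ 2 ^ m * f := Nat.mul_le_mul_right _ h1
  rw [← hpm, hord] at h2
  have h4 : (p - 1) * f ≤ p * p := Nat.mul_le_mul (by omega) (by omega)
  have h5 : (p + 1) * (p + 2) = p * p + 3 * p + 2 := by ring
  rw [h5]
  omega

theorem s997_fin_beta_one (p e b n : ℕ) (hb : 2 ^ b ≤ p - 1) (hpe : p = 2 * e + 1) (he : 4 ≤ e)
    (hord : 2 ^ b * (e + 1) = e * (1 + n * p)) : 2 * (1 + n * p) < (p + 1) * (p + 2) := by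
  have h1 : 2 ^ b * (e + 1) ≤ (p - 1) * (e + 1) := Nat.mul_le_mul_right _ hb
  rw [hord] at h1
  have h2 : p - 1 = 2 * e := by omega
  rw [h2] at h1
  have h3 : e * (1 + n * p) ≤ e * (2 * (e + 1)) := by
    calc e * (1 + n * p) ≤ 2 * e * (e + 1) := h1
      _ = e * (2 * (e + 1)) := by ring
  have h4 : 1 + n * p ≤ 2 * (e + 1) := Nat.le_of_mul_le_mul_left h3 (by omega)
  have h5 : (p + 1) * (p + 2) = p * p + 3 * p + 2 := by ring
  rw [h5]
  have h6 : 0 ≤ p * p := Nat.zero_le _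
  omega


theorem s997_core {G : Type u} [Group G] [Finite G] [IsSimpleGroup G] (hG : ¬ IsCyclic G)
    (p q b g₀ : ℕ) [Fact p.Prime] (hq : q.Prime) (hpq : p ≠ q)
    (hcard : Nat.card G = p * q ^ b * g₀) (hg : g₀ < p - 1) (P : Sylow p G) :
    Nat.card (P : Subgroup G) = p ∧ ∃ n : ℕ, Nat.card (Sylow p G) = 1 + n * p ∧
      (∃ m : ℕ, p = 2 ^ m + 1 ∨ p = 2 ^ m - 1) ∧ 2 * (1 + n * p) < (p + 1) * (p + 2) := by
  classical
  haveI : Fintype G := Fintype.ofFinite G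
  have hp : p.Prime := Fact.out
  have hp2 := hp.two_le
  have hnc : ¬ ∀ a b : G, a * b = b * a := by
    intro hc
    let _ : CommGroup G := { ‹Group G› with mul_comm := hc }
    exact hG (IsSimpleGroup.isCyclic)
  have hperf : commutator G = ⊤ := Cfsg.Agent.Helper79.simple_commutator_eq_top hnc
  have hP : Nat.card (P : Subgroup G) = p := Cfsg.Agent.Helper41.s997_sylow_card p q b g₀ hq hpq hcard hg P
  refine ⟨hP, ?_⟩
  obtain ⟨hodd, e, n, v, he, he2, hed, hn1, hv1, hSyl, hCv, hGc⟩ :=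
    Cfsg.Agent.Helper79.brn_setup hperf p P hP
  obtain ⟨M, hM⟩ := Cfsg.Agent.Helper78.exists_isPModular p hp
  obtain ⟨T⟩ := Cfsg.Agent.Helper75.br_tab_exists p M hM hodd P hP e he he2
  obtain ⟨f, hf3, hfg, hYdeg, ⟨θ, hθ⟩, hqX1, hqX2, hcase⟩ :=
    s997_deg hG P e T he2 hed q b g₀ hq hpq hcard hg
  have hg0 : 0 < g₀ := by
    rcases Nat.eq_zero_or_pos g₀ with h | h
    · exfalso
      rw [h, mul_zero] at hcard
      exact (Nat.card_pos (α := G)).ne' hcard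
    · exact h
  have hfle : f ≤ g₀ := Nat.le_of_dvd hg0 hfg
  have hfaith : ∀ g : G, (θ : G → ℂ) g = (θ : G → ℂ) 1 → g = 1 :=
    Cfsg.Agent.Helper79.simple_irr_faithful θ (by rw [hYdeg θ hθ]; omega)
  have hC : Nat.card (Subgroup.centralizer ((P : Subgroup G) : Set G)) = p :=
    Cfsg.Agent.Helper79.s998_cent hM P hP e T θ hθ (by rw [hYdeg θ hθ]; omega) hfaith
  have hvan := Cfsg.Agent.Helper51.s998_psing_conj P hP hC
  have hpart := fun F hF => Cfsg.Agent.Helper11.s998_sum_psing P hP hC e he hvan F hF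
  have hv : v = 1 := by
    have h1 : p * v = p * 1 := by rw [← hCv, hC, mul_one]
    exact Nat.eq_of_mul_eq_mul_left hp.pos h1
  subst hv
  refine ⟨n, hSyl, ?_⟩
  obtain ⟨t, ht⟩ := hed
  have het : e * t = p - 1 := ht.symm
  have ht2 : 2 ≤ t := by
    by_contra hlt
    have ht01 : t = 0 ∨ t = 1 := by omega
    rcases ht01 with h0 | h1
    · subst h0; omega
    · subst h1
      rcases hcase with ⟨_, her⟩ | ⟨_, her⟩ <;> omega
  obtain ⟨hB1, hB2, hB3, hB4⟩ :=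
    Cfsg.Agent.Helper79.s998_budget hM P hP e t f hvan hpart T het ht2 hYdeg
  have hge1 : ∀ χ ∈ T.X1, 2 ≤ Cfsg.charDegree (χ : G → ℂ) := fun χ hχ =>
    Cfsg.Agent.Helper67.br_perfect_deg hperf χ (fun h => T.h1X1 (h ▸ hχ))
  have hge2 : ∀ χ ∈ T.X2, 2 ≤ Cfsg.charDegree (χ : G → ℂ) := fun χ hχ =>
    Cfsg.Agent.Helper67.br_perfect_deg hperf χ (fun h => T.h1X2 (h ▸ hχ))
  have hrelZ : (T.ε : ℤ) * (f : ℤ) = 1 + ∑ χ ∈ T.X1, (Cfsg.charDegree (χ : G → ℂ) : ℤ)
      - ∑ χ ∈ T.X2, (Cfsg.charDegree (χ : G → ℂ) : ℤ) := by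
    have h1ord : ¬ p ∣ orderOf (1 : G) := by
      rw [orderOf_one]
      intro h
      have := Nat.le_of_dvd one_pos h
      omega
    have h := T.hrel θ hθ 1 h1ord
    simp only [Cfsg.Agent.Helper81.irr_one_eq_charDegree, hYdeg θ hθ] at h
    exact_mod_cast h
  have hord : q ^ b * g₀ = e * (1 + n * p) := by
    have h1 : p * (q ^ b * g₀) = p * (e * (1 + n * p)) := by
      rw [← mul_assoc, ← hcard, hGc]; ring
    exact Nat.eq_of_mul_eq_mul_left hp.pos h1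
  have hpodd : ¬ 2 ∣ p := by
    intro h
    exact hodd ((Nat.prime_dvd_prime_iff_eq Nat.prime_two hp).mp h).symm
  -- a nontrivial element of P
  obtain ⟨y, hy, hy1⟩ : ∃ y : G, y ∈ (P : Subgroup G) ∧ y ≠ 1 := by
    have hne : (P : Subgroup G) ≠ ⊥ := by
      intro h
      rw [h, Subgroup.card_bot] at hP
      omega
    obtain ⟨y, hy⟩ := (Subgroup.ne_bot_iff_exists_ne_one).mp hne
    exact ⟨y, y.2, fun h => hy (Subtype.ext h)⟩
  rcases hcase with ⟨hε, hef⟩ | ⟨hε, hef⟩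
  · -- case α
    subst hef
    rw [hε, one_mul] at hrelZ
    obtain ⟨hpe, heo, hX1c, hX2c, hX1d, hX2d⟩ :=
      Cfsg.Agent.Helper36.s997_num_alpha T.X1 T.X2 (fun χ => Cfsg.charDegree (χ : G → ℂ)) p e t hp hf3 het ht2
        (fun χ hχ => ⟨(T.hX1 χ hχ).1, hge1 χ hχ⟩) (fun χ hχ => ⟨(T.hX2 χ hχ).1, hge2 χ hχ⟩)
        T.hcard hrelZ hB1 hB2 hB3 hB4
    obtain ⟨χ₁, hχ₁⟩ : T.X1.Nonempty := by rw [← Finset.card_pos]; omega
    obtain ⟨χ₂, hχ₂⟩ : T.X2.Nonempty := by rw [← Finset.card_pos]; omega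
    have hq1 : q ∣ p + 1 := by
      have := (hqX1 χ₁ hχ₁).1
      rwa [hX1d χ₁ hχ₁] at this
    have hq2 : q ∣ p - 1 := by
      have := (hqX2 χ₂ hχ₂).1
      rwa [hX2d χ₂ hχ₂] at this
    have hdvdG : p + 1 ∣ p * (e * (1 + n * p)) := by
      have := Cfsg.Agent.Helper78.charDegree_dvd_card χ₁
      rw [hX1d χ₁ hχ₁, hGc] at this
      have h2 : p * e * 1 * (1 + n * p) = p * (e * (1 + n * p)) := by ring
      rwa [h2] at this
    obtain ⟨hq2', hg0e, hnp, m, hpm⟩ :=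
      Cfsg.Agent.Helper36.s997_num_alpha_order p q e b g₀ n hp hq hpe hf3 heo hq1 hq2 hfg hg hord hdvdG
    subst hq2'
    subst hg0e
    have hcard2 : Nat.card G = 2 ^ b * (p * g₀) := by rw [hcard]; ring
    have hm2 : ¬ 2 ∣ p * g₀ := by
      intro h
      rcases (Nat.Prime.dvd_mul Nat.prime_two).mp h with h | h
      · exact hpodd h
      · exact heo h
    have hexd := s997_exact_dec P g₀ hvan T hpe hX1d hX1c hYdeg θ hθ
    have hncj := Cfsg.Agent.Helper41.s997_not_conj_inv hodd P hP g₀ he heo y hy hy1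
    have hsq := Cfsg.Agent.Helper19.s997_sq_sum hM P hP hC g₀ T y hy hy1 hncj
    have hcc := fun s hs hs1 g => Cfsg.Agent.Helper17.s997_class_const_pp hM P hP hC g₀ T y s hy hy1 hs hs1 g
    have hbd : ∀ g : G, g ≠ 1 → (∃ k : ℕ, orderOf g = 2 ^ k) → ‖(θ : G → ℂ) g‖ ≤ 1 := by
      intro g hg1 hk
      obtain ⟨k, hk⟩ := hk
      have hreg : ¬ p ∣ orderOf g := by
        rw [hk]
        intro h
        exact hodd ((Nat.prime_dvd_prime_iff_eq hp Nat.prime_two).mp (hp.dvd_of_dvd_pow h))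
      have hlt := s997_norm_lt hnc θ (by rw [hYdeg θ hθ]; omega) g hg1
      rw [hYdeg θ hθ] at hlt
      exact Cfsg.Agent.Helper84.s997_alpha_pos hM P hP g₀ T hε hpe hf3 hX1d hX2d hYdeg θ hθ hexd y hy hy1 hsq hcc
        g hreg hlt
    have hQ := Cfsg.Agent.Helper46.s997_sylow_two_bound b (p * g₀) g₀ hcard2 hm2 θ (hYdeg θ hθ) heo hf3 hbd
    refine ⟨⟨m, Or.inr hpm⟩, ?_⟩
    rw [hnp]
    have hfin := s997_fin_alpha b g₀ hQ hf3
    rw [← hpe] at hfin
    exact hfin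
  · -- case β
    rw [hε] at hrelZ
    have hrel' : -(f : ℤ) = 1 + ∑ χ ∈ T.X1, (Cfsg.charDegree (χ : G → ℂ) : ℤ)
        - ∑ χ ∈ T.X2, (Cfsg.charDegree (χ : G → ℂ) : ℤ) := by
      rw [← hrelZ]; ring
    obtain ⟨hq2', hg0f, c, hc1, hec⟩ :=
      Cfsg.Agent.Helper12.s997_num_beta_q T.X1 T.X2 (fun χ => Cfsg.charDegree (χ : G → ℂ)) p q e f t b g₀ n hp hq
        he2 hef het ht2 hfg hg hord (fun χ hχ => (hqX1 χ hχ).1) (fun χ hχ => (hqX2 χ hχ).1)
        hrel'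
    subst hq2'
    subst hg0f
    have he_even : 2 ∣ e := by rw [hec]; exact dvd_pow_self 2 (by omega)
    have hfodd : ¬ 2 ∣ g₀ := by
      intro h
      apply hpodd
      rw [← hef]
      exact dvd_add he_even h
    have hb1 : 1 ≤ b := by
      by_contra hb0
      have hb0' : b = 0 := by omega
      rw [hb0', pow_zero, one_mul] at hord
      exact hfodd (hord ▸ Dvd.dvd.mul_right he_even _)
    have hcard2 : Nat.card G = 2 ^ b * (p * g₀) := by rw [hcard]; ring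
    have hm2 : ¬ 2 ∣ p * g₀ := by
      intro h
      rcases (Nat.Prime.dvd_mul Nat.prime_two).mp h with h | h
      · exact hpodd h
      · exact hfodd h
    obtain ⟨z, hz, hzC⟩ := Cfsg.Agent.Helper41.s997_two_central b (p * g₀) hb1 hcard2 hm2
    rcases Nat.lt_or_ge c 2 with hc2 | hc2
    · -- e = 2
      have he2' : e = 2 := by
        have : c = 1 := by omega
        rw [hec, this, pow_one]
      subst he2'
      have hfp : g₀ + 2 = p := by omega
      obtain ⟨hX1e, χ₂, hX2e, hχ₂d, m, hpm⟩ :=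
        Cfsg.Agent.Helper36.s997_num_beta_two T.X1 T.X2 (fun χ => Cfsg.charDegree (χ : G → ℂ)) p g₀ b hp hfp
          (fun χ hχ => (hqX2 χ hχ).2) T.hcard hrel'
      have hm1 : 1 ≤ m := by
        by_contra hm0
        have hm0' : m = 0 := by omega
        rw [hm0', pow_zero] at hpm
        omega
      have hχz := Cfsg.Agent.Helper12.s997_int_zero hnc b (p * g₀) m hcard2 hm2 z hz hzC χ₂
        (by rw [hχ₂d, hpm]) hm1
      have hfree := Cfsg.Agent.Helper41.s997_pairs_dvd z y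
      have hcc := Cfsg.Agent.Helper17.s997_class_const_zz hM P hP hC 2 T y hy hy1 z
      have hbm := Cfsg.Agent.Helper12.s997_beta_two hM P T hε hodd g₀ b m hfp hYdeg ⟨θ, hθ⟩ hX1e χ₂ hX2e hpm hcard
        y hy hy1 z hz hzC hχz hfree hcc
      refine ⟨⟨m, Or.inl (by omega)⟩, ?_⟩
      exact s997_fin_beta_two p b m g₀ n hbm hpm hfp hord
    · -- e = 2 ^ c, c ≥ 2
      obtain ⟨hpe, hX1c, hX2c, hX1d, hX2d⟩ :=
        Cfsg.Agent.Helper36.s997_num_beta_big T.X1 T.X2 (fun χ => Cfsg.charDegree (χ : G → ℂ)) p e g₀ t b c hp hef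
          het ht2 hec hc2
          (fun χ hχ => ⟨(T.hX1 χ hχ).1, hge1 χ hχ, (hqX1 χ hχ).2, (hqX1 χ hχ).1⟩)
          (fun χ hχ => ⟨(T.hX2 χ hχ).1, hge2 χ hχ, (hqX2 χ hχ).2, (hqX2 χ hχ).1⟩)
          T.hcard hrel' hB2 hB4
      have hfe : g₀ = e + 1 := by omega
      subst hfe
      have he4 : 4 ≤ e := by
        rw [hec]
        calc 4 = 2 ^ 2 := by norm_num
          _ ≤ 2 ^ c := Nat.pow_le_pow_right (by norm_num) hc2
      have hX2z : ∀ ψ ∈ T.X2, (ψ : G → ℂ) z = 0 := by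
        intro ψ hψ
        refine Cfsg.Agent.Helper12.s997_int_zero hnc b (p * (e + 1)) (c + 1) hcard2 hm2 z hz hzC ψ ?_ (by omega)
        rw [hX2d ψ hψ, pow_succ, ← hec]
        omega
      have hfree := Cfsg.Agent.Helper41.s997_pairs_dvd_p hodd P hP hC y hy hy1 z hz
      have hcol := fun S => Cfsg.Agent.Helper59.s997_col_bound z S
      have hcc := Cfsg.Agent.Helper17.s997_class_const_zz hM P hP hC e T y hy hy1 z
      have hb := Cfsg.Agent.Helper8.s997_beta_one hM P e T hε hpe he4 b hX1d hYdeg ⟨θ, hθ⟩ hcard y hy hy1 z hz hzC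
        hX2z hfree hcol hcc
      refine ⟨⟨c + 1, Or.inl (by rw [pow_succ, ← hec]; omega)⟩, ?_⟩
      exact s997_fin_beta_one p e b n hb hpe he4 hord

end Cfsg.Agent.Helper79
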