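import Mathlib
import Cfsg.Agent.Helper9.BRDefs
import Cfsg.Agent.Helper67.BRK5
import Cfsg.Agent.Helper80.CharOrtho
import Cfsg.Agent.Helper80.CharIrr
import Cfsg.Agent.Helper57.S998DEC
import Cfsg.Agent.Helper11.S998MULT

/-!
# S0997, piece EXD (helper79)

Case α of Brauer–Tuan (`p = 2e + 1`, `X1` of degree `p + 1`, `2|X1| + 1 = e`, exceptional degree
`e`): `θ θ̄ = 1 + ∑_{ψ ∈ X1} ψ` exactly.
-/

set_option autoImplicit false
open Cfsg
open scoped ComplexConjugate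

universe u

namespace Cfsg.Agent.Helper79

/-- EXD -/
theorem s997_exact_dec {G : Type u} [Group G] [Fintype G] {p : ℕ} [Fact p.Prime]
    {M : Ideal Cfsg.AlgInt} (P : Sylow p G) (e : ℕ)
    (hvan : ∀ g : G, p ∣ orderOf g → ∃ a : G, a * g * a⁻¹ ∈ (P : Subgroup G))
    (T : Cfsg.Agent.Helper9.BRTab p M P e)
    (hp : p = 2 * e + 1) (hX1 : ∀ χ ∈ T.X1, Cfsg.charDegree (χ : G → ℂ) = p + 1)
    (hX1c : 2 * T.X1.card + 1 = e) (hf : ∀ θ ∈ T.Y, Cfsg.charDegree (θ : G → ℂ) = e)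
    (θ : Cfsg.IrrCharacter G) (hθ : θ ∈ T.Y) :
    ∀ g : G, (θ : G → ℂ) g * conj ((θ : G → ℂ) g) = 1 + ∑ ψ ∈ T.X1, (ψ : G → ℂ) g := by
  classical
  let _ : Fintype (Cfsg.IrrCharacter G) := Fintype.ofFinite _
  have he0 : 0 < e := by omega
  have hYcard : T.Y.card = 2 := by
    rw [T.hcardY, hp]
    have h1 : 2 * e + 1 - 1 = e * 2 := by omega
    rw [h1]
    exact Nat.mul_div_cancel_left 2 he0
  obtain ⟨θ', hθ', hne'⟩ := Finset.exists_mem_ne (by omega : 1 < T.Y.card) θ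
  have hne : θ ≠ θ' := fun h => hne' h.symm
  obtain ⟨c, hc, hcs⟩ := Cfsg.Agent.Helper57.s998_dec θ θ
  obtain ⟨c', hc', hcs'⟩ := Cfsg.Agent.Helper57.s998_dec θ' θ
  obtain ⟨hm1, hm2⟩ := Cfsg.Agent.Helper11.s998_mult P e hvan T θ θ' hθ hθ' hne
  have hG0 : (Nat.card G : ℂ) ≠ 0 := by
    exact_mod_cast (Nat.card_pos (α := G)).ne'
  have hctriv : c (Cfsg.Agent.Helper81.trivIrr G) = 1 := by
    have h1 := hcs (Cfsg.Agent.Helper81.trivIrr G)
    have h2 : ∑ g : G, (θ : G → ℂ) g * conj ((θ : G → ℂ) g)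
        * conj ((Cfsg.Agent.Helper81.trivIrr G : G → ℂ) g) = (Nat.card G : ℂ) := by
      have h3 := Cfsg.Agent.Helper80.irr_orthogonality_conj θ θ
      rw [if_pos rfl] at h3
      rw [Nat.card_eq_fintype_card, ← h3]
      refine Finset.sum_congr rfl (fun g _ => ?_)
      rw [Cfsg.Agent.Helper81.trivIrr_apply, map_one, mul_one]
    rw [h2] at h1
    have h4 : (c (Cfsg.Agent.Helper81.trivIrr G) : ℂ) = 1 := by
      have h5 : (Nat.card G : ℂ) * 1
          = (Nat.card G : ℂ) * (c (Cfsg.Agent.Helper81.trivIrr G) : ℂ) := by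
        rw [mul_one]; exact h1
      exact (mul_left_cancel₀ hG0 h5).symm
    exact_mod_cast h4
  have hcX1 : ∀ χ ∈ T.X1, c χ = c' χ + 1 := by
    intro χ hχ
    have h1 := hm1 χ hχ
    rw [hcs χ, hcs' χ] at h1
    have h2 : (Nat.card G : ℂ) * (c χ : ℂ) = (Nat.card G : ℂ) * ((c' χ : ℂ) + 1) := by
      rw [h1]; ring
    have h3 := mul_left_cancel₀ hG0 h2
    exact_mod_cast h3
  -- evaluating the decomposition at 1
  have hsum1 : e ^ 2 = ∑ χ : Cfsg.IrrCharacter G, c χ * Cfsg.charDegree (χ : G → ℂ) := by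
    have h3 := hc 1
    rw [finsum_eq_sum_of_fintype, Cfsg.Agent.Helper81.irr_one_eq_charDegree, hf θ hθ,
      Complex.conj_natCast] at h3
    have h4 : ((e ^ 2 : ℕ) : ℂ)
        = ((∑ χ : Cfsg.IrrCharacter G, c χ * Cfsg.charDegree (χ : G → ℂ) : ℕ) : ℂ) := by
      rw [Nat.cast_sum]
      push_cast
      rw [pow_two, h3]
      refine Finset.sum_congr rfl (fun χ _ => ?_)
      rw [Cfsg.Agent.Helper81.irr_one_eq_charDegree]
    exact_mod_cast h4
  set S : Finset (Cfsg.IrrCharacter G) := insert (Cfsg.Agent.Helper81.trivIrr G) T.X1 with hS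
  have hSdeg : ∑ χ ∈ S, Cfsg.charDegree (χ : G → ℂ) = e ^ 2 := by
    have harith : ∀ k : ℕ, 2 * k + 1 = e → 1 + k * (p + 1) = e ^ 2 := by
      intro k hk
      have h1 : p + 1 = 2 * e + 2 := by omega
      rw [h1, ← hk]; ring
    rw [hS, Finset.sum_insert T.h1X1, Cfsg.Agent.Helper67.br_charDegree_trivIrr,
      Finset.sum_congr rfl hX1, Finset.sum_const, smul_eq_mul]
    exact harith _ hX1c
  have hcS : ∀ χ ∈ S, 1 ≤ c χ := by
    intro χ hχ
    rw [hS, Finset.mem_insert] at hχ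
    rcases hχ with h | h
    · rw [h, hctriv]
    · rw [hcX1 χ h]; omega
  have hle : ∀ χ ∈ S, Cfsg.charDegree (χ : G → ℂ) ≤ c χ * Cfsg.charDegree (χ : G → ℂ) :=
    fun χ hχ => Nat.le_mul_of_pos_left _ (hcS χ hχ)
  have hsplit : ∑ χ ∈ S, c χ * Cfsg.charDegree (χ : G → ℂ)
      + ∑ χ ∈ Finset.univ \ S, c χ * Cfsg.charDegree (χ : G → ℂ) = e ^ 2 := by
    rw [hsum1, ← Finset.sum_sdiff (Finset.subset_univ S), add_comm]
  have hA : e ^ 2 ≤ ∑ χ ∈ S, c χ * Cfsg.charDegree (χ : G → ℂ) := by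
    rw [← hSdeg]; exact Finset.sum_le_sum hle
  have hAeq : ∑ χ ∈ S, Cfsg.charDegree (χ : G → ℂ)
      = ∑ χ ∈ S, c χ * Cfsg.charDegree (χ : G → ℂ) := by omega
  have hB : ∑ χ ∈ Finset.univ \ S, c χ * Cfsg.charDegree (χ : G → ℂ) = 0 := by omega
  have hc1 : ∀ χ ∈ S, c χ = 1 := by
    intro χ hχ
    have h1 := (Finset.sum_eq_sum_iff_of_le hle).mp hAeq χ hχ
    have h2 := Cfsg.Agent.Helper81.charDegree_pos χ
    have h3 : 1 * Cfsg.charDegree (χ : G → ℂ) = c χ * Cfsg.charDegree (χ : G → ℂ) := by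
      rw [one_mul]; exact h1
    exact (Nat.eq_of_mul_eq_mul_right h2 h3).symm
  have hc0 : ∀ χ : Cfsg.IrrCharacter G, χ ∉ S → c χ = 0 := by
    intro χ hχ
    have h1 := (Finset.sum_eq_zero_iff.mp hB) χ (Finset.mem_sdiff.mpr ⟨Finset.mem_univ χ, hχ⟩)
    have h2 := Cfsg.Agent.Helper81.charDegree_pos χ
    rcases Nat.mul_eq_zero.mp h1 with h | h
    · exact h
    · omega
  intro g
  rw [hc g, finsum_eq_sum_of_fintype,
    ← Finset.sum_subset (Finset.subset_univ S) (fun χ _ hχ => by rw [hc0 χ hχ]; simp),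
    Finset.sum_congr rfl (fun χ hχ => by rw [hc1 χ hχ]; simp :
      ∀ χ ∈ S, (c χ : ℂ) * (χ : G → ℂ) g = (χ : G → ℂ) g),
    hS, Finset.sum_insert T.h1X1, Cfsg.Agent.Helper81.trivIrr_apply]

end Cfsg.Agent.Helper79
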