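import Mathlib
import Cfsg.Agent.Helper9.BRDefs
import Cfsg.Agent.Helper79.PrimeDeg
import Cfsg.Agent.Helper67.BRK5
import Cfsg.Agent.Helper78.Counting

/-!
# S0998, piece DEG (helper79)

In a non-cyclic simple group of order `p * r * q ^ b` with `r < p`, the exceptional characters of
the principal `p`-block have degree `r`.
-/

set_option autoImplicit false
open Cfsg
open scoped ComplexConjugate

universe u

namespace Cfsg.Agent.Helper79

/-- DEG -/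
theorem s998_deg {G : Type u} [Group G] [Fintype G] [IsSimpleGroup G] (hG : ¬ IsCyclic G)
    {p : ℕ} [Fact p.Prime] {M : Ideal Cfsg.AlgInt} (P : Sylow p G) (e : ℕ)
    (T : Cfsg.Agent.Helper9.BRTab p M P e) (he2 : 2 ≤ e) (hed : e ∣ p - 1)
    (q r b : ℕ) (hq : q.Prime) (hr : r.Prime) (hpq : p ≠ q) (hpr : p ≠ r) (hqr : q ≠ r)
    (hrp : r < p) (hcard : Nat.card G = p * r * q ^ b) :
    3 ≤ r ∧ (∀ θ ∈ T.Y, Cfsg.charDegree (θ : G → ℂ) = r) ∧ T.Y.Nonempty ∧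
      ((T.ε = 1 ∧ e = r) ∨ (T.ε = -1 ∧ e + r = p)) := by
  classical
  have hpp : p.Prime := Fact.out
  have hp2 := hpp.two_le
  have hr2 := hr.two_le
  have hnc : ¬ ∀ a b : G, a * b = b * a := by
    intro hc
    let _ : CommGroup G := { ‹Group G› with mul_comm := hc }
    exact hG (IsSimpleGroup.isCyclic)
  have hperf : commutator G = ⊤ := simple_commutator_eq_top hnc
  have hp1 : 0 < p - 1 := by omega
  have hele : e ≤ p - 1 := Nat.le_of_dvd hp1 hed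
  have hYne : T.Y.Nonempty := by
    rw [← Finset.card_pos, T.hcardY]
    exact Nat.div_pos hele (by omega)
  obtain ⟨θ₀, hθ₀⟩ := hYne
  have h1ord : ¬ p ∣ orderOf (1 : G) := by
    rw [orderOf_one]
    intro h
    have := Nat.le_of_dvd one_pos h
    omega
  have hdvd : ∀ χ : Cfsg.IrrCharacter G, Cfsg.charDegree (χ : G → ℂ) ∣ p * r * q ^ b :=
    fun χ => hcard ▸ Cfsg.Agent.Helper78.charDegree_dvd_card χ
  have hkey : ∀ d : ℕ, d ∣ p * r * q ^ b → ¬ p ∣ d → ¬ q ∣ d → 2 ≤ d → d = r := by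
    intro d hd hpd hqd hd2
    have h1 : d ∣ r * q ^ b := by
      have hcop : Nat.Coprime d p :=
        Nat.Coprime.symm ((Nat.Prime.coprime_iff_not_dvd hpp).mpr hpd)
      have h0 : d ∣ p * (r * q ^ b) := by rw [← mul_assoc]; exact hd
      exact hcop.dvd_of_dvd_mul_left h0
    have h2 : d ∣ r := by
      have hcop : Nat.Coprime d (q ^ b) :=
        Nat.Coprime.pow_right b (Nat.Coprime.symm ((Nat.Prime.coprime_iff_not_dvd hq).mpr hqd))
      exact hcop.dvd_of_dvd_mul_right h1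
    rcases (Nat.dvd_prime hr).mp h2 with h | h
    · omega
    · exact h
  have hpZ : (1 : ℤ) < (p : ℤ) := by exact_mod_cast hpp.one_lt
  have hno1 : ¬ (p : ℤ) ∣ 1 := by
    intro h
    have := Int.le_of_dvd one_pos h
    omega
  have hpX1 : ∀ χ ∈ T.X1, ¬ p ∣ Cfsg.charDegree (χ : G → ℂ) := by
    intro χ hχ hdiv
    have h1 := Int.modEq_iff_dvd.mp (T.hX1 χ hχ).1
    have h2 : (p : ℤ) ∣ (Cfsg.charDegree (χ : G → ℂ) : ℤ) := by exact_mod_cast hdiv
    have h3 := dvd_add h1 h2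
    rw [sub_add_cancel] at h3
    exact hno1 h3
  have hpX2 : ∀ χ ∈ T.X2, ¬ p ∣ Cfsg.charDegree (χ : G → ℂ) := by
    intro χ hχ hdiv
    have h1 := Int.modEq_iff_dvd.mp (T.hX2 χ hχ).1
    have h2 : (p : ℤ) ∣ (Cfsg.charDegree (χ : G → ℂ) : ℤ) := by exact_mod_cast hdiv
    have h3 := dvd_add h1 h2
    rw [sub_add_cancel] at h3
    exact hno1 ((dvd_neg (a := (p : ℤ)) (b := (1 : ℤ))).mp h3)
  have hεu : IsUnit T.ε := by
    rcases T.hε with h | h <;> rw [h] <;> simp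
  have hpe : ¬ (p : ℤ) ∣ (e : ℤ) := by
    intro h
    have h1 : p ∣ e := by exact_mod_cast h
    have := Nat.le_of_dvd (by omega) h1
    omega
  have hpY : ∀ χ ∈ T.Y, ¬ p ∣ Cfsg.charDegree (χ : G → ℂ) := by
    intro χ hχ hdiv
    have h1 := Int.modEq_iff_dvd.mp (T.hYdeg χ hχ)
    have h2 : (p : ℤ) ∣ (Cfsg.charDegree (χ : G → ℂ) : ℤ) := by exact_mod_cast hdiv
    have h3 := dvd_add h1 h2
    rw [sub_add_cancel] at h3
    exact hpe ((hεu.dvd_mul_left).mp h3)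
  have hge2 : ∀ χ : Cfsg.IrrCharacter G, χ ≠ Cfsg.Agent.Helper81.trivIrr G →
      2 ≤ Cfsg.charDegree (χ : G → ℂ) :=
    fun χ hχ => Cfsg.Agent.Helper67.br_perfect_deg hperf χ hχ
  -- the relation at 1
  have hrelZ : T.ε * (Cfsg.charDegree (θ₀ : G → ℂ) : ℤ)
      = 1 + ∑ χ ∈ T.X1, (Cfsg.charDegree (χ : G → ℂ) : ℤ)
        - ∑ χ ∈ T.X2, (Cfsg.charDegree (χ : G → ℂ) : ℤ) := by
    have h := T.hrel θ₀ hθ₀ 1 h1ord
    simp only [Cfsg.Agent.Helper81.irr_one_eq_charDegree] at h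
    exact_mod_cast h
  -- some character of the block has degree prime to q
  have hex : ∃ χ : Cfsg.IrrCharacter G, (χ ∈ T.Y ∨ χ ∈ T.X1 ∨ χ ∈ T.X2) ∧
      ¬ q ∣ Cfsg.charDegree (χ : G → ℂ) := by
    by_contra hcon
    push Not at hcon
    have hqZ : ∀ χ : Cfsg.IrrCharacter G, (χ ∈ T.Y ∨ χ ∈ T.X1 ∨ χ ∈ T.X2) →
        (q : ℤ) ∣ (Cfsg.charDegree (χ : G → ℂ) : ℤ) := by
      intro χ hχ
      exact_mod_cast hcon χ hχ
    have h1 : (q : ℤ) ∣ ∑ χ ∈ T.X1, (Cfsg.charDegree (χ : G → ℂ) : ℤ) :=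
      Finset.dvd_sum (fun χ hχ => hqZ χ (Or.inr (Or.inl hχ)))
    have h2 : (q : ℤ) ∣ ∑ χ ∈ T.X2, (Cfsg.charDegree (χ : G → ℂ) : ℤ) :=
      Finset.dvd_sum (fun χ hχ => hqZ χ (Or.inr (Or.inr hχ)))
    have h3 : (q : ℤ) ∣ T.ε * (Cfsg.charDegree (θ₀ : G → ℂ) : ℤ) :=
      Dvd.dvd.mul_left (hqZ θ₀ (Or.inl hθ₀)) _
    have h4 : (q : ℤ) ∣ 1 := by
      have h5 : (1 : ℤ) = T.ε * (Cfsg.charDegree (θ₀ : G → ℂ) : ℤ)
          - ∑ χ ∈ T.X1, (Cfsg.charDegree (χ : G → ℂ) : ℤ)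
          + ∑ χ ∈ T.X2, (Cfsg.charDegree (χ : G → ℂ) : ℤ) := by rw [hrelZ]; ring
      rw [h5]
      exact dvd_add (dvd_sub h3 h1) h2
    have h6 : q ∣ 1 := by exact_mod_cast h4
    have := Nat.le_of_dvd one_pos h6
    have := hq.two_le
    omega
  obtain ⟨χ₀, hχ₀, hqχ₀⟩ := hex
  have hrZ1 : (1 : ℤ) < (r : ℤ) := by exact_mod_cast hr.one_lt
  have hrZp : (r : ℤ) < (p : ℤ) := by exact_mod_cast hrp
  have hθdeg : ∃ θ ∈ T.Y, Cfsg.charDegree (θ : G → ℂ) = r := by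
    rcases hχ₀ with h | h | h
    · exact ⟨χ₀, h, hkey _ (hdvd χ₀) (hpY χ₀ h) hqχ₀ (hge2 χ₀ (fun h' => T.h1Y (h' ▸ h)))⟩
    · exfalso
      have hd : Cfsg.charDegree (χ₀ : G → ℂ) = r :=
        hkey _ (hdvd χ₀) (hpX1 χ₀ h) hqχ₀ (hge2 χ₀ (fun h' => T.h1X1 (h' ▸ h)))
      have h1 := Int.modEq_iff_dvd.mp (T.hX1 χ₀ h).1
      rw [hd] at h1
      obtain ⟨k, hk⟩ := h1
      rcases le_or_gt 0 k with hk0 | hk0
      · nlinarith
      · nlinarith
    · exfalso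
      have hd : Cfsg.charDegree (χ₀ : G → ℂ) = r :=
        hkey _ (hdvd χ₀) (hpX2 χ₀ h) hqχ₀ (hge2 χ₀ (fun h' => T.h1X2 (h' ▸ h)))
      have h1 := Int.modEq_iff_dvd.mp (T.hX2 χ₀ h).1
      rw [hd] at h1
      obtain ⟨k, hk⟩ := h1
      have hk1 : k = -1 := by
        rcases lt_trichotomy k (-1) with hk0 | hk0 | hk0
        · nlinarith
        · exact hk0
        · nlinarith
      have hrp1 : r + 1 = p := by
        have : (r : ℤ) + 1 = (p : ℤ) := by rw [hk1] at hk; linarith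
        exact_mod_cast this
      have hr2' : r = 2 := by
        rcases hr.eq_two_or_odd with h2 | h2
        · exact h2
        · rcases hpp.eq_two_or_odd with h3 | h3 <;> omega
      exact simple_no_degree_two hnc χ₀ (by rw [hd, hr2'])
  obtain ⟨θ, hθ, hθr⟩ := hθdeg
  have hr3 : 3 ≤ r := by
    by_contra hlt
    have hr2' : r = 2 := by omega
    exact simple_no_degree_two hnc θ (by rw [hθr, hr2'])
  have hall : ∀ θ' ∈ T.Y, Cfsg.charDegree (θ' : G → ℂ) = r := by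
    intro θ' hθ'
    have h1 := T.hYreg θ' hθ' θ hθ 1 h1ord
    rw [Cfsg.Agent.Helper81.irr_one_eq_charDegree, Cfsg.Agent.Helper81.irr_one_eq_charDegree,
      hθr] at h1
    exact_mod_cast h1
  refine ⟨hr3, hall, ⟨θ, hθ⟩, ?_⟩
  have h1 := Int.modEq_iff_dvd.mp (T.hYdeg θ hθ)
  rw [hθr] at h1
  have heZ2 : (2 : ℤ) ≤ (e : ℤ) := by exact_mod_cast he2
  have heZp : (e : ℤ) < (p : ℤ) := by
    have : e < p := by omega
    exact_mod_cast this
  rcases T.hε with hε | hε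
  · left
    refine ⟨hε, ?_⟩
    rw [hε, one_mul] at h1
    obtain ⟨k, hk⟩ := h1
    have hk0 : k = 0 := by
      rcases lt_trichotomy k 0 with hk0 | hk0 | hk0
      · nlinarith
      · exact hk0
      · nlinarith
    rw [hk0, mul_zero] at hk
    have : (e : ℤ) = (r : ℤ) := by linarith
    exact_mod_cast this
  · right
    refine ⟨hε, ?_⟩
    rw [hε] at h1
    obtain ⟨k, hk⟩ := h1
    have hk1 : k = -1 := by
      rcases lt_trichotomy k (-1) with hk0 | hk0 | hk0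
      · nlinarith
      · exact hk0
      · nlinarith
    rw [hk1] at hk
    have : (e : ℤ) + (r : ℤ) = (p : ℤ) := by linarith
    exact_mod_cast this

end Cfsg.Agent.Helper79
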