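import Mathlib
import Cfsg.Agent.Helper9.BRDefs
import Cfsg.Agent.Helper75.BRNF
import Cfsg.Agent.Helper79.BRXA1h
import Cfsg.Agent.Helper79.PrimeDeg
import Cfsg.Agent.Helper67.BRK5
import Cfsg.Agent.Helper78.Counting
import Cfsg.Agent.Helper79.S998BUD
import Cfsg.Agent.Helper79.S998DEG
import Cfsg.Agent.Helper79.S998CP
import Cfsg.Agent.Helper51.S998SYL
import Cfsg.Agent.Helper51.S998VAN
import Cfsg.Agent.Helper51.S998NB3F
import Cfsg.Agent.Helper11.S998PART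
import Cfsg.Agent.Helper84.S998NA
import Cfsg.Agent.Helper84.S998NB2
import Cfsg.Agent.Helper84.S998NB3S
import Cfsg.Agent.Helper84.S998NB3O
import Cfsg.Agent.Helper57.S998NB3C

/-!
# S0998, assembly of the core (helper79)

In a non-cyclic simple group of order `p * r * q ^ b` with `r < p` one has `r = 3`.
-/

set_option autoImplicit false
open Cfsg
open scoped ComplexConjugate

universe u

namespace Cfsg.Agent.Helper79

theorem s998_num_beta_big {ι : Type*} (X1 X2 : Finset ι) (d : ι → ℕ) (p q r b e t n : ℕ)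
    (hp : p.Prime) (hq : q.Prime) (hr : r.Prime) (hpq : p ≠ q) (hpr : p ≠ r) (hqr : q ≠ r)
    (hr3 : 3 ≤ r) (he3 : 3 ≤ e) (hep : e + r = p) (het : e * t = p - 1)
    (hcard : r * q ^ b = e * (1 + n * p))
    (hd1 : ∀ χ ∈ X1, ((d χ : ℤ) ≡ 1 [ZMOD p]) ∧ 2 ≤ d χ ∧ d χ ∣ p * r * q ^ b)
    (hd2 : ∀ χ ∈ X2, ((d χ : ℤ) ≡ -1 [ZMOD p]) ∧ 2 ≤ d χ ∧ d χ ∣ p * r * q ^ b)
    (hle1 : ∀ χ ∈ X1, d χ ≤ r ^ 2) (hle2 : ∀ χ ∈ X2, d χ ≤ r ^ 2)
    (hrel : -(r : ℤ) = 1 + ∑ χ ∈ X1, (d χ : ℤ) - ∑ χ ∈ X2, (d χ : ℤ)) : False := by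
  obtain ⟨c, hc1, hec, hpb⟩ := Cfsg.Agent.Helper84.s998_nb3_setup p q r b e n hp hq hr hpq hpr hqr hr3 he3 hep hcard
  obtain ⟨h, hh1, hph, hneg, hpos⟩ := Cfsg.Agent.Helper84.s998_nb3_order p q b hp (by omega) hpb
  have hch : c < h := by
    have h1 : p ≤ q ^ h + 1 := Nat.le_of_dvd (by positivity) hph
    have h2 : q ^ c < q ^ h := by rw [← hec]; omega
    exact (Nat.pow_lt_pow_iff_right hq.one_lt).mp h2
  obtain ⟨h1, h2⟩ := Cfsg.Agent.Helper57.s998_nb3_class X1 X2 d p q r b e c h hp hq hr hpq hpr hqr hr3 he3 hep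
    hc1 hch hec hph hneg hpos hd1 hd2 hle1 hle2
  have hX1 : ∑ χ ∈ X1, (d χ : ℤ) = (X1.card : ℤ) * ((r * q ^ (h - c) : ℕ) : ℤ) := by
    rw [Finset.sum_congr rfl (fun χ hχ => by rw [h1 χ hχ] :
      ∀ χ ∈ X1, (d χ : ℤ) = ((r * q ^ (h - c) : ℕ) : ℤ))]
    simp
  have hX2 : ∑ χ ∈ X2, (d χ : ℤ) = (X2.card : ℤ) * ((q ^ h : ℕ) : ℤ) := by
    rw [Finset.sum_congr rfl (fun χ hχ => by rw [h2 χ hχ] :
      ∀ χ ∈ X2, (d χ : ℤ) = ((q ^ h : ℕ) : ℤ))]
    simp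
  have hfin : X2.card * q ^ h = 1 + r + X1.card * (r * q ^ (h - c)) := by
    have h3 : ((X2.card * q ^ h : ℕ) : ℤ) = ((1 + r + X1.card * (r * q ^ (h - c)) : ℕ) : ℤ) := by
      rw [hX1, hX2] at hrel
      push_cast at hrel ⊢
      linarith
    exact_mod_cast h3
  exact Cfsg.Agent.Helper51.s998_nb3_final p q r e t c h X1.card X2.card hp hq hr hpq hpr hqr hr3 he3 hep het
    hc1 hch hec hph hfin

theorem s998_core {G : Type u} [Group G] [Finite G] [IsSimpleGroup G] (hG : ¬ IsCyclic G)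
    (p q r b : ℕ) (hp : p.Prime) (hq : q.Prime) (hr : r.Prime) (hpq : p ≠ q) (hpr : p ≠ r)
    (hqr : q ≠ r) (hrp : r < p) (hcard : Nat.card G = p * r * q ^ b) : r = 3 := by
  classical
  haveI : Fintype G := Fintype.ofFinite G
  haveI : Fact p.Prime := ⟨hp⟩
  have hp2 := hp.two_le
  have hnc : ¬ ∀ a b : G, a * b = b * a := by
    intro hc
    let _ : CommGroup G := { ‹Group G› with mul_comm := hc }
    exact hG (IsSimpleGroup.isCyclic)
  have hperf : commutator G = ⊤ := Cfsg.Agent.Helper79.simple_commutator_eq_top hnc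
  obtain ⟨P⟩ : Nonempty (Sylow p G) := inferInstance
  have hP : Nat.card (P : Subgroup G) = p := Cfsg.Agent.Helper51.s998_sylow_card p q r b hq hr hpq hpr hcard P
  obtain ⟨hodd, e, n, v, he, he2, hed, hn1, hv1, hSyl, hCv, hGc⟩ :=
    Cfsg.Agent.Helper79.brn_setup hperf p P hP
  obtain ⟨M, hM⟩ := Cfsg.Agent.Helper78.exists_isPModular p hp
  obtain ⟨T⟩ := Cfsg.Agent.Helper75.br_tab_exists p M hM hodd P hP e he he2
  obtain ⟨hr3, hYdeg, ⟨θ, hθ⟩, hcase⟩ :=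
    s998_deg hG P e T he2 hed q r b hq hr hpq hpr hqr hrp hcard
  have hfaith : ∀ g : G, (θ : G → ℂ) g = (θ : G → ℂ) 1 → g = 1 :=
    Cfsg.Agent.Helper79.simple_irr_faithful θ (by rw [hYdeg θ hθ]; omega)
  have hC : Nat.card (Subgroup.centralizer ((P : Subgroup G) : Set G)) = p :=
    s998_cent hM P hP e T θ hθ (by rw [hYdeg θ hθ]; exact hrp) hfaith
  have hvan := Cfsg.Agent.Helper51.s998_psing_conj P hP hC
  have hpart := fun F hF => Cfsg.Agent.Helper11.s998_sum_psing P hP hC e he hvan F hF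
  have hv : v = 1 := by
    have h1 : p * v = p * 1 := by rw [← hCv, hC, mul_one]
    exact Nat.eq_of_mul_eq_mul_left hp.pos h1
  subst hv
  obtain ⟨t, ht⟩ := hed
  have het : e * t = p - 1 := ht.symm
  have ht2 : 2 ≤ t := by
    by_contra hlt
    have ht01 : t = 0 ∨ t = 1 := by omega
    rcases ht01 with h0 | h1
    · subst h0; omega
    · subst h1
      rcases hcase with ⟨_, her⟩ | ⟨_, her⟩
      · rcases hr.eq_two_or_odd with h2 | h2
        · omega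
        · rcases hp.eq_two_or_odd with h3 | h3 <;> omega
      · omega
  obtain ⟨hB1, hB2, hB3, hB4⟩ := s998_budget hM P hP e t r hvan hpart T het ht2 hYdeg
  have hd1 : ∀ χ ∈ T.X1, ((Cfsg.charDegree (χ : G → ℂ) : ℤ) ≡ 1 [ZMOD p]) ∧
      2 ≤ Cfsg.charDegree (χ : G → ℂ) ∧ Cfsg.charDegree (χ : G → ℂ) ∣ p * r * q ^ b := by
    intro χ hχ
    refine ⟨(T.hX1 χ hχ).1,
      Cfsg.Agent.Helper67.br_perfect_deg hperf χ (fun h => T.h1X1 (h ▸ hχ)), ?_⟩
    rw [← hcard]; exact Cfsg.Agent.Helper78.charDegree_dvd_card χ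
  have hd2 : ∀ χ ∈ T.X2, ((Cfsg.charDegree (χ : G → ℂ) : ℤ) ≡ -1 [ZMOD p]) ∧
      2 ≤ Cfsg.charDegree (χ : G → ℂ) ∧ Cfsg.charDegree (χ : G → ℂ) ∣ p * r * q ^ b := by
    intro χ hχ
    refine ⟨(T.hX2 χ hχ).1,
      Cfsg.Agent.Helper67.br_perfect_deg hperf χ (fun h => T.h1X2 (h ▸ hχ)), ?_⟩
    rw [← hcard]; exact Cfsg.Agent.Helper78.charDegree_dvd_card χ
  have hrelZ : (T.ε : ℤ) * (r : ℤ) = 1 + ∑ χ ∈ T.X1, (Cfsg.charDegree (χ : G → ℂ) : ℤ)
      - ∑ χ ∈ T.X2, (Cfsg.charDegree (χ : G → ℂ) : ℤ) := by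
    have h1ord : ¬ p ∣ orderOf (1 : G) := by
      rw [orderOf_one]
      intro h
      have := Nat.le_of_dvd one_pos h
      omega
    have h := T.hrel θ hθ 1 h1ord
    simp only [Cfsg.Agent.Helper81.irr_one_eq_charDegree, hYdeg θ hθ] at h
    exact_mod_cast h
  rcases hcase with ⟨hε, her⟩ | ⟨hε, her⟩
  · -- case α
    subst her
    exact Cfsg.Agent.Helper84.s998_num_alpha T.X1 T.X2 (fun χ => Cfsg.charDegree (χ : G → ℂ)) p q e b t hp hq hr
      hpq hpr hqr hr3 het hd1 hd2 T.hcard hB1 hB2 hB4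
  · -- case β
    rw [hε] at hrelZ
    have hrel' : -(r : ℤ) = 1 + ∑ χ ∈ T.X1, (Cfsg.charDegree (χ : G → ℂ) : ℤ)
        - ∑ χ ∈ T.X2, (Cfsg.charDegree (χ : G → ℂ) : ℤ) := by
      rw [← hrelZ]; ring
    rcases Nat.lt_or_ge e 3 with he3 | he3
    · have he2' : e = 2 := by omega
      exact Cfsg.Agent.Helper84.s998_num_beta_two T.X1 T.X2 (fun χ => Cfsg.charDegree (χ : G → ℂ)) p q r b hp hq hr
        hpq hpr hqr hr3 (he2' ▸ her) hd1 hd2 (he2' ▸ T.hcard) hrel'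
    · exfalso
      have hcard' : r * q ^ b = e * (1 + n * p) := by
        have h1 : p * (r * q ^ b) = p * (e * (1 + n * p)) := by
          rw [← mul_assoc, ← hcard, hGc]; ring
        exact Nat.eq_of_mul_eq_mul_left hp.pos h1
      have hle1 : ∀ χ ∈ T.X1, Cfsg.charDegree (χ : G → ℂ) ≤ r ^ 2 := by
        intro χ hχ
        have h1 : (Cfsg.charDegree (χ : G → ℂ) : ℤ)
            ≤ ∑ χ ∈ T.X1, (Cfsg.charDegree (χ : G → ℂ) : ℤ) :=
          Finset.single_le_sum (f := fun χ : Cfsg.IrrCharacter G =>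
            (Cfsg.charDegree (χ : G → ℂ) : ℤ)) (fun i _ => Int.natCast_nonneg _) hχ
        have h2 : (Cfsg.charDegree (χ : G → ℂ) : ℤ) ≤ ((r ^ 2 : ℕ) : ℤ) := by
          push_cast; linarith
        exact_mod_cast h2
      have hle2 : ∀ χ ∈ T.X2, Cfsg.charDegree (χ : G → ℂ) ≤ r ^ 2 := by
        intro χ hχ
        have h1 : (Cfsg.charDegree (χ : G → ℂ) : ℤ)
            ≤ ∑ χ ∈ T.X2, (Cfsg.charDegree (χ : G → ℂ) : ℤ) :=
          Finset.single_le_sum (f := fun χ : Cfsg.IrrCharacter G =>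
            (Cfsg.charDegree (χ : G → ℂ) : ℤ)) (fun i _ => Int.natCast_nonneg _) hχ
        have h2 : (Cfsg.charDegree (χ : G → ℂ) : ℤ) ≤ ((r ^ 2 : ℕ) : ℤ) := by
          push_cast; linarith
        exact_mod_cast h2
      exact s998_num_beta_big T.X1 T.X2 (fun χ => Cfsg.charDegree (χ : G → ℂ)) p q r b e t n
        hp hq hr hpq hpr hqr hr3 he3 her het hcard' hd1 hd2 hle1 hle2 hrel'

end Cfsg.Agent.Helper79
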